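import Mathlib
import Cfsg.Agent.GeoPrime.Proper

/-!
Clifford theory in prime dimension: a normal subgroup of an irreducible group is scalar, or fixes
the lines of a system of imprimitivity, or lies in a field of matrices, or is absolutely irreducible.
-/

set_option autoImplicit false

namespace CfsgLib.GeoPrime

open Matrix

variable {n : ℕ} {F : Type*} [Field F]

/-- The subspaces invariant under `N`. -/
def Invariant (N : Subgroup (GL (Fin n) F)) (W : Submodule F (Fin n → F)) : Prop :=
  ∀ x ∈ N, ∀ v ∈ W, (x : Matrix (Fin n) (Fin n) F) *ᵥ v ∈ W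

/-- Translating by `g`. -/
noncomputable def translate (g : GL (Fin n) F) (W : Submodule F (Fin n → F)) : Submodule F (Fin n → F) :=
  W.map (Matrix.toLin' (g : Matrix (Fin n) (Fin n) F))

theorem finrank_translate (g : GL (Fin n) F) (W : Submodule F (Fin n → F)) :
    Module.finrank F (translate g W) = Module.finrank F W :=
  (Submodule.equivMapOfInjective _ (fun u v h => gl_inj g (by simpa using h)) W).finrank_eq.symm

/-- Vectors spanning under a group of symmetries: the dimension of a minimal invariant subspace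
divides `n`. -/
theorem exists_translates_span {G N : Subgroup (GL (Fin n) F)}
    (hG : Cfsg.Geo.ActsIrreducibly (Cfsg.Geo.matrixSet G))
    (hN : ∀ g ∈ G, ∀ x ∈ N, g * x * g⁻¹ ∈ N) {W : Submodule F (Fin n → F)} (hW0 : W ≠ ⊥)
    (hWN : Invariant N W) (hmin : ∀ U, Invariant N U → U < W → U = ⊥) :
    Module.finrank F W ∣ n := by
  classical
  let P : Submodule F (Fin n → F) → Prop := fun U => Invariant N U ∧ Module.finrank F W ∣ Module.finrank F U
  obtain ⟨U, ⟨hUN, hUd⟩, hUmax⟩ := WellFounded.has_min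
    (wellFounded_gt (α := Submodule F (Fin n → F))) {U | P U}
    ⟨⊥, fun x _ v hv => by simp [(Submodule.mem_bot F).mp hv], by simp⟩
  have htinv : ∀ g ∈ G, Invariant N (translate g W) := by
    rintro g hg x hx _ ⟨v, hv, rfl⟩
    refine ⟨((g⁻¹ * x * g : GL (Fin n) F) : Matrix (Fin n) (Fin n) F) *ᵥ v,
      hWN _ (by simpa using hN g⁻¹ (G.inv_mem hg) x hx) v hv, ?_⟩
    simp only [Matrix.toLin'_apply, mulVec_mulVec, ← Units.val_mul]
    congr 2
    group
  have hle : ∀ g ∈ G, translate g W ≤ U := by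
    intro g hg
    by_contra hnle
    set T := translate g W with hT
    -- the intersection is invariant, so trivial
    have hTU : T ⊓ U = ⊥ := by
      have hpre : (T ⊓ U).comap (Matrix.toLin' (g : Matrix (Fin n) (Fin n) F)) = ⊥ := by
        apply hmin
        · intro x hx v hv
          simp only [Submodule.mem_comap, Matrix.toLin'_apply, Submodule.mem_inf] at hv ⊢
          have hmem := hN g hg x hx
          have e : (g : Matrix (Fin n) (Fin n) F) *ᵥ ((x : Matrix (Fin n) (Fin n) F) *ᵥ v) =
              ((g * x * g⁻¹ : GL (Fin n) F) : Matrix (Fin n) (Fin n) F) *ᵥ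
                ((g : Matrix (Fin n) (Fin n) F) *ᵥ v) := by
            rw [mulVec_mulVec, mulVec_mulVec, ← Units.val_mul, ← Units.val_mul, inv_mul_cancel_right]
          rw [e]
          exact ⟨htinv g hg _ hmem _ hv.1, hUN _ hmem _ hv.2⟩
        · refine lt_of_le_of_ne (fun v hv => ?_) fun heq => hnle ?_
          · obtain ⟨⟨v', hv', he⟩, -⟩ := Submodule.mem_inf.mp (Submodule.mem_comap.mp hv)
            have : v' = v := gl_inj g (by simpa using he)
            exact this ▸ hv'
          · rintro _ ⟨v, hv, rfl⟩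
            exact (Submodule.mem_inf.mp (Submodule.mem_comap.mp (heq.symm ▸ hv))).2
      rw [eq_bot_iff]
      intro z hz
      obtain ⟨v, hv, rfl⟩ := (Submodule.mem_inf.mp hz).1
      have : v ∈ (T ⊓ U).comap (Matrix.toLin' (g : Matrix (Fin n) (Fin n) F)) := hz
      rw [hpre, Submodule.mem_bot] at this
      simp [this]
    refine hUmax (T ⊔ U) ⟨?_, ?_⟩ (lt_of_le_of_ne le_sup_right fun e => hnle (e ▸ le_sup_left))
    · intro x hx v hv
      obtain ⟨a, ha, b, hb, rfl⟩ := Submodule.mem_sup.mp hv
      rw [mulVec_add]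
      exact Submodule.add_mem_sup (htinv g hg x hx a ha) (hUN x hx b hb)
    · have h := Submodule.finrank_sup_add_finrank_inf_eq T U
      rw [hTU, finrank_bot, add_zero] at h
      rw [h, hT, finrank_translate]
      exact dvd_add dvd_rfl hUd
  -- the sum of all translates is invariant, so everything
  have htop : U = ⊤ := by
    let S : Submodule F (Fin n → F) := ⨆ g ∈ G, translate g W
    have hSU : S ≤ U := iSup₂_le hle
    have hWS : W ≤ S := fun w hw => Submodule.mem_iSup_of_mem 1 (Submodule.mem_iSup_of_mem G.one_mem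
      ⟨w, hw, by simp⟩)
    have hSG : ∀ h ∈ G, ∀ v ∈ S, (h : Matrix (Fin n) (Fin n) F) *ᵥ v ∈ S := by
      intro h hh v hv
      have hmap : S.map (Matrix.toLin' (h : Matrix (Fin n) (Fin n) F)) ≤ S := by
        simp only [S, Submodule.map_iSup]
        refine iSup₂_le fun g hg => ?_
        rintro _ ⟨_, ⟨w, hw, rfl⟩, rfl⟩
        exact Submodule.mem_iSup_of_mem (h * g) (Submodule.mem_iSup_of_mem (G.mul_mem hh hg)
          ⟨w, hw, by simp [mulVec_mulVec]⟩)
      exact hmap ⟨v, hv, by simp⟩
    rcases (irreducible_iff G).mp hG S hSG with h | h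
    · exact absurd (eq_bot_iff.mpr (h ▸ hWS)) hW0
    · exact eq_top_iff.mpr (h ▸ hSU)
  rw [htop, finrank_top, Module.finrank_fin_fun] at hUd
  exact hUd

/-- The centraliser algebra of a set of invertible matrices. -/
noncomputable def centAlg (N : Subgroup (GL (Fin n) F)) : Subalgebra F (Matrix (Fin n) (Fin n) F) :=
  Subalgebra.centralizer F (Cfsg.Geo.matrixSet N)

theorem mem_centAlg {N : Subgroup (GL (Fin n) F)} {M : Matrix (Fin n) (Fin n) F} :
    M ∈ centAlg N ↔ ∀ x ∈ N, (x : Matrix (Fin n) (Fin n) F) * M = M * x := by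
  rw [centAlg, Subalgebra.mem_centralizer_iff]
  exact ⟨fun h x hx => h _ ⟨x, hx, rfl⟩, by rintro h _ ⟨x, hx, rfl⟩; exact h x hx⟩

variable [Fintype F]

/-- Clifford's theorem in prime dimension. -/
theorem clifford_data {G N : Subgroup (GL (Fin n) F)} (hn : n.Prime)
    (hG : Cfsg.Geo.ActsIrreducibly (Cfsg.Geo.matrixSet G))
    (hN : ∀ g ∈ G, ∀ x ∈ N, g * x * g⁻¹ ∈ N) :
    N ≤ Cfsg.Geo.scalars (Fin n) F ∨
    ((∀ x ∈ N, ∀ y ∈ N, x * y = y * x) ∧ ∃ b : Module.Basis (Fin n) F (Fin n → F),
      G ≤ Cfsg.Geo.decompositionStabilizer (basisLines b) ∧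
      ∃ l : Fin n → N → F, Function.Injective l ∧
        ∀ i (x : N), (x.1 : Matrix (Fin n) (Fin n) F) *ᵥ b i = l i x • b i) ∨
    ((∀ x ∈ N, ∀ y ∈ N, x * y = y * x) ∧ ∃ K : Subalgebra F (Matrix (Fin n) (Fin n) F),
      Cfsg.Geo.IsFieldSubalgebra n K ∧ G ≤ Cfsg.Geo.subalgebraNormalizer K ∧
      ∀ x ∈ N, (x : Matrix (Fin n) (Fin n) F) ∈ K) ∨
    Cfsg.Geo.ActsAbsolutelyIrreducibly (Cfsg.Geo.matrixSet N) := by
  classical
  haveI : NeZero n := ⟨hn.ne_zero⟩
  obtain ⟨W, ⟨hW0, hWN⟩, hmin⟩ := WellFounded.has_min (wellFounded_lt (α := Submodule F (Fin n → F)))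
    {W | W ≠ ⊥ ∧ Invariant N W}
    ⟨⊤, by
      intro h
      have := congrArg (fun W : Submodule F (Fin n → F) => Module.finrank F W) h
      simp [hn.ne_zero] at this, fun _ _ _ _ => Submodule.mem_top⟩
  have hmin' : ∀ U, Invariant N U → U < W → U = ⊥ := fun U hU hlt =>
    by_contra fun h => hmin U ⟨h, hU⟩ hlt
  have hd := exists_translates_span hG hN hW0 hWN hmin'
  rcases (Nat.dvd_prime hn).mp hd with h1 | hfull
  swap
  · -- `N` is irreducible
    have hWtop : W = ⊤ := Submodule.eq_top_of_finrank_eq (by rw [hfull, Module.finrank_fin_fun])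
    have hirr : Cfsg.Geo.ActsIrreducibly (Cfsg.Geo.matrixSet N) := by
      refine (irreducible_iff N).mpr fun U hU => ?_
      by_cases hUt : U = ⊤
      · exact Or.inr hUt
      · exact Or.inl (hmin' U hU (hWtop ▸ lt_top_iff_ne_top.mpr hUt))
    set C := centAlg N with hC
    have hunit : ∀ M ∈ C, ∀ v, v ≠ 0 → M *ᵥ v = 0 → M = 0 := by
      intro M hM v hv hMv
      rcases (irreducible_iff N).mp hirr (LinearMap.ker (Matrix.toLin' M)) (fun x hx w hw => by
        rw [LinearMap.mem_ker, Matrix.toLin'_apply] at hw ⊢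
        rw [mulVec_mulVec, ← mem_centAlg.mp hM x hx, ← mulVec_mulVec, hw, mulVec_zero]) with h | h
      · have : v ∈ LinearMap.ker (Matrix.toLin' M) := by simp [hMv]
        rw [h, Submodule.mem_bot] at this
        exact absurd this hv
      · exact Matrix.ext_iff_mulVec.mpr fun w => by
          have : w ∈ LinearMap.ker (Matrix.toLin' M) := h ▸ Submodule.mem_top
          simpa using this
    haveI : NoZeroDivisors C := ⟨fun {a b} hab => by
      by_cases hb : b = 0
      · exact Or.inr hb
      · refine Or.inl (Subtype.ext ?_)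
        obtain ⟨w, hw⟩ : ∃ w, (b : Matrix (Fin n) (Fin n) F) *ᵥ w ≠ 0 := by
          by_contra h
          push Not at h
          exact hb (Subtype.ext (Matrix.ext_iff_mulVec.mpr fun w => by simp [h w]))
        refine hunit a a.2 _ hw ?_
        rw [mulVec_mulVec, show (a : Matrix (Fin n) (Fin n) F) * b = 0 from congrArg Subtype.val hab,
          zero_mulVec]⟩
    haveI : Nontrivial C := ⟨⟨0, 1, fun h => by
      have := congrArg Subtype.val h
      exact zero_ne_one (α := Matrix (Fin n) (Fin n) F) this⟩⟩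
    haveI : IsDomain C := NoZeroDivisors.to_isDomain C
    haveI : Finite C := Finite.of_injective _ (Subtype.val_injective (p := (· ∈ C)))
    have hfield : IsField C := Finite.isDomain_to_isField C
    -- one vector determines an element of `C`
    obtain ⟨v0, hv0⟩ : ∃ v0 : Fin n → F, v0 ≠ 0 :=
      ⟨Pi.single 0 1, fun h => by simpa using congrFun h 0⟩
    let ev : C →ₗ[F] (Fin n → F) :=
      { toFun := fun k => (k : Matrix (Fin n) (Fin n) F) *ᵥ v0
        map_add' := fun a b => add_mulVec _ _ _
        map_smul' := fun c a => smul_mulVec _ _ _ }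
    have hev : Function.Injective ev := fun a b h => Subtype.ext (sub_eq_zero.mp
      (hunit _ (C.sub_mem a.2 b.2) v0 hv0 (by rw [sub_mulVec, sub_eq_zero]; exact h)))
    -- a `C`-invariant subspace with dimension a multiple of `dim C`
    have hdvd : Module.finrank F C ∣ n := by
      let P : Submodule F (Fin n → F) → Prop := fun U =>
        (∀ k ∈ C, ∀ v ∈ U, k *ᵥ v ∈ U) ∧ Module.finrank F C ∣ Module.finrank F U
      obtain ⟨U, ⟨hUC, hUd⟩, hUmax⟩ := WellFounded.has_min
        (wellFounded_gt (α := Submodule F (Fin n → F))) {U | P U}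
        ⟨⊥, fun k _ v hv => by simp [(Submodule.mem_bot F).mp hv], by simp⟩
      have : U = ⊤ := by
        by_contra hne
        obtain ⟨v, hv⟩ : ∃ v, v ∉ U := by
          by_contra h; push Not at h; exact hne (eq_top_iff.mpr fun y _ => h y)
        let evv : C →ₗ[F] (Fin n → F) :=
          { toFun := fun k => (k : Matrix (Fin n) (Fin n) F) *ᵥ v
            map_add' := fun a b => add_mulVec _ _ _
            map_smul' := fun c a => smul_mulVec _ _ _ }
        have hk : ∀ k : C, evv k ∈ U → k = 0 := by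
          intro k hkU
          by_contra hk0
          obtain ⟨j, hj⟩ := hfield.mul_inv_cancel hk0
          rw [hfield.mul_comm] at hj
          apply hv
          have := hUC (j : Matrix (Fin n) (Fin n) F) j.2 _ hkU
          simp only [evv, LinearMap.coe_mk, AddHom.coe_mk, mulVec_mulVec] at this
          rw [show (j : Matrix (Fin n) (Fin n) F) * k = 1 from congrArg Subtype.val hj, one_mulVec] at this
          exact this
        have hinj : Function.Injective evv := fun a b h => sub_eq_zero.mp (hk _ (by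
          rw [map_sub, h, sub_self]; exact U.zero_mem))
        refine hUmax (LinearMap.range evv ⊔ U) ⟨?_, ?_⟩ (lt_of_le_of_ne le_sup_right fun e => hv ?_)
        · intro k hk' x hx
          obtain ⟨_, ⟨a, rfl⟩, b, hb, rfl⟩ := Submodule.mem_sup.mp hx
          rw [mulVec_add]
          exact Submodule.add_mem_sup ⟨⟨k, hk'⟩ * a, by simp [evv, mulVec_mulVec]⟩ (hUC k hk' b hb)
        · have hbot : LinearMap.range evv ⊓ U = ⊥ := by
            rw [eq_bot_iff]
            rintro _ ⟨⟨a, rfl⟩, ha⟩
            simp [hk a ha]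
          have h := Submodule.finrank_sup_add_finrank_inf_eq (LinearMap.range evv) U
          rw [hbot, finrank_bot, add_zero, LinearMap.finrank_range_of_inj hinj] at h
          rw [h]
          exact dvd_add dvd_rfl hUd
        · rw [e]
          exact Submodule.mem_sup_left ⟨1, by simp [evv]⟩
      rwa [this, finrank_top, Module.finrank_fin_fun] at hUd
    rcases (Nat.dvd_prime hn).mp hdvd with hC1 | hCn
    · right; right; right
      refine ⟨hirr, fun M hM => ?_⟩
      have hMC : M ∈ C := mem_centAlg.mpr fun x hx => (hM _ ⟨x, hx, rfl⟩).symm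
      obtain ⟨c, hc⟩ := (finrank_eq_one_iff_of_nonzero' (1 : C) one_ne_zero).mp hC1 ⟨M, hMC⟩
      exact ⟨c, (congrArg Subtype.val hc).symm⟩
    · right; right; left
      -- `N` lies in `C`
      have hsurj : Function.Surjective ev := by
        have := LinearMap.injective_iff_surjective_of_finrank_eq_finrank
          (show Module.finrank F C = Module.finrank F (Fin n → F) by rw [hCn, Module.finrank_fin_fun]) (f := ev)
        exact this.mp hev
      have hNC : ∀ x ∈ N, (x : Matrix (Fin n) (Fin n) F) ∈ C := by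
        intro x hx
        obtain ⟨k, hk⟩ := hsurj ((x : Matrix (Fin n) (Fin n) F) *ᵥ v0)
        change (k : Matrix (Fin n) (Fin n) F) *ᵥ v0 = _ at hk
        have : (x : Matrix (Fin n) (Fin n) F) = k := Matrix.ext_iff_mulVec.mpr fun w => by
          obtain ⟨k', rfl⟩ := hsurj w
          show _ *ᵥ ((k' : Matrix (Fin n) (Fin n) F) *ᵥ v0) = _ *ᵥ ((k' : Matrix (Fin n) (Fin n) F) *ᵥ v0)
          rw [mulVec_mulVec, mem_centAlg.mp k'.2 x hx, ← mulVec_mulVec, ← hk, mulVec_mulVec,
            mulVec_mulVec]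
          exact congrArg (fun z : C => (z : Matrix (Fin n) (Fin n) F) *ᵥ v0) (hfield.mul_comm k' k)
        rw [this]; exact k.2
      refine ⟨fun x hx y hy => Units.ext (mem_centAlg.mp (hNC y hy) x hx), C, ⟨?_, ?_, hCn⟩, ?_, hNC⟩
      · exact fun a ha b hb => congrArg Subtype.val (hfield.mul_comm (⟨a, ha⟩ : C) ⟨b, hb⟩)
      · intro a ha ha0
        obtain ⟨b, hb⟩ := hfield.mul_inv_cancel (a := (⟨a, ha⟩ : C)) (fun h => ha0 (congrArg Subtype.val h))
        exact ⟨b, b.2, congrArg Subtype.val hb⟩
      · intro g hg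
        have key : ∀ g ∈ G, ∀ k ∈ C,
            (g : Matrix (Fin n) (Fin n) F) * k * ((g⁻¹ : GL (Fin n) F) : Matrix (Fin n) (Fin n) F) ∈ C := by
          intro g hg k hk
          refine mem_centAlg.mpr fun x hx => ?_
          have hy : g⁻¹ * x * g ∈ N := by simpa using hN g⁻¹ (G.inv_mem hg) x hx
          have h := mem_centAlg.mp hk _ hy
          simp only [Units.val_mul] at h
          calc (x : Matrix (Fin n) (Fin n) F) * ((g : Matrix (Fin n) (Fin n) F) * k * (g⁻¹ : GL (Fin n) F))
              = (g : Matrix (Fin n) (Fin n) F) * (((g⁻¹ : GL (Fin n) F) : Matrix (Fin n) (Fin n) F) * x * g * k) *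
                  (g⁻¹ : GL (Fin n) F) := by simp [mul_assoc]
            _ = _ := by rw [h]; simp [mul_assoc]
        refine mem_subalgebraNormalizer.mpr fun k => ⟨key g hg k, fun h => ?_⟩
        have := key g⁻¹ (G.inv_mem hg) _ h
        simpa [mul_assoc] using this
  -- common eigenvectors
  have heig : ∀ g ∈ G, ∀ w ∈ W, ∀ x ∈ N, ∃ c : F, (x : Matrix (Fin n) (Fin n) F) *ᵥ
      ((g : Matrix (Fin n) (Fin n) F) *ᵥ w) = c • ((g : Matrix (Fin n) (Fin n) F) *ᵥ w) := by
    intro g hg w hw x hx
    have hy : g⁻¹ * x * g ∈ N := by simpa using hN g⁻¹ (G.inv_mem hg) x hx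
    have e : (x : Matrix (Fin n) (Fin n) F) *ᵥ ((g : Matrix (Fin n) (Fin n) F) *ᵥ w) =
        (g : Matrix (Fin n) (Fin n) F) *ᵥ (((g⁻¹ * x * g : GL (Fin n) F) : Matrix (Fin n) (Fin n) F) *ᵥ w) := by
      rw [mulVec_mulVec, mulVec_mulVec, ← Units.val_mul, ← Units.val_mul]
      congr 2
      group
    rw [e]
    by_cases hw0 : w = 0
    · exact ⟨1, by simp [hw0]⟩
    obtain ⟨c, hc⟩ := (finrank_eq_one_iff_of_nonzero' (⟨w, hw⟩ : W)
      (fun h => hw0 (congrArg Subtype.val h))).mp h1
      ⟨((g⁻¹ * x * g : GL (Fin n) F) : Matrix (Fin n) (Fin n) F) *ᵥ w, hWN _ hy w hw⟩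
    refine ⟨c, ?_⟩
    rw [← mulVec_smul]
    exact congrArg (fun z : W => (g : Matrix (Fin n) (Fin n) F) *ᵥ (z : Fin n → F)) hc.symm
  -- a basis of eigenvectors
  let E : Set (Fin n → F) := {w | w ≠ 0 ∧ ∀ x ∈ N, ∃ c : F, (x : Matrix (Fin n) (Fin n) F) *ᵥ w = c • w}
  have hEG : ∀ g ∈ G, ∀ w ∈ E, (g : Matrix (Fin n) (Fin n) F) *ᵥ w ∈ E := by
    intro g hg w hw
    refine ⟨fun h => hw.1 (gl_inj g (by rw [h, mulVec_zero])), fun x hx => ?_⟩
    obtain ⟨c, hc⟩ := hw.2 _ (by simpa using hN g⁻¹ (G.inv_mem hg) x hx : g⁻¹ * x * g ∈ N)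
    refine ⟨c, ?_⟩
    have h := congrArg ((g : Matrix (Fin n) (Fin n) F) *ᵥ ·) hc
    simp only [mulVec_smul, mulVec_mulVec, ← Units.val_mul] at h
    rw [mulVec_mulVec, ← Units.val_mul, ← h]
    congr 2
    group
  obtain ⟨w1, hw1, hw10⟩ := W.ne_bot_iff.mp hW0
  have hw1E : w1 ∈ E := ⟨hw10, fun x hx => by simpa using heig 1 G.one_mem w1 hw1 x hx⟩
  have hEspan : Submodule.span F E = ⊤ := by
    rcases (irreducible_iff G).mp hG (Submodule.span F E) (fun g hg v hv => by
      have : (Submodule.span F E).map (Matrix.toLin' (g : Matrix (Fin n) (Fin n) F)) ≤ Submodule.span F E := by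
        rw [Submodule.map_span_le]
        intro w hw
        exact Submodule.subset_span (by simpa using hEG g hg w hw)
      exact this ⟨v, hv, by simp⟩) with h | h
    · exact absurd (h ▸ Submodule.subset_span hw1E : w1 ∈ (⊥ : Submodule F (Fin n → F))) (by simpa using hw10)
    · exact h
  obtain ⟨s, hsE, hsspan, hsli⟩ := exists_linearIndependent F E
  let b0 : Module.Basis s F (Fin n → F) :=
    Module.Basis.mk hsli (by rw [Subtype.range_coe_subtype, Set.setOf_mem_eq, hsspan, hEspan])
  haveI := Fintype.ofFinite s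
  have hcard : Fintype.card s = n := by
    rw [← Module.finrank_eq_card_basis b0, Module.finrank_fin_fun]
  let b : Module.Basis (Fin n) F (Fin n → F) := b0.reindex ((Fintype.equivFin s).trans (finCongr hcard))
  have hbE : ∀ i, b i ∈ E := fun i => by
    simp only [b, Module.Basis.reindex_apply, b0, Module.Basis.mk_apply]
    exact hsE (Subtype.prop _)
  choose l hl using fun i => fun x : N => (hbE i).2 x.1 x.2
  have hcomm : ∀ x ∈ N, ∀ y ∈ N, x * y = y * x := by
    intro x hx y hy
    refine Units.ext (Matrix.toLin'.injective (b.ext fun i => ?_))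
    simp only [Matrix.toLin'_apply, Units.val_mul, ← mulVec_mulVec, hl i ⟨x, hx⟩, hl i ⟨y, hy⟩,
      mulVec_smul, smul_smul, mul_comm]
  -- the coordinates of an eigenvector live on one character
  have huniq : ∀ (v : Fin n → F) (μ : N → F), (∀ x : N, (x.1 : Matrix (Fin n) (Fin n) F) *ᵥ v = μ x • v) →
      ∀ i, b.repr v i ≠ 0 → l i = μ := by
    intro v μ hμ i hi
    funext x
    have h := congrArg (fun z => b.repr z i) (hμ x)
    conv_lhs at h => rw [← b.sum_repr v]
    simp only [mulVec_sum, mulVec_smul, hl, smul_smul, map_sum, map_smul, b.repr_self,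
      Finsupp.coe_finsetSum, Finset.sum_apply, Finsupp.smul_apply, smul_eq_mul, Finsupp.single_apply,
      mul_ite, mul_one, mul_zero, Finset.sum_ite_eq', Finset.mem_univ, if_true] at h
    exact mul_left_cancel₀ hi (by rw [h, mul_comm])
  have hpush : ∀ g ∈ G, ∀ i, ∀ x : N, ∃ c : F, (x.1 : Matrix (Fin n) (Fin n) F) *ᵥ
      ((g : Matrix (Fin n) (Fin n) F) *ᵥ b i) = c • ((g : Matrix (Fin n) (Fin n) F) *ᵥ b i) :=
    fun g hg i x => (hEG g hg _ (hbE i)).2 x.1 x.2
  -- fibres of the characters
  let fib : (N → F) → Finset (Fin n) := fun μ => Finset.univ.filter fun i => l i = μ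
  have hfib : ∀ g ∈ G, ∀ i, ∃ j, b.repr ((g : Matrix (Fin n) (Fin n) F) *ᵥ b i) j ≠ 0 ∧
      (∀ k, b.repr ((g : Matrix (Fin n) (Fin n) F) *ᵥ b i) k ≠ 0 → l k = l j) ∧
      (fib (l i)).card ≤ (fib (l j)).card := by
    intro g hg i
    choose c hc using hpush g hg i
    obtain ⟨j, hj⟩ : ∃ j, b.repr ((g : Matrix (Fin n) (Fin n) F) *ᵥ b i) j ≠ 0 := by
      by_contra h
      push Not at h
      have : (g : Matrix (Fin n) (Fin n) F) *ᵥ b i = 0 := b.repr.injective (Finsupp.ext fun k => by simp [h k])
      exact b.ne_zero i (gl_inj g (by rw [this, mulVec_zero]))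
    have hall : ∀ i', l i' = l i → ∀ k, b.repr ((g : Matrix (Fin n) (Fin n) F) *ᵥ b i') k ≠ 0 → l k = l j := by
      intro i' hi' k hk
      have hev : ∀ x : N, (x.1 : Matrix (Fin n) (Fin n) F) *ᵥ ((g : Matrix (Fin n) (Fin n) F) *ᵥ b i') =
          c x • ((g : Matrix (Fin n) (Fin n) F) *ᵥ b i') := by
        intro x
        have hy : g⁻¹ * x.1 * g ∈ N := by simpa using hN g⁻¹ (G.inv_mem hg) x.1 x.2
        have key : ∀ i'', (x.1 : Matrix (Fin n) (Fin n) F) *ᵥ ((g : Matrix (Fin n) (Fin n) F) *ᵥ b i'') =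
            l i'' ⟨_, hy⟩ • ((g : Matrix (Fin n) (Fin n) F) *ᵥ b i'') := by
          intro i''
          have h := congrArg ((g : Matrix (Fin n) (Fin n) F) *ᵥ ·) (hl i'' ⟨_, hy⟩)
          simp only [mulVec_smul] at h
          rw [← h, mulVec_mulVec, mulVec_mulVec, ← Units.val_mul, ← Units.val_mul]
          congr 2
          group
        have e1 : c x = l i ⟨_, hy⟩ := by
          have h := (hc x).symm.trans (key i)
          have hne : (g : Matrix (Fin n) (Fin n) F) *ᵥ b i ≠ 0 :=
            fun h0 => b.ne_zero i (gl_inj g (by rw [h0, mulVec_zero]))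
          exact smul_left_injective F hne h
        rw [key i', e1, hi']
      exact (huniq _ c hev k hk).trans (huniq _ c hc j hj).symm
    refine ⟨j, hj, hall i rfl, ?_⟩
    -- the images are independent vectors in the span of the fibre
    let T := Submodule.span F (b '' ↑(fib (l j)))
    have hT : ∀ i' ∈ fib (l i), (g : Matrix (Fin n) (Fin n) F) *ᵥ b i' ∈ T := by
      intro i' hi'
      rw [Finset.mem_filter] at hi'
      rw [← b.sum_repr ((g : Matrix (Fin n) (Fin n) F) *ᵥ b i')]
      refine Submodule.sum_mem _ fun k _ => ?_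
      by_cases hk : b.repr ((g : Matrix (Fin n) (Fin n) F) *ᵥ b i') k = 0
      · simp [hk]
      · exact T.smul_mem _ (Submodule.subset_span ⟨k, by simp [fib, hall i' hi'.2 k hk], rfl⟩)
    let f : fib (l i) → T := fun i' => ⟨_, hT i'.1 i'.2⟩
    have hf : LinearIndependent F f := by
      apply LinearIndependent.of_comp T.subtype
      have := (b.linearIndependent.map' (Matrix.toLin' (g : Matrix (Fin n) (Fin n) F))
        (LinearMap.ker_eq_bot.mpr fun u v h => gl_inj g (by simpa using h))).comp
        (fun i' : fib (l i) => i'.1) Subtype.val_injective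
      rw [show T.subtype ∘ f = (⇑(Matrix.toLin' (g : Matrix (Fin n) (Fin n) F)) ∘ ⇑b) ∘
        fun i' : fib (l i) => i'.1 from funext fun i' => by simp [f]]
      exact this
    have h2 := hf.fintype_card_le_finrank
    rw [Fintype.card_coe] at h2
    refine h2.trans ?_
    have h3 := finrank_span_le_card (R := F) (b '' ↑(fib (l j)))
    refine h3.trans ?_
    rw [Set.toFinset_image]
    refine Finset.card_image_le.trans ?_
    simp
  -- transitivity
  have htrans : ∀ i k, ∃ g ∈ G, b.repr ((g : Matrix (Fin n) (Fin n) F) *ᵥ b i) k ≠ 0 := by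
    intro i k
    by_contra hcon
    push Not at hcon
    let S := Submodule.span F {v | ∃ g ∈ G, v = (g : Matrix (Fin n) (Fin n) F) *ᵥ b i}
    have hS : ∀ h ∈ G, ∀ v ∈ S, (h : Matrix (Fin n) (Fin n) F) *ᵥ v ∈ S := by
      intro h hh v hv
      have : S.map (Matrix.toLin' (h : Matrix (Fin n) (Fin n) F)) ≤ S := by
        rw [Submodule.map_span_le]
        rintro _ ⟨g, hg, rfl⟩
        exact Submodule.subset_span ⟨h * g, G.mul_mem hh hg, by simp [mulVec_mulVec]⟩
      exact this ⟨v, hv, by simp⟩
    have hk0 : S ≤ LinearMap.ker (b.coord k) := by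
      rw [Submodule.span_le]
      rintro _ ⟨g, hg, rfl⟩
      simp [hcon g hg]
    rcases (irreducible_iff G).mp hG S hS with h | h
    · have : b i ∈ S := Submodule.subset_span ⟨1, G.one_mem, by simp⟩
      rw [h, Submodule.mem_bot] at this
      exact b.ne_zero i this
    · have := hk0 (h ▸ Submodule.mem_top : b k ∈ S)
      simp at this
  have hsame : ∀ i k, (fib (l i)).card = (fib (l k)).card := by
    suffices ∀ i k, (fib (l i)).card ≤ (fib (l k)).card from fun i k => le_antisymm (this i k) (this k i)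
    intro i k
    obtain ⟨g, hg, hk⟩ := htrans i k
    obtain ⟨j, -, hj, hle⟩ := hfib g hg i
    rwa [hj k hk]
  let i0 : Fin n := 0
  have hdiv : (fib (l i0)).card ∣ n := by
    have h := Finset.card_eq_sum_card_image l (Finset.univ : Finset (Fin n))
    rw [Finset.card_univ, Fintype.card_fin] at h
    refine (Finset.dvd_sum fun μ hμ => ?_).trans (dvd_of_eq h.symm)
    obtain ⟨i, -, rfl⟩ := Finset.mem_image.mp hμ
    exact dvd_of_eq (hsame i0 i)
  rcases (Nat.dvd_prime hn).mp hdiv with hm | hm
  · -- the lines are permuted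
    right; left
    refine ⟨hcomm, b, fun g hg => ?_, l, fun i j hij => ?_, hl⟩
    swap
    · exact Finset.card_le_one.mp (hsame i0 j ▸ hm.le) i (by simp [fib, hij]) j (by simp [fib])
    have hline : ∀ i, ∃ j, (g : Matrix (Fin n) (Fin n) F) *ᵥ b i ∈ basisLines b j := by
      intro i
      obtain ⟨j, -, hall, -⟩ := hfib g hg i
      refine ⟨j, ?_⟩
      rw [← b.sum_repr ((g : Matrix (Fin n) (Fin n) F) *ᵥ b i)]
      refine Submodule.sum_mem _ fun k _ => ?_
      by_cases hk : b.repr ((g : Matrix (Fin n) (Fin n) F) *ᵥ b i) k = 0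
      · simp [hk]
      · have hlk := hall k hk
        have : k = j := Finset.card_le_one.mp (by rw [← hsame i0 j, hm]) k (by simp [fib, hlk]) j (by simp [fib])
        exact Submodule.smul_mem _ _ (this ▸ Submodule.mem_span_singleton_self _)
    choose σ hσ using hline
    have hmap : ∀ i, (basisLines b i).map (Matrix.toLin' (g : Matrix (Fin n) (Fin n) F)) = basisLines b (σ i) := by
      intro i
      refine Submodule.eq_of_le_of_finrank_eq ?_ ?_
      · rw [basisLines, Submodule.map_span_le]
        intro v hv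
        rw [Set.mem_singleton_iff] at hv
        subst hv
        simpa using hσ i
      · show Module.finrank F (translate g (basisLines b i)) = _
        rw [finrank_translate, basisLines, basisLines, finrank_span_singleton (b.ne_zero _),
          finrank_span_singleton (b.ne_zero _)]
    have hinj : Function.Injective σ := by
      intro i i' h
      have e := (hmap i).trans ((congrArg (basisLines b) h).trans (hmap i').symm)
      have e' : basisLines b i = basisLines b i' :=
        Submodule.map_injective_of_injective (fun u v h => gl_inj g (by simpa using h)) e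
      obtain ⟨c, hc⟩ := Submodule.mem_span_singleton.mp (e' ▸ Submodule.mem_span_singleton_self (b i) :
        b i ∈ basisLines b i')
      by_contra hne
      have := congrArg (fun v => b.repr v i) hc
      simp [Ne.symm hne] at this
    exact mem_decompositionStabilizer.mpr
      ⟨Equiv.ofBijective σ (Finite.injective_iff_bijective.mp hinj), hmap⟩
  · -- one character: scalars
    left
    have hall : ∀ i, l i = l i0 := fun i => by
      have : i ∈ fib (l i0) := by
        rw [Finset.eq_univ_of_card (fib (l i0)) (by rw [hm, Fintype.card_fin])]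
        exact Finset.mem_univ i
      simpa [fib] using this
    intro x hx
    have hM : (x : Matrix (Fin n) (Fin n) F) = (l i0 ⟨x, hx⟩) • 1 := by
      apply Matrix.toLin'.injective
      refine b.ext fun i => ?_
      simp [hl i ⟨x, hx⟩, hall i]
    have hne : l i0 ⟨x, hx⟩ ≠ 0 := fun h => by
      have := x.isUnit
      rw [hM, h, zero_smul] at this
      exact not_isUnit_zero this
    exact (Cfsg.Geo.mem_scalars_iff x).mpr ⟨Units.mk0 _ hne, hM⟩

theorem clifford {G N : Subgroup (GL (Fin n) F)} (hn : n.Prime)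
    (hG : Cfsg.Geo.ActsIrreducibly (Cfsg.Geo.matrixSet G))
    (hN : ∀ g ∈ G, ∀ x ∈ N, g * x * g⁻¹ ∈ N) :
    N ≤ Cfsg.Geo.scalars (Fin n) F ∨
    ((∀ x ∈ N, ∀ y ∈ N, x * y = y * x) ∧ ∃ b : Module.Basis (Fin n) F (Fin n → F),
      G ≤ Cfsg.Geo.decompositionStabilizer (basisLines b)) ∨
    ((∀ x ∈ N, ∀ y ∈ N, x * y = y * x) ∧ ∃ K : Subalgebra F (Matrix (Fin n) (Fin n) F),
      Cfsg.Geo.IsFieldSubalgebra n K ∧ G ≤ Cfsg.Geo.subalgebraNormalizer K) ∨
    Cfsg.Geo.ActsAbsolutelyIrreducibly (Cfsg.Geo.matrixSet N) :=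
  (clifford_data hn hG hN).imp_right (Or.imp (fun ⟨h, b, hb, _⟩ => ⟨h, b, hb⟩)
    (Or.imp_left fun ⟨h, K, hK, hle, _⟩ => ⟨h, K, hK, hle⟩))

end CfsgLib.GeoPrime
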