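import Mathlib
import Cfsg.Agent.GeoPrime.Proper

/-!
An absolutely irreducible class-two subgroup of SL in odd prime dimension is extraspecial of order
`n³` and monomial.
-/

set_option autoImplicit false

namespace CfsgLib.GeoPrime

open Matrix

variable {n : ℕ} {F : Type*} [Field F]

/-- What we know about the symplectic type subgroup. -/
structure Heisenberg (P : Subgroup (GL (Fin n) F)) (ω : F) (b : Module.Basis (Fin n) F (Fin n → F)) : Prop where
  prim : IsPrimitiveRoot ω n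
  monomial : ∀ g ∈ P, ∃ (c : Fin n → F) (a : Fin n),
    (∀ i, ∃ k : ℕ, c i = ω ^ k) ∧ ∀ i, (g : Matrix (Fin n) (Fin n) F) *ᵥ b i = c i • b (a + i)
  diag : ∃ x ∈ P, ∀ i : Fin n, (x : Matrix (Fin n) (Fin n) F) *ᵥ b i = ω ^ (i : ℕ) • b i
  card_eq : Nat.card P = n ^ 3
  pow_eq : ∀ g ∈ P, g ^ n = 1
  card_center : Nat.card (Subgroup.center P) = n

/-- Powers of two elements which commute up to a scalar. -/
theorem pow_commute_up_to {x y : Matrix (Fin n) (Fin n) F} {c : F} (h : x * y = c • (y * x)) :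
    ∀ k : ℕ, x ^ k * y = c ^ k • (y * x ^ k) ∧ x * y ^ k = c ^ k • (y ^ k * x) := by
  intro k
  induction k with
  | zero => simp
  | succ k ih =>
    constructor
    · rw [pow_succ, mul_assoc, h, mul_smul_comm, ← mul_assoc, ih.1, smul_mul_assoc, smul_smul, mul_assoc,
        pow_succ, mul_comm]
    · rw [pow_succ, ← mul_assoc, ih.2, smul_mul_assoc, mul_assoc, h, mul_smul_comm, smul_smul,
        ← mul_assoc, pow_succ c]

section Setup

variable [hn : Fact n.Prime] {P : Subgroup (GL (Fin n) F)}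
  (hP : Cfsg.Geo.ActsAbsolutelyIrreducibly (Cfsg.Geo.matrixSet P))
  (hS : P ≤ Cfsg.Geo.specialLinear (Fin n) F)
  (hc2 : ∀ x ∈ P, ∀ y ∈ P, x * y * x⁻¹ * y⁻¹ ∈ Cfsg.Geo.scalars (Fin n) F)

include hS in
theorem scalar_in_P {z : GL (Fin n) F} (hz : z ∈ P) {c : F}
    (hc : (z : Matrix (Fin n) (Fin n) F) = c • (1 : Matrix (Fin n) (Fin n) F)) : c ^ n = 1 := by
  have h := mem_specialLinear.mp (hS hz)
  rwa [hc, Matrix.det_smul, det_one, mul_one, Fintype.card_fin] at h

include hS hc2 in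
theorem exists_comm_scalar {x y : GL (Fin n) F} (hx : x ∈ P) (hy : y ∈ P) :
    ∃ c : F, c ^ n = 1 ∧ (x : Matrix (Fin n) (Fin n) F) * y = c • ((y : Matrix (Fin n) (Fin n) F) * x) := by
  obtain ⟨c, -, hc⟩ := scalar_matrix (hc2 x hx y hy)
  refine ⟨c, scalar_in_P hS (P.mul_mem (P.mul_mem (P.mul_mem hx hy) (P.inv_mem hx)) (P.inv_mem hy)) hc, ?_⟩
  calc (x : Matrix (Fin n) (Fin n) F) * y
      = ((x * y * x⁻¹ * y⁻¹ : GL (Fin n) F) : Matrix (Fin n) (Fin n) F) * ((y : Matrix (Fin n) (Fin n) F) * x) := by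
        simp only [← Units.val_mul]
        congr 1
        group
    _ = _ := by rw [hc, smul_mul_assoc, one_mul]

/-- Eigenvectors for the distinct eigenvalues `λ cⁱ`. -/
theorem eigenbasis {x y : GL (Fin n) F} {c l : F} (hc : IsPrimitiveRoot c n) (hl : l ≠ 0)
    (hxy : (x : Matrix (Fin n) (Fin n) F) * y = c • ((y : Matrix (Fin n) (Fin n) F) * x))
    {v : Fin n → F} (hv : v ≠ 0) (hxv : (x : Matrix (Fin n) (Fin n) F) *ᵥ v = l • v) :
    ∃ b : Module.Basis (Fin n) F (Fin n → F), (∀ i : Fin n, b i = ((y : Matrix (Fin n) (Fin n) F) ^ (i : ℕ)) *ᵥ v) ∧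
      ∀ i : Fin n, (x : Matrix (Fin n) (Fin n) F) *ᵥ b i = (l * c ^ (i : ℕ)) • b i := by
  haveI : NeZero n := ⟨hn.out.ne_zero⟩
  let w : Fin n → (Fin n → F) := fun i => ((y : Matrix (Fin n) (Fin n) F) ^ (i : ℕ)) *ᵥ v
  have hw : ∀ i, (x : Matrix (Fin n) (Fin n) F) *ᵥ w i = (l * c ^ (i : ℕ)) • w i := fun i => by
    simp only [w]
    rw [mulVec_mulVec, (pow_commute_up_to hxy (i : ℕ)).2, smul_mulVec, ← mulVec_mulVec, hxv, mulVec_smul,
      smul_smul, mul_comm]
  have hw0 : ∀ i, w i ≠ 0 := fun i h => hv (gl_inj (y ^ (i : ℕ)) (by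
    rw [Units.val_pow_eq_pow_val, mulVec_zero]; exact h))
  have hinj : Function.Injective fun i : Fin n => l * c ^ (i : ℕ) := fun i j h =>
    Fin.ext (hc.pow_inj i.2 j.2 (mul_left_cancel₀ hl h))
  have hli : LinearIndependent F w :=
    Module.End.eigenvectors_linearIndependent' (Matrix.toLin' (x : Matrix (Fin n) (Fin n) F)) _ hinj w
      fun i => ⟨Module.End.mem_eigenspace_iff.mpr (by rw [Matrix.toLin'_apply]; exact hw i), hw0 i⟩
  have : Nonempty (Fin n) := ⟨0⟩
  refine ⟨basisOfLinearIndependentOfCardEqFinrank hli (by simp), fun i => ?_, fun i => ?_⟩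
  · rw [coe_basisOfLinearIndependentOfCardEqFinrank]
  · rw [coe_basisOfLinearIndependentOfCardEqFinrank]; exact hw i

include hP hS hc2 in
theorem exists_noncommuting {x : GL (Fin n) F} (hx : x ∈ P) (hxs : x ∉ Cfsg.Geo.scalars (Fin n) F) :
    ∃ y ∈ P, ∃ c : F, IsPrimitiveRoot c n ∧
      (x : Matrix (Fin n) (Fin n) F) * y = c • ((y : Matrix (Fin n) (Fin n) F) * x) := by
  haveI : NeZero n := ⟨hn.out.ne_zero⟩
  by_contra hcon
  push Not at hcon
  refine hxs (mem_scalars_of_commute hP fun y hy => ?_)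
  obtain ⟨c, hc, he⟩ := exists_comm_scalar hS hc2 hx hy
  have hc1 : c = 1 := by
    by_contra hne
    refine hcon y hy c ?_ he
    rw [IsPrimitiveRoot.iff_orderOf, orderOf_eq_prime hc hne]
  exact Units.ext (by rw [Units.val_mul, Units.val_mul, he, hc1, one_smul])

include hP hS hc2 in
/-- A non-scalar element has order `n`, and all `n`-th roots of unity as eigenvalues. -/
theorem pow_eq_one_and_eigen (hodd : Odd n) {x : GL (Fin n) F} (hx : x ∈ P)
    (hxs : x ∉ Cfsg.Geo.scalars (Fin n) F) :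
    x ^ n = 1 ∧ ∃ (l : F) (v : Fin n → F), v ≠ 0 ∧ l ^ n = 1 ∧ (x : Matrix (Fin n) (Fin n) F) *ᵥ v = l • v := by
  classical
  haveI : NeZero n := ⟨hn.out.ne_zero⟩
  obtain ⟨y, hy, c, hc, hxy⟩ := exists_noncommuting hP hS hc2 hx hxs
  obtain ⟨d, hd⟩ := hP.2 ((x : Matrix (Fin n) (Fin n) F) ^ n) (by
    rintro _ ⟨z, hz, rfl⟩
    obtain ⟨e, he, hxz⟩ := exists_comm_scalar hS hc2 hx hz
    show (x : Matrix (Fin n) (Fin n) F) ^ n * z = z * (x : Matrix (Fin n) (Fin n) F) ^ n
    rw [(pow_commute_up_to hxz n).1, he, one_smul])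
  have hdetx : (x : Matrix (Fin n) (Fin n) F).det = 1 := mem_specialLinear.mp (hS hx)
  by_cases hroot : ∃ a : F, a ^ n = d
  · obtain ⟨a, ha⟩ := hroot
    have ha0 : a ≠ 0 := by
      rintro rfl
      have := (x ^ n).isUnit
      rw [Units.val_pow_eq_pow_val, hd, ← ha, zero_pow hn.out.ne_zero, zero_smul] at this
      exact not_isUnit_zero this
    -- some factor of `xⁿ - d` is singular
    have hzero : Polynomial.aeval (x : Matrix (Fin n) (Fin n) F)
        (∏ i ∈ Finset.range n, (Polynomial.X - Polynomial.C (c ^ i * a))) = 0 := by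
      rw [← X_pow_sub_C_eq_prod hc hn.out.pos ha]
      simp [hd, Algebra.algebraMap_eq_smul_one]
    obtain ⟨i, hi⟩ : ∃ i, ((x : Matrix (Fin n) (Fin n) F) - (c ^ i * a) • 1).det = 0 := by
      by_contra hcon
      push Not at hcon
      have : ∀ s : Finset ℕ, (Polynomial.aeval (x : Matrix (Fin n) (Fin n) F)
          (∏ i ∈ s, (Polynomial.X - Polynomial.C (c ^ i * a)))).det ≠ 0 := by
        intro s
        induction s using Finset.induction_on with
        | empty => simp
        | insert j s hj ih =>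
          rw [Finset.prod_insert hj, map_mul, det_mul]
          refine mul_ne_zero ?_ ih
          rw [map_sub, Polynomial.aeval_X, Polynomial.aeval_C, Algebra.algebraMap_eq_smul_one]
          exact hcon j
      exact this (Finset.range n) (by rw [hzero]; exact det_zero)
    obtain ⟨v, hv, hxv⟩ := Matrix.exists_mulVec_eq_zero_iff.mpr hi
    set l := c ^ i * a with hl
    have hl0 : l ≠ 0 := mul_ne_zero (pow_ne_zero _ (hc.ne_zero hn.out.ne_zero)) ha0
    have hxv' : (x : Matrix (Fin n) (Fin n) F) *ᵥ v = l • v := by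
      rwa [sub_mulVec, smul_mulVec, one_mulVec, sub_eq_zero] at hxv
    have hln : l ^ n = d := by rw [hl, mul_pow, ← pow_mul, mul_comm i, pow_mul, hc.pow_eq_one, one_pow, one_mul, ha]
    obtain ⟨b, -, hb⟩ := eigenbasis hc hl0 hxy hv hxv'
    -- the determinant
    have hdiag : LinearMap.toMatrix b b (Matrix.toLin' (x : Matrix (Fin n) (Fin n) F)) =
        Matrix.diagonal fun i : Fin n => l * c ^ (i : ℕ) := by
      ext i j
      rw [LinearMap.toMatrix_apply, Matrix.toLin'_apply, hb, map_smul, b.repr_self, Matrix.diagonal_apply]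
      rcases eq_or_ne i j with rfl | hij
      · simp
      · simp [hij, Ne.symm hij]
    have hdet := LinearMap.det_toMatrix b (Matrix.toLin' (x : Matrix (Fin n) (Fin n) F))
    rw [hdiag, det_diagonal, LinearMap.det_toLin', hdetx, Finset.prod_mul_distrib, Finset.prod_const,
      Finset.card_univ, Fintype.card_fin, Finset.prod_pow_eq_pow_sum] at hdet
    have hsum : c ^ (∑ i : Fin n, (i : ℕ)) = 1 := by
      rw [hc.pow_eq_one_iff_dvd, Fin.sum_univ_eq_sum_range fun i => i]
      obtain ⟨k, hk⟩ := hodd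
      refine ⟨k, ?_⟩
      have := Finset.sum_range_id_mul_two n
      rw [show n - 1 = 2 * k by omega, ← mul_assoc] at this
      rw [mul_comm n 2, mul_assoc, mul_comm (∑ i ∈ Finset.range n, i) 2] at this
      omega
    rw [hsum, mul_one, hln] at hdet
    refine ⟨Units.ext ?_, l, v, hv, hln.trans hdet, hxv'⟩
    rw [Units.val_pow_eq_pow_val, hd, hdet, one_smul, Units.val_one]
  · exfalso
    push Not at hroot
    have hirr := X_pow_sub_C_irreducible_of_prime hn.out hroot
    have hmin := minpoly.eq_of_irreducible_of_monic hirr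
      (x := (x : Matrix (Fin n) (Fin n) F)) (by simp [hd, Algebra.algebraMap_eq_smul_one])
      (Polynomial.monic_X_pow_sub_C d hn.out.ne_zero)
    have hch : (x : Matrix (Fin n) (Fin n) F).charpoly = Polynomial.X ^ n - Polynomial.C d := by
      refine (Polynomial.eq_of_monic_of_associated (Polynomial.monic_X_pow_sub_C d hn.out.ne_zero)
        (charpoly_monic _) ?_).symm
      refine Polynomial.associated_of_dvd_of_natDegree_le (hmin.symm ▸ Matrix.minpoly_dvd_charpoly _)
        (charpoly_monic _).ne_zero ?_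
      rw [charpoly_natDegree_eq_dim, Fintype.card_fin, Polynomial.natDegree_X_pow_sub_C]
    have h := det_eq_sign_charpoly_coeff (x : Matrix (Fin n) (Fin n) F)
    rw [hdetx, hch, Fintype.card_fin, hodd.neg_one_pow] at h
    simp [Polynomial.coeff_X_pow, hn.out.ne_zero.symm] at h
    exact hroot 1 (by rw [one_pow]; exact h)

include hP hS hc2 in
/-- The structure theorem. -/
theorem exists_heisenberg (hodd : Odd n) (hns : ∃ x ∈ P, x ∉ Cfsg.Geo.scalars (Fin n) F) :
    ∃ (ω : F) (b : Module.Basis (Fin n) F (Fin n → F)), Heisenberg P ω b := by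
  classical
  haveI : NeZero n := ⟨hn.out.ne_zero⟩
  obtain ⟨x, hx, hxs⟩ := hns
  obtain ⟨y, hy, ω, hω, hxy⟩ := exists_noncommuting hP hS hc2 hx hxs
  have hpow : ∀ g ∈ P, g ^ n = 1 := by
    intro g hg
    by_cases hgs : g ∈ Cfsg.Geo.scalars (Fin n) F
    · obtain ⟨c, -, hc⟩ := scalar_matrix hgs
      refine Units.ext ?_
      rw [Units.val_pow_eq_pow_val, hc, smul_pow, one_pow, scalar_in_P hS hg hc, one_smul, Units.val_one]
    · exact (pow_eq_one_and_eigen hP hS hc2 hodd hg hgs).1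
  obtain ⟨-, l, v, hv, hln, hxv⟩ := pow_eq_one_and_eigen hP hS hc2 hodd hx hxs
  have hl0 : l ≠ 0 := fun h => by simp [h, zero_pow hn.out.ne_zero] at hln
  -- move to the eigenvalue one
  obtain ⟨k, hk, hkl⟩ := hω.eq_pow_of_pow_eq_one (show (l⁻¹) ^ n = 1 by rw [inv_pow, hln, inv_one])
  set v0 := ((y : Matrix (Fin n) (Fin n) F) ^ k) *ᵥ v with hv0
  have hv00 : v0 ≠ 0 := fun h => hv (gl_inj (y ^ k) (by rw [Units.val_pow_eq_pow_val, mulVec_zero]; exact h))
  have hxv0 : (x : Matrix (Fin n) (Fin n) F) *ᵥ v0 = (1 : F) • v0 := by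
    rw [hv0, mulVec_mulVec, (pow_commute_up_to hxy k).2, smul_mulVec, ← mulVec_mulVec, hxv, mulVec_smul,
      smul_smul, hkl, inv_mul_cancel₀ hl0]
  obtain ⟨b, hby, hbx⟩ := eigenbasis hω one_ne_zero hxy hv00 hxv0
  simp only [one_mul] at hbx
  have hbxpow : ∀ (q : ℕ) (i : Fin n), ((x : Matrix (Fin n) (Fin n) F) ^ q) *ᵥ b i = ω ^ (q * (i : ℕ)) • b i := by
    intro q i
    induction q with
    | zero => simp
    | succ q ih => rw [pow_succ', ← mulVec_mulVec, ih, mulVec_smul, hbx, smul_smul, ← pow_add, add_mul, one_mul]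
  have hyn : (y : Matrix (Fin n) (Fin n) F) ^ n = 1 := by
    rw [← Units.val_pow_eq_pow_val, hpow y hy, Units.val_one]
  have hshift : ∀ (q : ℕ) (i : Fin n), ((y : Matrix (Fin n) (Fin n) F) ^ q) *ᵥ b i = b (Fin.ofNat n q + i) := by
    intro q i
    rw [hby, hby, mulVec_mulVec, ← pow_add, pow_eq_pow_mod (q + (i : ℕ)) hyn]
    congr 2
    simp [Fin.val_add]
  -- every element is `ωˡ yᵃ xᶜ`
  have hdecomp : ∀ g ∈ P, ∃ (s a q : Fin n), (g : Matrix (Fin n) (Fin n) F) =
      (ω ^ (s : ℕ)) • (((y : Matrix (Fin n) (Fin n) F) ^ (a : ℕ)) * ((x : Matrix (Fin n) (Fin n) F) ^ (q : ℕ))) := by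
    intro g hg
    obtain ⟨c1, hc1, h1⟩ := exists_comm_scalar hS hc2 hx hg
    obtain ⟨c2, hc2', h2⟩ := exists_comm_scalar hS hc2 hg hy
    obtain ⟨a, ha, rfl⟩ := hω.eq_pow_of_pow_eq_one hc1
    obtain ⟨q, hq, rfl⟩ := hω.eq_pow_of_pow_eq_one hc2'
    -- `h := g x^(n-q) y^(n-a)` commutes with `x` and `y`
    set h := g * x ^ (n - q) * y ^ (n - a) with hh
    have hhm : (h : Matrix (Fin n) (Fin n) F) = (g : Matrix (Fin n) (Fin n) F) *
        (x : Matrix (Fin n) (Fin n) F) ^ (n - q) * (y : Matrix (Fin n) (Fin n) F) ^ (n - a) := by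
      simp [hh]
    have hcy : (h : Matrix (Fin n) (Fin n) F) * y = y * (h : Matrix (Fin n) (Fin n) F) := by
      rw [hhm, mul_assoc _ _ (y : Matrix (Fin n) (Fin n) F), (Commute.pow_self _ _).eq, ← mul_assoc,
        mul_assoc (g : Matrix (Fin n) (Fin n) F) _ (y : Matrix (Fin n) (Fin n) F),
        (pow_commute_up_to hxy (n - q)).1, mul_smul_comm, ← mul_assoc, h2]
      simp only [smul_mul_assoc, smul_smul]
      rw [← pow_add, Nat.sub_add_cancel hq.le, hω.pow_eq_one, one_smul]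
      simp [mul_assoc]
    have hcx : (h : Matrix (Fin n) (Fin n) F) * x = x * (h : Matrix (Fin n) (Fin n) F) := by
      have e := (pow_commute_up_to hxy (n - a)).2
      symm
      rw [hhm, ← mul_assoc, ← mul_assoc, h1, smul_mul_assoc,
        mul_assoc (g : Matrix (Fin n) (Fin n) F) (x : Matrix (Fin n) (Fin n) F),
        ← pow_succ', pow_succ, ← mul_assoc, smul_mul_assoc, mul_assoc _ _ ((y : Matrix (Fin n) (Fin n) F) ^ (n - a)), e,
        mul_smul_comm, smul_smul, ← pow_add, Nat.add_sub_cancel' ha.le, hω.pow_eq_one, one_smul, ← mul_assoc]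
    -- so it is a scalar
    have hline : ∀ i : Fin n, ∃ e : F, (h : Matrix (Fin n) (Fin n) F) *ᵥ b i = e • b i := by
      intro i
      refine ⟨b.repr ((h : Matrix (Fin n) (Fin n) F) *ᵥ b i) i, ?_⟩
      have hev : (x : Matrix (Fin n) (Fin n) F) *ᵥ ((h : Matrix (Fin n) (Fin n) F) *ᵥ b i) =
          ω ^ (i : ℕ) • ((h : Matrix (Fin n) (Fin n) F) *ᵥ b i) := by
        rw [mulVec_mulVec, ← hcx, ← mulVec_mulVec, hbx, mulVec_smul]
      set w := (h : Matrix (Fin n) (Fin n) F) *ᵥ b i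
      have hco : ∀ j, j ≠ i → b.repr w j = 0 := by
        intro j hj
        have e := congrArg (fun z => b.repr z j) hev
        conv_lhs at e => rw [← b.sum_repr w]
        simp only [mulVec_sum, mulVec_smul, hbx, smul_smul, map_sum, map_smul, b.repr_self,
          Finsupp.coe_finsetSum, Finset.sum_apply, Finsupp.smul_apply, smul_eq_mul, Finsupp.single_apply,
          mul_ite, mul_one, mul_zero, Finset.sum_ite_eq', Finset.mem_univ, if_true] at e
        by_contra hne
        exact hj (Fin.ext (hω.pow_inj j.2 i.2 (mul_left_cancel₀ hne (by rw [e, mul_comm]))))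
      conv_lhs => rw [← b.sum_repr w]
      exact Finset.sum_eq_single i (fun j _ hj => by simp [hco j hj]) (by simp)
    obtain ⟨e, he⟩ := hline 0
    have hall : ∀ i : Fin n, (h : Matrix (Fin n) (Fin n) F) *ᵥ b i = e • b i := by
      intro i
      have hb0 : ((y : Matrix (Fin n) (Fin n) F) ^ (i : ℕ)) *ᵥ b 0 = b i := by
        rw [hshift, add_zero]; simp
      have hpw : (h : Matrix (Fin n) (Fin n) F) * (y : Matrix (Fin n) (Fin n) F) ^ (i : ℕ) =
          (y : Matrix (Fin n) (Fin n) F) ^ (i : ℕ) * h := (Commute.pow_right (hcy : Commute _ _) _).eq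
      rw [← hb0, mulVec_mulVec, hpw, ← mulVec_mulVec, he, mulVec_smul]
    have hhe : (h : Matrix (Fin n) (Fin n) F) = e • 1 := by
      apply Matrix.toLin'.injective
      refine b.ext fun i => ?_
      simp [hall i]
    have hen : e ^ n = 1 := scalar_in_P hS
      (P.mul_mem (P.mul_mem hg (P.pow_mem hx _)) (P.pow_mem hy _)) hhe
    obtain ⟨s, hs, rfl⟩ := hω.eq_pow_of_pow_eq_one hen
    refine ⟨⟨s, hs⟩, ⟨a, ha⟩, ⟨q, hq⟩, ?_⟩
    have hxn : (x : Matrix (Fin n) (Fin n) F) ^ n = 1 := by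
      rw [← Units.val_pow_eq_pow_val, hpow x hx, Units.val_one]
    have e1 := congrArg (fun M : Matrix (Fin n) (Fin n) F =>
      M * (y : Matrix (Fin n) (Fin n) F) ^ a * (x : Matrix (Fin n) (Fin n) F) ^ q) (hhm.symm.trans hhe)
    simp only [mul_assoc, smul_mul_assoc, one_mul] at e1
    rw [← mul_assoc ((y : Matrix (Fin n) (Fin n) F) ^ (n - a)), ← pow_add, Nat.sub_add_cancel ha.le, hyn,
      one_mul, ← pow_add, Nat.sub_add_cancel hq.le, hxn, mul_one] at e1
    exact e1
  have hact : ∀ (s a q i : Fin n), ((ω ^ (s : ℕ)) • (((y : Matrix (Fin n) (Fin n) F) ^ (a : ℕ)) *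
      ((x : Matrix (Fin n) (Fin n) F) ^ (q : ℕ)))) *ᵥ b i = ω ^ ((s : ℕ) + (q : ℕ) * (i : ℕ)) • b (a + i) := by
    intro s a q i
    rw [smul_mulVec, ← mulVec_mulVec, hbxpow, mulVec_smul, hshift, smul_smul, ← pow_add]
    congr 2
    congr 1
    exact Fin.ext (by simp)
  -- the scalar `ω`
  set z := x * y * x⁻¹ * y⁻¹ with hz
  have hzP : z ∈ P := P.mul_mem (P.mul_mem (P.mul_mem hx hy) (P.inv_mem hx)) (P.inv_mem hy)
  have hzm : (z : Matrix (Fin n) (Fin n) F) = ω • 1 := by
    rw [hz, Units.val_mul, Units.val_mul, Units.val_mul, hxy, smul_mul_assoc, smul_mul_assoc]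
    simp [mul_assoc]
  refine ⟨ω, b, hω, fun g hg => ?_, ⟨x, hx, hbx⟩, ?_, hpow, ?_⟩
  · obtain ⟨s, a, q, he⟩ := hdecomp g hg
    exact ⟨fun i => ω ^ ((s : ℕ) + (q : ℕ) * (i : ℕ)), a, fun i => ⟨_, rfl⟩, fun i => by rw [he, hact]⟩
  · let φ : Fin n × Fin n × Fin n → P := fun t =>
      ⟨z ^ (t.1 : ℕ) * (y ^ (t.2.1 : ℕ) * x ^ (t.2.2 : ℕ)),
        P.mul_mem (P.pow_mem hzP _) (P.mul_mem (P.pow_mem hy _) (P.pow_mem hx _))⟩
    have hφ : ∀ t : Fin n × Fin n × Fin n, ((φ t : GL (Fin n) F) : Matrix (Fin n) (Fin n) F) =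
        (ω ^ (t.1 : ℕ)) • (((y : Matrix (Fin n) (Fin n) F) ^ (t.2.1 : ℕ)) * ((x : Matrix (Fin n) (Fin n) F) ^ (t.2.2 : ℕ))) := by
      intro t
      simp [φ, hzm, smul_pow]
    have hbij : Function.Bijective φ := by
      constructor
      · rintro ⟨s, a, q⟩ ⟨s', a', q'⟩ h
        have hm := congrArg (fun g : P => ((g : GL (Fin n) F) : Matrix (Fin n) (Fin n) F)) h
        simp only [hφ] at hm
        have hcoef : ∀ i : Fin n, a = a' ∧ ω ^ ((s : ℕ) + (q : ℕ) * (i : ℕ)) = ω ^ ((s' : ℕ) + (q' : ℕ) * (i : ℕ)) := by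
          intro i
          have e := congrArg (fun M : Matrix (Fin n) (Fin n) F => b.repr (M *ᵥ b i) (a + i)) hm
          simp only [hact, map_smul, b.repr_self, Finsupp.smul_apply, smul_eq_mul, Finsupp.single_apply,
            if_true, mul_one] at e
          by_cases ha : a' + i = a + i
          · rw [if_pos ha, mul_one] at e
            exact ⟨(add_right_cancel ha).symm, e⟩
          · rw [if_neg ha, mul_zero] at e
            exact absurd e (pow_ne_zero _ (hω.ne_zero hn.out.ne_zero))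
        have hs : s = s' := by
          have e := (hcoef 0).2
          simp only [Fin.val_zero, mul_zero, add_zero] at e
          exact Fin.ext (hω.pow_inj s.2 s'.2 e)
        subst hs
        have h1 : (1 : ℕ) < n := hn.out.one_lt
        have e := (hcoef ⟨1, h1⟩).2
        simp only [mul_one, pow_add] at e
        obtain rfl : q = q' := Fin.ext (hω.pow_inj q.2 q'.2 (mul_left_cancel₀ (pow_ne_zero _ (hω.ne_zero hn.out.ne_zero)) e))
        rw [(hcoef 0).1]
      · rintro ⟨g, hg⟩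
        obtain ⟨s, a, q, he⟩ := hdecomp g hg
        exact ⟨⟨s, a, q⟩, Subtype.ext (Units.ext (by rw [hφ, he]))⟩
    rw [← Nat.card_eq_of_bijective _ hbij]
    simp [pow_succ, mul_assoc]
  · let ψ : Fin n → Subgroup.center P := fun s => ⟨⟨z ^ (s : ℕ), P.pow_mem hzP _⟩,
      Subgroup.mem_center_iff.mpr fun g => Subtype.ext ((scalar_comm
        ((Cfsg.Geo.scalars (Fin n) F).pow_mem (hc2 x hx y hy) _) g).symm)⟩
    have hψ : ∀ s : Fin n, ((((ψ s : Subgroup.center P) : P) : GL (Fin n) F) : Matrix (Fin n) (Fin n) F) =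
        ω ^ (s : ℕ) • 1 := fun s => by simp [ψ, hzm, smul_pow]
    have hbij : Function.Bijective ψ := by
      constructor
      · intro s s' h
        have hm := congrArg (fun g : Subgroup.center P => (((g : P) : GL (Fin n) F) : Matrix (Fin n) (Fin n) F) 0 0) h
        simp only [hψ, Matrix.smul_apply, Matrix.one_apply_eq, smul_eq_mul, mul_one] at hm
        exact Fin.ext (hω.pow_inj s.2 s'.2 hm)
      · rintro ⟨⟨g, hg⟩, hgc⟩
        obtain ⟨c, -, hc⟩ := scalar_matrix (mem_scalars_of_commute hP fun w hw =>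
          (congrArg Subtype.val (Subgroup.mem_center_iff.mp hgc ⟨w, hw⟩)).symm)
        obtain ⟨s, hs, rfl⟩ := hω.eq_pow_of_pow_eq_one (scalar_in_P hS hg hc)
        exact ⟨⟨s, hs⟩, Subtype.ext (Subtype.ext (Units.ext (by rw [hψ, hc])))⟩
    rw [← Nat.card_eq_of_bijective _ hbij, Nat.card_fin]

end Setup

/-- SL does not normalise such a group. -/
theorem sl_not_le_normalizer (hn : 3 ≤ n) {P : Subgroup (GL (Fin n) F)} {ω : F}
    {b : Module.Basis (Fin n) F (Fin n → F)} (hH : Heisenberg P ω b) :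
    ¬ Cfsg.Geo.specialLinear (Fin n) F ≤ Cfsg.Geo.subgroupNormalizer P := by
  haveI : NeZero n := ⟨by omega⟩
  intro hle
  obtain ⟨x, hx, hbx⟩ := hH.diag
  let i0 : Fin n := 0
  let i1 : Fin n := ⟨1, by omega⟩
  have h01 : i0 ≠ i1 := by simp [i0, i1, Fin.ext_iff]
  have h01v : i0.val = 0 := rfl
  let φ : Module.Dual F (Fin n → F) := b.coord i1
  obtain ⟨g, hg, hgv⟩ := GeoTransvection.exists_transvection (b i0) φ (by simp [φ, h01.symm])
  have hmem : g * x * g⁻¹ ∈ P := (Subgroup.mem_normalizer_iff.mp (hle hg) x).mp hx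
  obtain ⟨c, a, -, hc⟩ := hH.monomial _ hmem
  have key : ∀ i, ((g * x * g⁻¹ : GL (Fin n) F) : Matrix (Fin n) (Fin n) F) *ᵥ ((g : Matrix (Fin n) (Fin n) F) *ᵥ b i) =
      ω ^ (i : ℕ) • ((g : Matrix (Fin n) (Fin n) F) *ᵥ b i) := by
    intro i
    rw [mulVec_mulVec, ← Units.val_mul, inv_mul_cancel_right, Units.val_mul, ← mulVec_mulVec, hbx, mulVec_smul]
  have k0 := key i0
  rw [hgv, show φ (b i0) = 0 by simp [φ, h01.symm], zero_smul, add_zero, hc] at k0
  have k1 := key i1
  rw [hgv, show φ (b i1) = 1 by simp [φ], one_smul, mulVec_add, hc, hc] at k1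
  have e0 := congrArg (fun v => b.repr v i0) k0
  simp only [map_smul, b.repr_self, Finsupp.smul_apply, smul_eq_mul, Finsupp.single_apply, if_true,
    mul_one, h01v, pow_zero] at e0
  by_cases ha : a + i0 = i0
  swap
  · rw [if_neg ha, mul_zero] at e0
    exact zero_ne_one e0
  rw [if_pos ha, mul_one] at e0
  have ha0 : a = 0 := by simpa using ha
  subst ha0
  have e1 := congrArg (fun v => b.repr v i0) k1
  simp [h01.symm, e0] at e1
  exact hH.prim.ne_one (by omega) (by simpa [i1] using e1.symm)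

end CfsgLib.GeoPrime
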