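import Mathlib
import Cfsg.Agent.GeoPrime.Clifford
import Cfsg.Agent.GeoPrime.Extraspecial

/-!
The minimal non-scalar normal subgroup: either of symplectic type or the core of the residual class.
-/

set_option autoImplicit false

namespace CfsgLib.GeoPrime

open Matrix
open scoped commutatorElement

variable {n : ℕ} {F : Type*} [Field F]

/-- `P` is a minimal non-scalar subgroup normalised by `H`. -/
structure MinNormal (H P : Subgroup (GL (Fin n) F)) : Prop where
  le : P ≤ H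
  normal : ∀ h ∈ H, ∀ x ∈ P, h * x * h⁻¹ ∈ P
  not_scalar : ¬ P ≤ Cfsg.Geo.scalars (Fin n) F
  minimal : ∀ N : Subgroup (GL (Fin n) F), N ≤ P → (∀ h ∈ H, ∀ x ∈ N, h * x * h⁻¹ ∈ N) →
    N ≤ Cfsg.Geo.scalars (Fin n) F ∨ N = P

theorem exists_minNormal [Finite F] {H : Subgroup (GL (Fin n) F)}
    (hH : ¬ H ≤ Cfsg.Geo.scalars (Fin n) F) : ∃ P, MinNormal H P := by
  obtain ⟨P, ⟨h1, h2, h3⟩, hmin⟩ := WellFounded.has_min (wellFounded_lt (α := Subgroup (GL (Fin n) F)))
    {P | P ≤ H ∧ (∀ h ∈ H, ∀ x ∈ P, h * x * h⁻¹ ∈ P) ∧ ¬ P ≤ Cfsg.Geo.scalars (Fin n) F}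
    ⟨H, le_rfl, fun h hh x hx => H.mul_mem (H.mul_mem hh hx) (H.inv_mem hh), hH⟩
  refine ⟨P, h1, h2, h3, fun N hN hNn => or_iff_not_imp_left.mpr fun hs => ?_⟩
  by_contra hne
  exact hmin N ⟨hN.trans h1, hNn, hs⟩ (lt_of_le_of_ne hN hne)

theorem normalised_commutator {H P : Subgroup (GL (Fin n) F)} (h : ∀ g ∈ H, ∀ x ∈ P, g * x * g⁻¹ ∈ P) :
    ∀ g ∈ H, ∀ x ∈ ⁅P, P⁆, g * x * g⁻¹ ∈ ⁅P, P⁆ := by
  intro g hg
  have hle : ⁅P, P⁆ ≤ (⁅P, P⁆).comap (MulAut.conj g).toMonoidHom := by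
    refine Subgroup.commutator_le.mpr fun a ha b hb => ?_
    rw [Subgroup.mem_comap, map_commutatorElement]
    exact Subgroup.commutator_mem_commutator (h g hg a ha) (h g hg b hb)
  exact fun x hx => hle hx

theorem commutator_scalar_iff {P : Subgroup (GL (Fin n) F)} :
    ⁅P, P⁆ ≤ Cfsg.Geo.scalars (Fin n) F ↔
      ∀ x ∈ P, ∀ y ∈ P, x * y * x⁻¹ * y⁻¹ ∈ Cfsg.Geo.scalars (Fin n) F :=
  Subgroup.commutator_le

theorem MinNormal.perfect {H P : Subgroup (GL (Fin n) F)} (hM : MinNormal H P)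
    (h2 : ¬ ⁅P, P⁆ ≤ Cfsg.Geo.scalars (Fin n) F) : ⁅P, P⁆ = P :=
  (hM.minimal _ (Subgroup.commutator_le_self P) (normalised_commutator hM.normal)).resolve_left h2

/-- An element commuting modulo scalars with a perfect group centralises it. -/
theorem commute_of_perfect {P : Subgroup (GL (Fin n) F)} (hp : ⁅P, P⁆ = P) {g : GL (Fin n) F}
    (h : ∀ x ∈ P, g * x * g⁻¹ * x⁻¹ ∈ Cfsg.Geo.scalars (Fin n) F) : ∀ x ∈ P, g * x = x * g := by
  have hle : ⁅P, P⁆ ≤ Subgroup.centralizer ({g} : Set (GL (Fin n) F)) := by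
    refine Subgroup.commutator_le.mpr fun a ha b hb => ?_
    rw [Subgroup.mem_centralizer_singleton_iff]
    have e : g * ⁅a, b⁆ * g⁻¹ = ⁅a, b⁆ := by
      rw [commutatorElement_def]
      set c := g * a * g⁻¹ * a⁻¹ with hc
      set d := g * b * g⁻¹ * b⁻¹ with hd
      have hc' : ∀ z, c * z = z * c := scalar_comm (h a ha)
      have hd' : ∀ z, d * z = z * d := scalar_comm (h b hb)
      calc g * (a * b * a⁻¹ * b⁻¹) * g⁻¹ = (c * a) * (d * b) * (c * a)⁻¹ * (d * b)⁻¹ := by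
            simp only [hc, hd]; group
        _ = c * (a * (d * b) * a⁻¹) * c⁻¹ * (b⁻¹ * d⁻¹) := by group
        _ = (a * (d * b) * a⁻¹) * (b⁻¹ * d⁻¹) := by rw [hc', mul_inv_cancel_right]
        _ = a * d * (b * a⁻¹ * b⁻¹) * d⁻¹ := by group
        _ = a * ((d * (b * a⁻¹ * b⁻¹)) * d⁻¹) := by group
        _ = a * b * a⁻¹ * b⁻¹ := by rw [hd', mul_inv_cancel_right]; group
    symm
    calc g * ⁅a, b⁆ = g * ⁅a, b⁆ * g⁻¹ * g := (inv_mul_cancel_right _ _).symm
      _ = ⁅a, b⁆ * g := by rw [e]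
  rw [hp] at hle
  exact fun x hx => (Subgroup.mem_centralizer_singleton_iff.mp (hle hx)).symm

theorem not_comm_of_absIrr [NeZero n] {P : Subgroup (GL (Fin n) F)}
    (hP : Cfsg.Geo.ActsAbsolutelyIrreducibly (Cfsg.Geo.matrixSet P))
    (hns : ¬ P ≤ Cfsg.Geo.scalars (Fin n) F) : ¬ ∀ x ∈ P, ∀ y ∈ P, x * y = y * x := fun hc =>
  hns fun x hx => mem_scalars_of_commute hP fun y hy => hc x hx y hy

/-- A perfect minimal normal subgroup has no proper non-scalar normal subgroup. -/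
theorem normal_trivial [Finite F] (hn : n.Prime) {H P : Subgroup (GL (Fin n) F)} (hM : MinNormal H P)
    (hP : Cfsg.Geo.ActsAbsolutelyIrreducibly (Cfsg.Geo.matrixSet P))
    (hperf : ⁅P, P⁆ = P) {N : Subgroup (GL (Fin n) F)} (hN : N ≤ P)
    (hNn : ∀ g ∈ P, ∀ x ∈ N, g * x * g⁻¹ ∈ N) :
    N ≤ Cfsg.Geo.scalars (Fin n) F ∨ N = P := by
  haveI : NeZero n := ⟨hn.ne_zero⟩
  haveI : Nonempty (Fin n) := ⟨0⟩
  refine or_iff_not_imp_left.mpr fun hNs => ?_
  set S : Set (Subgroup (GL (Fin n) F)) :=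
    {A | A ≤ P ∧ (∀ g ∈ P, ∀ x ∈ A, g * x * g⁻¹ ∈ A) ∧ ¬ A ≤ Cfsg.Geo.scalars (Fin n) F} with hS
  obtain ⟨M, ⟨⟨hMP, hMn, hMs⟩, hMN⟩, hmin⟩ := WellFounded.has_min (wellFounded_lt (α := Subgroup (GL (Fin n) F)))
    (S ∩ {A | A ≤ N}) ⟨N, ⟨hN, hNn, hNs⟩, le_refl N⟩
  -- the conjugates of `M` under `H`
  obtain ⟨conjH, hmem⟩ : ∃ conjH : H → Subgroup (GL (Fin n) F), ∀ (h : H) (x : GL (Fin n) F),
      x ∈ conjH h ↔ (h : GL (Fin n) F) * x * (h : GL (Fin n) F)⁻¹ ∈ M :=
    ⟨fun h => M.comap (MulAut.conj (h : GL (Fin n) F)).toMonoidHom, fun h x => Iff.rfl⟩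
  have hconjP : ∀ h, conjH h ≤ P := fun h x hx => by
    have := hM.normal _ (H.inv_mem h.2) _ (hMP ((hmem h x).mp hx))
    simpa [mul_assoc] using this
  have hconjn : ∀ h, ∀ g ∈ P, ∀ x ∈ conjH h, g * x * g⁻¹ ∈ conjH h := fun h g hg x hx => by
    have := hMn _ (hM.normal _ h.2 g hg) _ ((hmem h x).mp hx)
    rw [hmem]
    simpa [mul_assoc] using this
  have hconjs : ∀ h, ¬ conjH h ≤ Cfsg.Geo.scalars (Fin n) F := fun h hle => hMs fun x hx => by
    have h1 := hle ((hmem h ((h : GL (Fin n) F)⁻¹ * x * h)).mpr (by simpa [mul_assoc] using hx))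
    have h2 := (Cfsg.Geo.scalars_normal (ι := Fin n) (F := F)).conj_mem _ h1 (h : GL (Fin n) F)
    simpa [mul_assoc] using h2
  -- `M` is minimal, so are its conjugates
  have hMmin : ∀ A : Subgroup (GL (Fin n) F), A ≤ M → (∀ g ∈ P, ∀ x ∈ A, g * x * g⁻¹ ∈ A) →
      A ≤ Cfsg.Geo.scalars (Fin n) F ∨ A = M := fun A hA hAn => or_iff_not_imp_left.mpr fun hs => by
    by_contra hne
    exact hmin A ⟨⟨hA.trans hMP, hAn, hs⟩, hA.trans hMN⟩ (lt_of_le_of_ne hA hne)
  have hcomm : ∀ h, conjH h ≠ M → ∀ x ∈ conjH h, ∀ y ∈ M,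
      x * y * x⁻¹ * y⁻¹ ∈ Cfsg.Geo.scalars (Fin n) F := by
    intro h hne x hx y hy
    rcases hMmin (M ⊓ conjH h) inf_le_left
      (fun g hg z hz => ⟨hMn g hg z hz.1, hconjn h g hg z hz.2⟩) with hs | he
    · refine hs ⟨M.mul_mem (hMn x (hconjP h hx) y hy) (M.inv_mem hy), ?_⟩
      have h3 := (conjH h).mul_mem hx (hconjn h y (hMP hy) x⁻¹ ((conjH h).inv_mem hx))
      simpa [mul_assoc] using h3
    · exfalso
      have hle : M ≤ conjH h := he ▸ inf_le_right
      apply hne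
      haveI : Finite M := inferInstance
      refine (Subgroup.eq_of_le_of_card_ge hle ?_).symm
      refine Nat.card_le_card_of_injective
        (fun x : conjH h => (⟨_, (hmem h x).mp x.2⟩ : M)) fun a b hab => Subtype.ext ?_
      simpa using congrArg Subtype.val hab
  by_cases hall : ∀ h, conjH h = M
  · -- `M` is normalised by `H`
    have := (hM.minimal M hMP fun h hh x hx => by
      have h1 : x ∈ conjH ⟨h, hh⟩ := (hall ⟨h, hh⟩).ge hx
      exact (hmem ⟨h, hh⟩ x).mp h1).resolve_left hMs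
    exact le_antisymm hN (this.ge.trans hMN)
  exfalso
  push Not at hall
  obtain ⟨h0, hh0⟩ := hall
  rcases hMmin ⁅M, M⁆ (Subgroup.commutator_le_self M) (normalised_commutator hMn) with hc | hc
  · -- all conjugates commute modulo scalars
    set Z := Cfsg.Geo.scalars (Fin n) F
    have hpair : ∀ h₁ h₂ : H, ∀ x ∈ conjH h₁, ∀ y ∈ conjH h₂, x * y * x⁻¹ * y⁻¹ ∈ Z := by
      intro h₁ h₂ x hx y hy
      set a := (h₂ : GL (Fin n) F)
      have hy' : a * y * a⁻¹ ∈ M := (hmem h₂ y).mp hy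
      set h₃ : H := h₁ * h₂⁻¹
      have hx' : a * x * a⁻¹ ∈ conjH h₃ := by
        rw [hmem]
        simpa [h₃, a, mul_assoc] using (hmem h₁ x).mp hx
      have key : (a * x * a⁻¹) * (a * y * a⁻¹) * (a * x * a⁻¹)⁻¹ * (a * y * a⁻¹)⁻¹ ∈ Z := by
        by_cases h3 : conjH h₃ = M
        · exact commutator_scalar_iff.mp hc _ (h3 ▸ hx') _ hy'
        · exact hcomm h₃ h3 _ hx' _ hy'
      have := (Cfsg.Geo.scalars_normal (ι := Fin n) (F := F)).conj_mem _ key a⁻¹
      simpa [mul_assoc] using this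
    have hgen : (⨆ h, conjH h) = P := by
      refine (hM.minimal _ (iSup_le hconjP) ?_).resolve_left fun hle => hconjs h0 ((le_iSup conjH h0).trans hle)
      intro g hg
      have hle : (⨆ h, conjH h) ≤ (⨆ h, conjH h).comap (MulAut.conj g).toMonoidHom := by
        refine iSup_le fun h x hx => le_iSup conjH (h * ⟨g, hg⟩⁻¹) ?_
        rw [hmem]
        simpa [mul_assoc] using (hmem h x).mp hx
      exact fun x hx => hle hx
    let π := QuotientGroup.mk' Z
    have hπ : ∀ x y : GL (Fin n) F, x * y * x⁻¹ * y⁻¹ ∈ Z → π x * π y = π y * π x := by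
      intro x y hxy
      have e : π (x * y * x⁻¹ * y⁻¹) = 1 := (QuotientGroup.eq_one_iff _).mpr hxy
      simp only [map_mul, map_inv] at e
      exact mul_inv_eq_iff_eq_mul.mp (mul_inv_eq_one.mp e)
    have hab : ∀ x ∈ P, ∀ y ∈ P, π x * π y = π y * π x := by
      have h1 : ∀ h₁ : H, ∀ x ∈ conjH h₁, P ≤ (Subgroup.centralizer {π x}).comap π := fun h₁ x hx => by
        rw [← hgen]
        refine iSup_le fun h₂ y hy => ?_
        rw [Subgroup.mem_comap, Subgroup.mem_centralizer_singleton_iff]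
        exact (hπ _ _ (hpair h₁ h₂ x hx y hy)).symm
      intro x hx y hy
      have h2 : P ≤ (Subgroup.centralizer {π y}).comap π := by
        rw [← hgen]
        refine iSup_le fun h₁ z hz => ?_
        rw [Subgroup.mem_comap, Subgroup.mem_centralizer_singleton_iff]
        exact (Subgroup.mem_centralizer_singleton_iff.mp (h1 h₁ z hz hy)).symm
      exact Subgroup.mem_centralizer_singleton_iff.mp (h2 hx)
    have hPZ : ⁅P, P⁆ ≤ Z := Subgroup.commutator_le.mpr fun x hx y hy => by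
      rw [← QuotientGroup.eq_one_iff]
      have e := hab x hx y hy
      show π ⁅x, y⁆ = 1
      rw [map_commutatorElement, commutatorElement_eq_one_iff_commute]
      exact e
    exact hM.not_scalar (hperf ▸ hPZ)
  · -- a perfect `M` is absolutely irreducible, so its other conjugates are scalar
    have hMnc : ¬ ∀ x ∈ M, ∀ y ∈ M, x * y = y * x := by
      intro hab
      apply hMs
      rw [← hc]
      exact Subgroup.commutator_le.mpr fun a ha b hb => by
        rw [commutatorElement_eq_one_iff_commute.mpr (hab a ha b hb)]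
        exact one_mem _
    haveI := Fintype.ofFinite F
    rcases clifford hn hP.1 hMn with h | ⟨h, -⟩ | ⟨h, -⟩ | h
    · exact hMs h
    · exact hMnc h
    · exact hMnc h
    · exact hconjs h0 fun x hx => mem_scalars_of_commute h
        (commute_of_perfect hc fun y hy => hcomm h0 hh0 x hx y hy)

/-- The perfect case gives the residual core. -/
theorem residual_core [Finite F] (hn : n.Prime) {H P : Subgroup (GL (Fin n) F)} (hM : MinNormal H P)
    (hP : Cfsg.Geo.ActsAbsolutelyIrreducibly (Cfsg.Geo.matrixSet P))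
    (hperf : ⁅P, P⁆ = P)
    (hsub : ∀ F₀ : Subfield F, F₀ ≠ ⊤ → ¬ Cfsg.Geo.RealisableOver F₀ (Cfsg.Geo.matrixSet P)) :
    Cfsg.Geo.IsResidualCore H P := by
  haveI : NeZero n := ⟨hn.ne_zero⟩
  haveI : Nonempty (Fin n) := ⟨0⟩
  set Z := (Cfsg.Geo.scalars (Fin n) F).subgroupOf P with hZ
  refine ⟨hM.le, hM.normal, hperf, ?_, ?_, fun h hh hc =>
    mem_scalars_of_commute hP (commute_of_perfect hperf hc), hP, hsub⟩
  · haveI : Nontrivial (P ⧸ Z) := by
      refine QuotientGroup.nontrivial_iff.mpr fun h => hM.not_scalar fun x hx => ?_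
      have : (⟨x, hx⟩ : P) ∈ Z := h ▸ Subgroup.mem_top _
      exact this
    refine ⟨fun N hN => ?_⟩
    set N' : Subgroup (GL (Fin n) F) := (N.comap (QuotientGroup.mk' Z)).map P.subtype with hN'
    haveI := hN
    have hnor : (N.comap (QuotientGroup.mk' Z)).Normal := hN.comap _
    rcases normal_trivial hn hM hP hperf (N := N') (Subgroup.map_subtype_le _)
      (by
        rintro g hg _ ⟨x, hx, rfl⟩
        exact Subgroup.mem_map.mpr ⟨(⟨g, hg⟩ : P) * x * (⟨g, hg⟩ : P)⁻¹, hnor.conj_mem x hx ⟨g, hg⟩, by simp⟩) with h | h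
    · left
      refine (eq_bot_iff).mpr fun y hy => ?_
      obtain ⟨x, rfl⟩ := QuotientGroup.mk'_surjective Z y
      rw [Subgroup.mem_bot]
      exact (QuotientGroup.eq_one_iff x).mpr (h ⟨x, hy, rfl⟩)
    · right
      refine (eq_top_iff).mpr fun y _ => ?_
      obtain ⟨x, rfl⟩ := QuotientGroup.mk'_surjective Z y
      have hx : (x : GL (Fin n) F) ∈ N' := h.ge x.2
      obtain ⟨z, hz, hzx⟩ := hx
      obtain rfl : z = x := Subtype.ext hzx
      exact hz
  · intro hcomm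
    apply hM.not_scalar
    rw [← hperf]
    refine Subgroup.commutator_le.mpr fun a ha b hb => ?_
    have e : QuotientGroup.mk' Z ⁅(⟨a, ha⟩ : P), ⟨b, hb⟩⁆ = 1 := by
      rw [map_commutatorElement, commutatorElement_eq_one_iff_commute]
      exact hcomm.is_comm.comm _ _
    have hh := (QuotientGroup.eq_one_iff _).mp e
    rwa [hZ, Subgroup.mem_subgroupOf, ← Subgroup.subtype_apply, map_commutatorElement,
      Subgroup.subtype_apply, Subgroup.subtype_apply] at hh

/-- The class-two case is of symplectic type. -/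
theorem symplecticType_of_heisenberg [Finite F] [hn : Fact n.Prime] (hodd : Odd n)
    {H P : Subgroup (GL (Fin n) F)} {ω : F}
    {b : Module.Basis (Fin n) F (Fin n → F)} (hM : MinNormal H P)
    (hP : Cfsg.Geo.ActsAbsolutelyIrreducibly (Cfsg.Geo.matrixSet P)) (hb : Heisenberg P ω b) :
    Cfsg.Geo.IsSymplecticTypeGroup n P := by
  haveI : NeZero n := ⟨hn.out.ne_zero⟩
  refine ⟨hn.out, fun g => ⟨1, Subtype.ext (by simpa using hb.pow_eq g g.2)⟩, fun A hA hAc => ?_, ?_⟩
  · have hnorm : ∀ h ∈ H, ∀ x ∈ A.map P.subtype, h * x * h⁻¹ ∈ A.map P.subtype := by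
      rintro h hh _ ⟨a, ha, rfl⟩
      let φ : P ≃* P :=
        { toFun := fun x => ⟨h * x * h⁻¹, hM.normal h hh x x.2⟩
          invFun := fun x => ⟨h⁻¹ * x * h, by simpa using hM.normal h⁻¹ (H.inv_mem hh) x x.2⟩
          left_inv := fun x => Subtype.ext (by simp [mul_assoc])
          right_inv := fun x => Subtype.ext (by simp [mul_assoc])
          map_mul' := fun x y => Subtype.ext (by simp [mul_assoc]) }
      exact ⟨φ a, (Subgroup.characteristic_iff_le_comap.mp hA φ) ha, rfl⟩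
    rcases hM.minimal _ (Subgroup.map_subtype_le A) hnorm with hs | he
    · let f : A →* F :=
        { toFun := fun a => (((a : P) : GL (Fin n) F) : Matrix (Fin n) (Fin n) F) 0 0
          map_one' := by simp
          map_mul' := fun a a' => by
            obtain ⟨c, -, hc⟩ := scalar_matrix (hs ⟨(a : P), a.2, rfl⟩)
            simp [Units.val_mul, show (((a : P) : GL (Fin n) F) : Matrix (Fin n) (Fin n) F) = c • 1 from hc] }
      refine isCyclic_of_subgroup_isDomain f fun a a' h => ?_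
      obtain ⟨c, -, hc⟩ := scalar_matrix (hs ⟨(a : P), a.2, rfl⟩)
      obtain ⟨c', -, hc'⟩ := scalar_matrix (hs ⟨(a' : P), a'.2, rfl⟩)
      change ((a : P) : GL (Fin n) F).val = c • 1 at hc
      change ((a' : P) : GL (Fin n) F).val = c' • 1 at hc'
      have hcc : c = c' := by simpa [f, hc, hc'] using h
      exact Subtype.ext (Subtype.ext (Units.ext (by rw [hc, hc', hcc])))
    · exfalso
      refine not_comm_of_absIrr hP hM.not_scalar fun x hx y hy => ?_
      rw [← he] at hx hy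
      obtain ⟨a, ha, rfl⟩ := hx
      obtain ⟨a', ha', rfl⟩ := hy
      have e : (⟨a, ha⟩ : A) * ⟨a', ha'⟩ = ⟨a', ha'⟩ * ⟨a, ha⟩ := hAc.is_comm.comm _ _
      exact congrArg (fun z : A => ((z : P) : GL (Fin n) F)) e
  · rw [Nat.Coprime.gcd_eq_one (Nat.coprime_two_left.mpr hodd), mul_one]
    have hdvd : Monoid.exponent P ∣ n :=
      Monoid.exponent_dvd_of_forall_pow_eq_one fun g => Subtype.ext (by simpa using hb.pow_eq g g.2)
    refine ((Nat.dvd_prime hn.out).mp hdvd).resolve_left fun h1 => ?_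
    haveI := Monoid.exp_eq_one_iff.mp h1
    exact hM.not_scalar fun x hx => by
      rw [show x = 1 from congrArg Subtype.val (Subsingleton.elim (⟨x, hx⟩ : P) 1)]
      exact one_mem _

end CfsgLib.GeoPrime
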