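import Mathlib
import Cfsg.Agent.GeoPrime.Basic

/-!
Descent to subfields.
-/

set_option autoImplicit false

namespace CfsgLib.GeoPrime

open Matrix

variable {n : ℕ} {F : Type*} [Field F]

/-- The normaliser of an absolutely irreducible group realised over a subfield lies in the subfield group. -/
theorem mem_subfield_of_realised [NeZero n] {P : Subgroup (GL (Fin n) F)}
    (hP : Cfsg.Geo.ActsAbsolutelyIrreducibly (Cfsg.Geo.matrixSet P)) {h : GL (Fin n) F}
    (hh : ∀ x ∈ P, h * x * h⁻¹ ∈ P) (F₀ : Subfield F) (B : GL (Fin n) F)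
    (hB : ∀ x ∈ P, ∀ i j, ((B * x * B⁻¹ : GL (Fin n) F) : Matrix (Fin n) (Fin n) F) i j ∈ F₀) :
    h ∈ Cfsg.Geo.subfieldSubgroup F₀ B⁻¹ := by
  classical
  set g := B * h * B⁻¹ with hg
  obtain ⟨i0, j0, hij⟩ : ∃ i j, (g : Matrix (Fin n) (Fin n) F) i j ≠ 0 := by
    by_contra hc
    push Not at hc
    exact g.ne_zero (Matrix.ext fun i j => hc i j)
  obtain ⟨π, hπ⟩ : ∃ π : Module.Dual F₀ F, π ((g : Matrix (Fin n) (Fin n) F) i0 j0) ≠ 0 := by
    by_contra hc
    push Not at hc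
    exact hij ((Module.forall_dual_apply_eq_zero_iff F₀ _).mp hc)
  let A : Matrix (Fin n) (Fin n) F := fun i j => ((π ((g : Matrix (Fin n) (Fin n) F) i j) : F₀) : F)
  have hlin : ∀ (a s : F), s ∈ F₀ → ((π (a * s) : F₀) : F) = (π a : F) * s := by
    intro a s hs
    rw [show a * s = (⟨s, hs⟩ : F₀) • a by rw [mul_comm]; rfl, map_smul, smul_eq_mul, Subfield.coe_mul,
      mul_comm]
  have hlin' : ∀ (a s : F), s ∈ F₀ → ((π (s * a) : F₀) : F) = s * (π a : F) := fun a s hs => by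
    rw [mul_comm s a, hlin a s hs, mul_comm]
  have hcomm : ∀ x ∈ P, (g⁻¹ : GL (Fin n) F).val * A * ((B * x * B⁻¹ : GL (Fin n) F) : Matrix (Fin n) (Fin n) F) =
      ((B * x * B⁻¹ : GL (Fin n) F) : Matrix (Fin n) (Fin n) F) * ((g⁻¹ : GL (Fin n) F).val * A) := by
    intro x hx
    set s := ((B * x * B⁻¹ : GL (Fin n) F) : Matrix (Fin n) (Fin n) F)
    set s' := ((B * (h * x * h⁻¹) * B⁻¹ : GL (Fin n) F) : Matrix (Fin n) (Fin n) F)
    have h1 : (g : Matrix (Fin n) (Fin n) F) * s = s' * g := by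
      simp only [s, s', hg, ← Units.val_mul]
      congr 1
      group
    have h2 : A * s = s' * A := by
      ext i k
      have h3 := congrFun (congrFun h1 i) k
      simp only [Matrix.mul_apply] at h3 ⊢
      have h4 : ((π (∑ j, (g : Matrix (Fin n) (Fin n) F) i j * s j k) : F₀) : F) =
          ((π (∑ j, s' i j * (g : Matrix (Fin n) (Fin n) F) j k) : F₀) : F) := by rw [h3]
      simp only [map_sum, AddSubmonoidClass.coe_finsetSum] at h4
      rw [Finset.sum_congr rfl (fun j _ => hlin _ _ (hB x hx j k)),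
        Finset.sum_congr rfl (fun j _ => hlin' _ _ (hB _ (hh x hx) i j))] at h4
      exact h4
    have h5 : s' = (g : Matrix (Fin n) (Fin n) F) * s * (g⁻¹ : GL (Fin n) F).val := by
      rw [h1, mul_assoc, ← Units.val_mul, mul_inv_cancel, Units.val_one, mul_one]
    rw [mul_assoc, h2, h5, ← mul_assoc, ← mul_assoc, ← mul_assoc, ← Units.val_mul, inv_mul_cancel,
      Units.val_one, one_mul, mul_assoc]
  obtain ⟨c, hc⟩ := hP.2 ((B⁻¹ : GL (Fin n) F).val * ((g⁻¹ : GL (Fin n) F).val * A) * B.val) (by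
    rintro _ ⟨x, hx, rfl⟩
    have h := hcomm x hx
    simp only [Units.val_mul] at h
    calc (B⁻¹ : GL (Fin n) F).val * ((g⁻¹ : GL (Fin n) F).val * A) * B.val * x.val
        = (B⁻¹ : GL (Fin n) F).val * ((g⁻¹ : GL (Fin n) F).val * A * (B.val * x.val * (B⁻¹ : GL (Fin n) F).val)) * B.val := by
          simp [mul_assoc]
      _ = x.val * ((B⁻¹ : GL (Fin n) F).val * ((g⁻¹ : GL (Fin n) F).val * A) * B.val) := by
          rw [h]; simp [mul_assoc])
  have hA : A = c • (g : Matrix (Fin n) (Fin n) F) := by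
    calc A = g.val * B.val * ((B⁻¹ : GL (Fin n) F).val * ((g⁻¹ : GL (Fin n) F).val * A) * B.val) *
          (B⁻¹ : GL (Fin n) F).val := by simp [mul_assoc]
      _ = c • (g : Matrix (Fin n) (Fin n) F) := by rw [hc]; simp [mul_assoc]
  have hc0 : c ≠ 0 := fun h0 => hπ (Subtype.ext (by
    have := congrFun (congrFun hA i0) j0
    simpa [A, h0] using this))
  let A₀ : Matrix (Fin n) (Fin n) F₀ := fun i j => π ((g : Matrix (Fin n) (Fin n) F) i j)
  have hmap : A₀.map Subtype.val = A := rfl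
  have hdet : A₀.det ≠ 0 := by
    intro h0
    have h1 := RingHom.map_det F₀.subtype A₀
    rw [RingHom.mapMatrix_apply] at h1
    change F₀.subtype A₀.det = A.det at h1
    rw [h0, map_zero, hA, Matrix.det_smul] at h1
    rcases mul_eq_zero.mp h1.symm with h2 | h2
    · exact hc0 (pow_eq_zero_iff (by simp [NeZero.ne n]) |>.mp h2)
    · have hu := (Matrix.isUnit_iff_isUnit_det _).mp g.isUnit
      rw [h2] at hu
      exact not_isUnit_zero hu
  rw [Cfsg.Geo.subfieldSubgroup]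
  refine ⟨g, Subgroup.mem_sup_of_normal_right.mpr
    ⟨_, ⟨GeneralLinearGroup.mkOfDetNeZero A₀ hdet, rfl⟩,
      Units.map (Matrix.scalar (Fin n) : F →+* Matrix (Fin n) (Fin n) F).toMonoidHom (Units.mk0 c hc0)⁻¹,
      ⟨_, rfl⟩, ?_⟩, by simp [hg, mul_assoc]⟩
  refine Units.ext ?_
  rw [Units.val_mul]
  change A₀.map Subtype.val * Matrix.scalar (Fin n) c⁻¹ = _
  rw [hmap, hA, Matrix.scalar_apply, ← smul_one_eq_diagonal, mul_smul_comm, mul_one, smul_smul,
    inv_mul_cancel₀ hc0, one_smul]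

variable [Fintype F]

/-- A proper subfield lies in one of prime index. -/
theorem exists_prime_index_subfield {F₀ : Subfield F} (hF₀ : F₀ ≠ ⊤) :
    ∃ (F₁ : Subfield F) (r : ℕ), F₀ ≤ F₁ ∧ F₁ ≠ ⊤ ∧ r.Prime ∧ Fintype.card F = Nat.card F₁ ^ r := by
  classical
  haveI : Finite (Subfield F) := Finite.of_injective (fun K : Subfield F => (K : Set F)) SetLike.coe_injective
  obtain ⟨F₁, ⟨hle, hne⟩, hmax⟩ := WellFounded.has_min (wellFounded_gt (α := Subfield F))
    {K | F₀ ≤ K ∧ K ≠ ⊤} ⟨F₀, le_rfl, hF₀⟩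
  haveI := Fintype.ofFinite F₁
  refine ⟨F₁, Module.finrank F₁ F, hle, hne, ?_, ?_⟩
  swap
  · rw [Nat.card_eq_fintype_card]
    exact Module.card_eq_pow_finrank (K := F₁) (V := F)
  by_contra hp
  have h1 : Module.finrank F₁ F ≠ 1 := by
    intro h1
    apply hne
    have hc := Module.card_eq_pow_finrank (K := F₁) (V := F)
    rw [h1, pow_one] at hc
    exact eq_top_iff.mpr fun y _ => by
      obtain ⟨z, hz⟩ := ((Fintype.bijective_iff_injective_and_card (Subtype.val : F₁ → F)).mpr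
        ⟨Subtype.val_injective, hc.symm⟩).2 y
      exact hz ▸ z.2
  obtain ⟨l, hl, hld⟩ := Nat.exists_prime_and_dvd h1
  haveI := Fact.mk hl
  haveI : IsGalois F₁ F := by infer_instance
  have hG : Nat.card (F ≃ₐ[F₁] F) = Module.finrank F₁ F := IsGalois.card_aut_eq_finrank F₁ F
  obtain ⟨s, hs⟩ := exists_prime_orderOf_dvd_card' (G := F ≃ₐ[F₁] F) l (hG ▸ hld)
  let K := IntermediateField.fixedField (Subgroup.zpowers s)
  have hK : Module.finrank K F = l := by
    rw [IntermediateField.finrank_fixedField_eq_card, Nat.card_zpowers, hs]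
  have hK1 : F₁ ≤ K.toSubfield := fun y hy => K.algebraMap_mem ⟨y, hy⟩
  by_cases htop : K.toSubfield = ⊤
  · have : K = ⊤ := IntermediateField.toSubfield_injective (htop.trans IntermediateField.top_toSubfield.symm)
    rw [this, IntermediateField.finrank_top] at hK
    exact hl.ne_one hK.symm
  · have heq : K.toSubfield = F₁ := by
      by_contra hc
      exact hmax K.toSubfield ⟨hle.trans hK1, htop⟩ (lt_of_le_of_ne hK1 (Ne.symm hc))
    have hbot : K = ⊥ := by
      refine eq_bot_iff.mpr fun y hy => ?_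
      rw [IntermediateField.mem_bot]
      exact ⟨⟨y, heq ▸ hy⟩, rfl⟩
    rw [hbot, IntermediateField.finrank_bot'] at hK
    exact hp (hK ▸ hl)

theorem subfield_case [NeZero n] {H P : Subgroup (GL (Fin n) F)}
    (hP : Cfsg.Geo.ActsAbsolutelyIrreducibly (Cfsg.Geo.matrixSet P))
    (hN : ∀ h ∈ H, ∀ x ∈ P, h * x * h⁻¹ ∈ P) {F₀ : Subfield F} (hF₀ : F₀ ≠ ⊤)
    (hR : Cfsg.Geo.RealisableOver F₀ (Cfsg.Geo.matrixSet P)) :
    ∃ (F₁ : Subfield F) (r : ℕ) (Q : GL (Fin n) F), r.Prime ∧ F₁ ≠ ⊤ ∧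
      Fintype.card F = Nat.card F₁ ^ r ∧ H ≤ Cfsg.Geo.subfieldSubgroup F₁ Q := by
  obtain ⟨F₁, r, hle, hne, hr, hc⟩ := exists_prime_index_subfield hF₀
  obtain ⟨B, hB⟩ := hR
  exact ⟨F₁, r, B⁻¹, hr, hne, hc, fun h hh => mem_subfield_of_realised hP (hN h hh) F₁ B
    fun x hx i j => hle (by simpa [Units.val_mul] using hB _ ⟨x, hx, rfl⟩ i j)⟩

end CfsgLib.GeoPrime
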