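import Mathlib
import Cfsg.Agent.GeoPrime.Proper

/-!
Forms attached to a basis, similarity from normalising, and alternating forms in odd dimension.
-/

set_option autoImplicit false

namespace CfsgLib.GeoPrime

open Matrix

variable {n : ℕ} {F : Type*} [Field F]

/-- The form `Σ xᵢ σ(yᵢ)` in the coordinates of `b`. -/
noncomputable def diagForm (σ : F ≃+* F) (b : Module.Basis (Fin n) F (Fin n → F))
    (u v : Fin n → F) : F :=
  ∑ i, b.repr u i * σ (b.repr v i)

/-- The quadratic form `Σ xᵢ²` in the coordinates of `b`. -/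
noncomputable def diagQuad (b : Module.Basis (Fin n) F (Fin n → F)) (v : Fin n → F) : F :=
  ∑ i, b.repr v i ^ 2

theorem diagForm_basis (σ : F ≃+* F) (b : Module.Basis (Fin n) F (Fin n → F)) (v : Fin n → F) (j : Fin n) :
    diagForm σ b (b j) v = σ (b.repr v j) := by
  simp [diagForm, Finsupp.single_apply]

theorem isUnitary_diagForm {σ : F ≃+* F} (hne : σ ≠ RingEquiv.refl F) (hinv : ∀ a, σ (σ a) = a)
    (b : Module.Basis (Fin n) F (Fin n → F)) : Cfsg.Geo.IsUnitaryForm σ (diagForm σ b) := by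
  have herm : ∀ v w, diagForm σ b v w = σ (diagForm σ b w v) := fun v w => by
    simp [diagForm, map_sum, map_mul, hinv, mul_comm]
  refine ⟨hne, hinv, fun x y v => ?_, fun c x v => ?_, herm, fun v hv => ?_⟩
  · simp [diagForm, add_mul, Finset.sum_add_distrib]
  · simp [diagForm, Finset.mul_sum, mul_assoc]
  · obtain ⟨j, hj⟩ : ∃ j, b.repr v j ≠ 0 := by
      by_contra h
      push Not at h
      exact hv (b.repr.injective (Finsupp.ext fun j => by simp [h j]))
    refine ⟨⟨b j, by rw [diagForm_basis]; simpa using hj⟩, ⟨b j, ?_⟩⟩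
    rw [herm, diagForm_basis, hinv]
    exact hj

/-- The matrix `g` is monomial in the basis `b` with the multipliers `c`. -/
theorem repr_monomial {g : GL (Fin n) F} {b : Module.Basis (Fin n) F (Fin n → F)} {c : Fin n → F}
    {τ : Equiv.Perm (Fin n)} (hg : ∀ i, (g : Matrix (Fin n) (Fin n) F) *ᵥ b i = c i • b (τ i))
    (v : Fin n → F) (i : Fin n) :
    b.repr ((g : Matrix (Fin n) (Fin n) F) *ᵥ v) (τ i) = c i * b.repr v i := by
  have e : (g : Matrix (Fin n) (Fin n) F) *ᵥ v = ∑ j, (b.repr v j * c j) • b (τ j) := by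
    conv_lhs => rw [← b.sum_repr v]
    rw [Matrix.mulVec_sum]
    exact Finset.sum_congr rfl fun j _ => by rw [mulVec_smul, hg, smul_smul]
  rw [e, map_sum, Finsupp.coe_finsetSum, Finset.sum_apply, Finset.sum_eq_single i]
  · simp [mul_comm]
  · intro j _ hj
    simp [τ.injective.eq_iff, hj]
  · simp

theorem diagForm_monomial {σ : F ≃+* F} {g : GL (Fin n) F} {b : Module.Basis (Fin n) F (Fin n → F)}
    {c : Fin n → F} {τ : Equiv.Perm (Fin n)}
    (hg : ∀ i, (g : Matrix (Fin n) (Fin n) F) *ᵥ b i = c i • b (τ i)) (hc : ∀ i, c i * σ (c i) = 1)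
    (u v : Fin n → F) :
    diagForm σ b ((g : Matrix (Fin n) (Fin n) F) *ᵥ u) ((g : Matrix (Fin n) (Fin n) F) *ᵥ v) =
      diagForm σ b u v := by
  rw [diagForm, ← Equiv.sum_comp τ]
  refine Finset.sum_congr rfl fun i _ => ?_
  rw [repr_monomial hg, repr_monomial hg, map_mul]
  linear_combination (b.repr u i * σ (b.repr v i)) * hc i

theorem diagQuad_monomial {g : GL (Fin n) F} {b : Module.Basis (Fin n) F (Fin n → F)}
    {c : Fin n → F} {τ : Equiv.Perm (Fin n)}
    (hg : ∀ i, (g : Matrix (Fin n) (Fin n) F) *ᵥ b i = c i • b (τ i)) (hc : ∀ i, c i ^ 2 = 1)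
    (v : Fin n → F) : diagQuad b ((g : Matrix (Fin n) (Fin n) F) *ᵥ v) = diagQuad b v := by
  rw [diagQuad, ← Equiv.sum_comp τ]
  refine Finset.sum_congr rfl fun i _ => ?_
  rw [repr_monomial hg, mul_pow, hc, one_mul]

theorem isQuad_diagQuad (h2 : (2 : F) ≠ 0) (b : Module.Basis (Fin n) F (Fin n → F)) :
    Cfsg.Geo.IsNondegenerateQuadraticForm (diagQuad b) := by
  have hpol : ∀ u v, QuadraticMap.polar (diagQuad b) u v = 2 * ∑ i, b.repr u i * b.repr v i := by
    intro u v
    simp only [QuadraticMap.polar, diagQuad, map_add, Finsupp.add_apply, ← Finset.sum_sub_distrib,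
      Finset.mul_sum]
    exact Finset.sum_congr rfl fun i _ => by ring
  refine ⟨fun c v => ?_, ⟨fun x y v => ?_, fun c x v => ?_, fun v x y => ?_, fun c v x => ?_⟩, fun v hv => ?_⟩
  · simp [diagQuad, Finset.mul_sum, mul_pow]
  · simp [hpol, add_mul, Finset.sum_add_distrib, mul_add]
  · simp [hpol, Finset.mul_sum]; exact Finset.sum_congr rfl fun i _ => by ring
  · simp [hpol, mul_add, Finset.sum_add_distrib]
  · simp [hpol, Finset.mul_sum]; exact Finset.sum_congr rfl fun i _ => by ring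
  · obtain ⟨j, hj⟩ : ∃ j, b.repr v j ≠ 0 := by
      by_contra h
      push Not at h
      exact hv (b.repr.injective (Finsupp.ext fun j => by simp [h j]))
    exact ⟨⟨b j, by rw [hpol]; simpa [Finsupp.single_apply, h2] using hj⟩,
      ⟨b j, by rw [hpol]; simpa [Finsupp.single_apply, h2] using hj⟩⟩

/-- Each element normalising an absolutely irreducible group of isometries is a similarity. -/
theorem mem_similarity_of_fixes [NeZero n] {P : Subgroup (GL (Fin n) F)}
    (hP : Cfsg.Geo.ActsAbsolutelyIrreducibly (Cfsg.Geo.matrixSet P)) {σ : F ≃+* F}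
    {f : (Fin n → F) → (Fin n → F) → F} (hf : IsSesq σ f)
    (hfix : Cfsg.Geo.FixesForm (Cfsg.Geo.matrixSet P) f) {h : GL (Fin n) F}
    (hh : ∀ x ∈ P, h * x * h⁻¹ ∈ P) : h ∈ Cfsg.Geo.similarityGroup f := by
  classical
  let e : Fin n → Fin n → F := fun j => Pi.single j 1
  let Φ : (Fin n → F) →ₗ[F] (Fin n → F) :=
    { toFun := fun u j => f u (e j)
      map_add' := fun u v => funext fun j => hf.add_left u v _
      map_smul' := fun c u => funext fun j => hf.smul_left c u _ }
  let Φ' : (Fin n → F) →ₗ[F] (Fin n → F) :=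
    { toFun := fun u j => f ((h : Matrix (Fin n) (Fin n) F) *ᵥ u) ((h : Matrix (Fin n) (Fin n) F) *ᵥ e j)
      map_add' := fun u v => funext fun j => by rw [mulVec_add]; exact hf.add_left _ _ _
      map_smul' := fun c u => funext fun j => by rw [mulVec_smul]; exact hf.smul_left c _ _ }
  have hzero : ∀ u, f u 0 = 0 := fun u => by
    have := hf.smul_right 0 u 0
    simpa using this
  have hexp : ∀ u v : Fin n → F, f u v = ∑ j, σ (v j) * f u (e j) := by
    intro u v
    let g : (Fin n → F) →+ F := AddMonoidHom.mk' (fun x => f u x) (hf.add_right u)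
    calc f u v = g (∑ j, v j • e j) := by
          show f u v = f u _
          rw [← pi_eq_sum_univ' v]
      _ = ∑ j, g (v j • e j) := map_sum g _ _
      _ = _ := Finset.sum_congr rfl fun j _ => hf.smul_right _ _ _
  have hΦinj : Function.Injective Φ := by
    rw [← LinearMap.ker_eq_bot, eq_bot_iff]
    intro u hu
    rw [Submodule.mem_bot]
    by_contra hu0
    obtain ⟨x, hx⟩ := hf.left_ne u hu0
    apply hx
    rw [hexp]
    refine Finset.sum_eq_zero fun j _ => ?_
    rw [show f u (e j) = 0 from congrFun (LinearMap.mem_ker.mp hu) j, mul_zero]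
  let Φe : (Fin n → F) ≃ₗ[F] (Fin n → F) :=
    LinearEquiv.ofBijective Φ ⟨hΦinj, LinearMap.injective_iff_surjective.mp hΦinj⟩
  let M : (Fin n → F) →ₗ[F] (Fin n → F) := Φe.symm.toLinearMap ∘ₗ Φ'
  have hM : ∀ u j, f (M u) (e j) = f ((h : Matrix (Fin n) (Fin n) F) *ᵥ u) ((h : Matrix (Fin n) (Fin n) F) *ᵥ e j) :=
    fun u j => congrFun (Φe.apply_symm_apply (Φ' u)) j
  have hMf : ∀ u v, f (M u) v = f ((h : Matrix (Fin n) (Fin n) F) *ᵥ u) ((h : Matrix (Fin n) (Fin n) F) *ᵥ v) := by
    intro u v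
    let g : (Fin n → F) →+ F :=
      AddMonoidHom.mk' (fun x => f ((h : Matrix (Fin n) (Fin n) F) *ᵥ u) ((h : Matrix (Fin n) (Fin n) F) *ᵥ x))
        (fun a b => by rw [mulVec_add]; exact hf.add_right _ _ _)
    calc f (M u) v = ∑ j, σ (v j) * f (M u) (e j) := hexp _ _
      _ = ∑ j, g (v j • e j) := Finset.sum_congr rfl fun j _ => by
          show _ = f _ ((h : Matrix (Fin n) (Fin n) F) *ᵥ (v j • e j))
          rw [hM, mulVec_smul, hf.smul_right]
      _ = g (∑ j, v j • e j) := (map_sum g _ _).symm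
      _ = _ := by show f _ _ = f _ _; rw [← pi_eq_sum_univ' v]
  have hleft : ∀ a b, (∀ v, f a v = f b v) → a = b := by
    intro a b hab
    apply hΦinj
    exact funext fun j => hab _
  have hMs : ∀ s ∈ P, ∀ u, M ((s : Matrix (Fin n) (Fin n) F) *ᵥ u) = (s : Matrix (Fin n) (Fin n) F) *ᵥ M u := by
    intro s hs u
    refine hleft _ _ fun v => ?_
    obtain ⟨w, rfl⟩ : ∃ w, (s : Matrix (Fin n) (Fin n) F) *ᵥ w = v := ⟨_, gl_mulVec_inv s v⟩
    rw [hfix _ ⟨s, hs, rfl⟩ (M u) w, hMf, hMf]
    have hconj : ∀ z, (h : Matrix (Fin n) (Fin n) F) *ᵥ ((s : Matrix (Fin n) (Fin n) F) *ᵥ z) =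
        ((h * s * h⁻¹ : GL (Fin n) F) : Matrix (Fin n) (Fin n) F) *ᵥ ((h : Matrix (Fin n) (Fin n) F) *ᵥ z) := by
      intro z
      rw [mulVec_mulVec, mulVec_mulVec, ← Units.val_mul, ← Units.val_mul, inv_mul_cancel_right]
    rw [hconj, hconj]
    exact hfix _ ⟨_, hh s hs, rfl⟩ _ _
  obtain ⟨c, hc⟩ := hP.2 (LinearMap.toMatrix' M) (by
    rintro _ ⟨s, hs, rfl⟩
    refine Matrix.ext_iff_mulVec.mpr fun u => ?_
    rw [← mulVec_mulVec, ← mulVec_mulVec, LinearMap.toMatrix'_mulVec, LinearMap.toMatrix'_mulVec]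
    exact hMs s hs u)
  have hMc : ∀ u, M u = c • u := fun u => by
    rw [← LinearMap.toMatrix'_mulVec M u, hc, smul_mulVec, one_mulVec]
  have hc0 : c ≠ 0 := by
    intro h0
    let u : Fin n → F := Pi.single 0 1
    have hu : u ≠ 0 := fun h => by simpa [u] using congrFun h 0
    have hhu : (h : Matrix (Fin n) (Fin n) F) *ᵥ u ≠ 0 := fun e => hu (gl_inj h (by rw [e, mulVec_zero]))
    obtain ⟨x, hx⟩ := hf.left_ne _ hhu
    apply hx
    rw [← gl_mulVec_inv h x, ← hMf, hMc, h0, zero_smul]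
    have := hf.smul_left 0 0 (((h⁻¹ : GL (Fin n) F) : Matrix (Fin n) (Fin n) F) *ᵥ x)
    simpa using this
  exact mem_similarityGroup.mpr ⟨Units.mk0 c hc0, fun u v => by
    rw [← hMf, hMc, hf.smul_left]; rfl⟩

theorem quad_eq_half_polar {Q : (Fin n → F) → F} (h : Cfsg.Geo.IsNondegenerateQuadraticForm Q)
    (v : Fin n → F) : 2 * Q v = QuadraticMap.polar Q v v := by
  rw [QuadraticMap.polar, ← two_smul F v, h.smul]
  ring

/-- The quadratic version. -/
theorem mem_quadSimilarity_of_fixes [NeZero n] (h2 : (2 : F) ≠ 0) {P : Subgroup (GL (Fin n) F)}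
    (hP : Cfsg.Geo.ActsAbsolutelyIrreducibly (Cfsg.Geo.matrixSet P)) {Q : (Fin n → F) → F}
    (hQ : Cfsg.Geo.IsNondegenerateQuadraticForm Q)
    (hfix : Cfsg.Geo.FixesQuadForm (Cfsg.Geo.matrixSet P) Q) {h : GL (Fin n) F}
    (hh : ∀ x ∈ P, h * x * h⁻¹ ∈ P) : h ∈ Cfsg.Geo.quadSimilarityGroup Q := by
  have hfix' : Cfsg.Geo.FixesForm (Cfsg.Geo.matrixSet P) (QuadraticMap.polar Q) := by
    intro s hs u v
    simp only [QuadraticMap.polar, ← mulVec_add, hfix s hs]
  obtain ⟨c, hc⟩ := mem_similarityGroup.mp (mem_similarity_of_fixes hP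
    (isSesq_of_bilinear hQ.polar_bilinear hQ.nondegenerate) hfix' hh)
  refine mem_quadSimilarityGroup.mpr ⟨c, fun v => mul_left_cancel₀ h2 ?_⟩
  rw [quad_eq_half_polar hQ, hc, ← quad_eq_half_polar hQ]
  ring

/-- There is no non-degenerate alternating form in odd dimension. -/
theorem no_alternating_odd (hn : Odd n) {f : (Fin n → F) → (Fin n → F) → F}
    (hb : Cfsg.Geo.IsBilinearForm f) (halt : ∀ v, f v v = 0) (hne : Cfsg.Geo.IsNondegenerateForm f) :
    False := by
  classical
  let e : Fin n → Fin n → F := fun j => Pi.single j 1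
  let A : Matrix (Fin n) (Fin n) F := fun i j => f (e i) (e j)
  have hskew : ∀ u v, f u v = - f v u := by
    intro u v
    have h := halt (u + v)
    rw [hb.add_left, hb.add_right, hb.add_right, halt, halt, zero_add, add_zero] at h
    exact eq_neg_of_add_eq_zero_left h
  have hdet : A.det = 0 := by
    rw [Matrix.det_apply']
    refine Finset.sum_involution (fun τ _ => τ⁻¹) ?_ ?_ (fun τ _ => Finset.mem_univ _)
      (fun τ _ => inv_inv τ)
    · intro τ _
      have hprod : ∏ i, A ((τ⁻¹ : Equiv.Perm (Fin n)) i) i = - ∏ i, A (τ i) i := by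
        rw [← Equiv.prod_comp τ (fun i => A ((τ⁻¹ : Equiv.Perm (Fin n)) i) i)]
        rw [Finset.prod_congr rfl (g := fun i => (-1 : F) * A (τ i) i) (fun i _ => by
          simp only [A, Equiv.Perm.inv_def, Equiv.symm_apply_apply]
          rw [hskew]; ring), Finset.prod_mul_distrib, Finset.prod_const, Finset.card_univ,
          Fintype.card_fin, hn.neg_one_pow, neg_one_mul]
      rw [hprod, Equiv.Perm.sign_inv, mul_neg, add_neg_cancel]
    · intro τ _ hτ heq
      apply hτ
      by_cases hfx : ∃ i, τ i = i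
      · obtain ⟨i, hi⟩ := hfx
        rw [Finset.prod_eq_zero (Finset.mem_univ i) (by simp [A, hi, halt]), mul_zero]
      · exfalso
        push Not at hfx
        have h2 : τ ^ 2 = 1 := by rw [pow_two]; nth_rewrite 1 [← heq]; exact inv_mul_cancel τ
        have := Equiv.Perm.card_compl_support_modEq (p := 2) (n := 1) (σ := τ) (by simpa using h2)
        rw [show τ.support = Finset.univ from Finset.eq_univ_iff_forall.mpr fun i =>
          Equiv.Perm.mem_support.mpr (hfx i), Finset.compl_univ, Finset.card_empty, Fintype.card_fin] at this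
        obtain ⟨k, hk⟩ := hn
        have h' : 0 % 2 = n % 2 := this
        omega
  obtain ⟨v, hv, hAv⟩ := Matrix.exists_mulVec_eq_zero_iff.mpr hdet
  obtain ⟨⟨x, hx⟩, -⟩ := hne v hv
  apply hx
  have hexp : ∀ u, f u v = ∑ j, v j * f u (e j) := by
    intro u
    let g : (Fin n → F) →+ F := AddMonoidHom.mk' (fun x => f u x) (hb.add_right u)
    calc f u v = g (∑ j, v j • e j) := by
          show f u v = f u _
          rw [← pi_eq_sum_univ' v]
      _ = ∑ j, g (v j • e j) := map_sum g _ _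
      _ = _ := Finset.sum_congr rfl fun j _ => hb.smul_right _ _ _
  have hzero : ∀ i, f (e i) v = 0 := fun i => by
    rw [hexp]
    simpa [Matrix.mulVec, dotProduct, A, mul_comm] using congrFun hAv i
  let g : (Fin n → F) →+ F := AddMonoidHom.mk' (fun x => f x v) (fun a b => hb.add_left a b v)
  calc f x v = g (∑ j, x j • e j) := by
        show f x v = f _ v
        rw [← pi_eq_sum_univ' x]
    _ = ∑ j, g (x j • e j) := map_sum g _ _
    _ = 0 := Finset.sum_eq_zero fun j _ => by
        show f (x j • e j) v = 0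
        rw [hb.smul_left, hzero, mul_zero]

theorem no_quad_char_two (hn : Odd n) (h2 : (2 : F) = 0) {Q : (Fin n → F) → F}
    (hQ : Cfsg.Geo.IsNondegenerateQuadraticForm Q) : False :=
  no_alternating_odd hn hQ.polar_bilinear (fun v => by rw [← quad_eq_half_polar hQ, h2, zero_mul])
    hQ.nondegenerate

end CfsgLib.GeoPrime
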