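import Mathlib
import Cfsg.Agent.GeoPrime.Descent
import Cfsg.Agent.GeoPrime.Forms

/-!
Frobenius fixed fields, coordinates in a basis, monomial elements.
-/

set_option autoImplicit false

namespace CfsgLib.GeoPrime

open Matrix

variable {n : ℕ} {F : Type*} [Field F]

section Frobenius

variable (F) (p : ℕ) [ExpChar F p]

/-- The subfield of fixed points of `x ↦ x ^ (p ^ k)`. -/
def frobFixed (k : ℕ) : Subfield F :=
  RingHom.eqLocusField (iterateFrobenius F p k) (RingHom.id F)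

theorem mem_frobFixed {k : ℕ} {x : F} : x ∈ frobFixed F p k ↔ x ^ p ^ k = x := by
  rw [← iterateFrobenius_def]
  rfl

theorem exists_pow_ne [Fintype F] {k : ℕ} (hp : 1 < p) (hk : 0 < k)
    (hlt : p ^ k < Fintype.card F) : ∃ x : F, x ^ p ^ k ≠ x := by
  classical
  by_contra h
  push Not at h
  have h1 : 1 < p ^ k := Nat.one_lt_pow hk.ne' hp
  have hdeg : (Polynomial.X ^ p ^ k - Polynomial.X : Polynomial F).natDegree = p ^ k :=
    FiniteField.X_pow_card_sub_X_natDegree_eq F h1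
  have := Polynomial.card_le_degree_of_subset_roots (p := (Polynomial.X ^ p ^ k - Polynomial.X : Polynomial F))
    (Z := Finset.univ) (fun x _ => by
      rw [Polynomial.mem_roots (FiniteField.X_pow_card_sub_X_ne_zero F h1)]
      simp [h x])
  rw [hdeg, Finset.card_univ] at this
  omega

theorem frobFixed_ne_top [Fintype F] {k : ℕ} (hp : 1 < p) (hk : 0 < k)
    (hlt : p ^ k < Fintype.card F) : frobFixed F p k ≠ ⊤ := by
  intro h
  obtain ⟨x, hx⟩ := exists_pow_ne F p hp hk hlt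
  exact hx ((mem_frobFixed F p).mp (h ▸ Subfield.mem_top x))

/-- The automorphism of order two of a field of square order. -/
theorem exists_involution [Fintype F] {k : ℕ} (hp : 1 < p) (hk : 0 < k)
    (hc : Fintype.card F = p ^ (2 * k)) :
    ∃ σ : F ≃+* F, σ ≠ RingEquiv.refl F ∧ (∀ a, σ (σ a) = a) ∧ ∀ a, σ a = a ^ p ^ k := by
  haveI : PerfectRing F p := PerfectRing.ofFiniteOfIsReduced p F
  refine ⟨iterateFrobeniusEquiv F p k, fun h => ?_, fun a => ?_, fun a => iterateFrobeniusEquiv_def F p k a⟩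
  · obtain ⟨x, hx⟩ := exists_pow_ne F p hp hk (hc ▸ Nat.pow_lt_pow_right hp (by omega))
    exact hx (by rw [← iterateFrobeniusEquiv_def, h]; rfl)
  · rw [iterateFrobeniusEquiv_def, iterateFrobeniusEquiv_def, ← pow_mul, ← pow_add, ← two_mul, ← hc,
      FiniteField.pow_card]

end Frobenius

/-- The change of basis attached to `b`. -/
theorem exists_basisChange (b : Module.Basis (Fin n) F (Fin n → F)) :
    ∃ B : GL (Fin n) F, ∀ (x : GL (Fin n) F) (i j : Fin n),
      ((B * x * B⁻¹ : GL (Fin n) F) : Matrix (Fin n) (Fin n) F) i j =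
        b.repr ((x : Matrix (Fin n) (Fin n) F) *ᵥ b j) i := by
  classical
  let e := Pi.basisFun F (Fin n)
  let B : GL (Fin n) F := ⟨b.toMatrix e, e.toMatrix b, Module.Basis.toMatrix_mul_toMatrix_flip b e,
    Module.Basis.toMatrix_mul_toMatrix_flip e b⟩
  refine ⟨B, fun x i j => ?_⟩
  have h : ((B * x * B⁻¹ : GL (Fin n) F) : Matrix (Fin n) (Fin n) F) =
      LinearMap.toMatrix b b (Matrix.toLin' (x : Matrix (Fin n) (Fin n) F)) := by
    rw [← basis_toMatrix_mul_linearMap_toMatrix_mul_basis_toMatrix b e b e]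
    simp [B, e, LinearMap.toMatrix_eq_toMatrix', mul_assoc]
  rw [h, LinearMap.toMatrix_apply, Matrix.toLin'_apply]

/-- A group whose elements are, up to scalars, written over a proper subfield lies in a subfield group. -/
theorem exists_le_subfieldSubgroup [Fintype F] {H : Subgroup (GL (Fin n) F)} {F₀ : Subfield F} (hF₀ : F₀ ≠ ⊤)
    (B : GL (Fin n) F)
    (h : ∀ g ∈ H, ∃ c : F, c ≠ 0 ∧ ∀ i j,
      c * ((B * g * B⁻¹ : GL (Fin n) F) : Matrix (Fin n) (Fin n) F) i j ∈ F₀) :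
    ∃ (F₁ : Subfield F) (r : ℕ), r.Prime ∧ F₁ ≠ ⊤ ∧ Fintype.card F = Nat.card F₁ ^ r ∧
      H ≤ Cfsg.Geo.subfieldSubgroup F₁ B⁻¹ := by
  obtain ⟨F₁, r, hle, hne, hr, hc⟩ := exists_prime_index_subfield hF₀
  refine ⟨F₁, r, hr, hne, hc, fun g hg => ?_⟩
  obtain ⟨c, hc0, hmem⟩ := h g hg
  let A : Matrix (Fin n) (Fin n) F₁ := fun i j => ⟨_, hle (hmem i j)⟩
  have hA : A.map Subtype.val = c • ((B * g * B⁻¹ : GL (Fin n) F) : Matrix (Fin n) (Fin n) F) := rfl
  have hdet : A.det ≠ 0 := by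
    intro h0
    have h1 := RingHom.map_det F₁.subtype A
    rw [RingHom.mapMatrix_apply] at h1
    change F₁.subtype A.det = (A.map Subtype.val).det at h1
    rw [h0, map_zero, hA, Matrix.det_smul] at h1
    exact mul_ne_zero (pow_ne_zero _ hc0)
      (IsUnit.ne_zero ((Matrix.isUnit_iff_isUnit_det _).mp (B * g * B⁻¹).isUnit)) h1.symm
  refine mem_subfieldSubgroup.mpr ⟨GeneralLinearGroup.mkOfDetNeZero A hdet, (Units.mk0 c hc0)⁻¹, ?_⟩
  rw [inv_inv]
  show _ = ((Units.mk0 c hc0)⁻¹ : Fˣ).val • A.map Subtype.val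
  rw [hA, smul_smul, Units.val_inv_eq_inv_val, Units.val_mk0, inv_mul_cancel₀ hc0, one_smul]

/-- Elements permuting the lines of a basis are monomial. -/
theorem exists_monomial {b : Module.Basis (Fin n) F (Fin n → F)} {g : GL (Fin n) F}
    (hg : g ∈ Cfsg.Geo.decompositionStabilizer (basisLines b)) :
    ∃ (c : Fin n → F) (τ : Equiv.Perm (Fin n)), (∀ i, c i ≠ 0) ∧
      ∀ i, (g : Matrix (Fin n) (Fin n) F) *ᵥ b i = c i • b (τ i) := by
  obtain ⟨τ, hτ⟩ := mem_decompositionStabilizer.mp hg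
  have h : ∀ i, ∃ c : F, c • b (τ i) = (g : Matrix (Fin n) (Fin n) F) *ᵥ b i := fun i =>
    Submodule.mem_span_singleton.mp ((hτ i).le ⟨b i, Submodule.mem_span_singleton_self _, by simp⟩)
  choose c hc using h
  refine ⟨c, τ, fun i h0 => b.ne_zero i (gl_inj g ?_), fun i => (hc i).symm⟩
  rw [← hc i, h0, zero_smul, mulVec_zero]

end CfsgLib.GeoPrime
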