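import Mathlib
import Cfsg.Agent.GeoPrime.Tools

/-!
The normaliser of the field of order 64 in SL(3,4) is a subfield group.
-/

set_option autoImplicit false

namespace CfsgLib.GeoPrime

open Matrix

variable {F : Type*} [Field F] [Fintype F]

/-- Elements of order seven of a degree-three field over `GF(4)` give an `F₂`-structure. -/
theorem le_subfield_of_field64 (hq : Fintype.card F = 4) {H : Subgroup (GL (Fin 3) F)}
    (hS : H ≤ Cfsg.Geo.specialLinear (Fin 3) F) {K : Subalgebra F (Matrix (Fin 3) (Fin 3) F)}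
    (hK : Cfsg.Geo.IsFieldSubalgebra 3 K) (hH : H ≤ Cfsg.Geo.subalgebraNormalizer K) :
    ∃ (F₁ : Subfield F) (r : ℕ) (Q : GL (Fin 3) F), r.Prime ∧ F₁ ≠ ⊤ ∧
      Fintype.card F = Nat.card F₁ ^ r ∧ H ≤ Cfsg.Geo.subfieldSubgroup F₁ Q := by
  classical
  haveI : Fact (Nat.Prime 2) := ⟨Nat.prime_two⟩
  haveI : CharP F 2 := charP_of_card_eq_prime_pow (f := 2) (by rw [hq]; norm_num)
  haveI : ExpChar F 2 := ExpChar.prime Nat.prime_two
  letI : CommRing K := { (inferInstance : Ring K) with mul_comm := fun a b => Subtype.ext (hK.comm a a.2 b b.2) }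
  haveI : Nontrivial K := ⟨0, 1, fun h => by
    have := congrArg (fun k : K => (k : Matrix (Fin 3) (Fin 3) F) 0 0) h
    simp at this⟩
  haveI : Fintype K := Fintype.ofFinite K
  have hinv : ∀ a : K, a ≠ 0 → IsUnit a := fun a ha => by
    obtain ⟨y, hy, he⟩ := hK.inv a a.2 fun h => ha (Subtype.ext h)
    exact IsUnit.of_mul_eq_one ⟨y, hy⟩ (Subtype.ext he)
  haveI : NoZeroDivisors K := ⟨fun {a b} h => or_iff_not_imp_left.mpr fun ha =>
    (hinv a ha).mul_right_eq_zero.mp h⟩
  haveI : IsDomain K := NoZeroDivisors.to_isDomain K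
  letI : Field K := Fintype.fieldOfDomain K
  have hcard : Nat.card K = 64 := by
    rw [Module.natCard_eq_pow_finrank (K := F) (V := K), hK.finrank_eq, Nat.card_eq_fintype_card, hq]
    norm_num
  have hcardU : Nat.card Kˣ = 63 := by
    have e : Kˣ ≃ {a : K // a ≠ 0} :=
      { toFun := fun u => ⟨u, u.ne_zero⟩
        invFun := fun a => (hinv a a.2).unit
        left_inv := fun u => Units.ext rfl
        right_inv := fun a => Subtype.ext rfl }
    rw [Nat.card_congr e, Nat.card_eq_fintype_card, Fintype.card_subtype_compl, Fintype.card_subtype_eq,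
      ← Nat.card_eq_fintype_card, hcard]
  -- scalars are the solutions of `x⁴ = x`
  have hfix : ∀ a : K, a ^ 4 = a → ∃ c : F, algebraMap F K c = a := by
    intro a ha
    by_contra hne
    push Not at hne
    have hsub := Polynomial.card_le_degree_of_subset_roots (p := (Polynomial.X ^ 4 - Polynomial.X : Polynomial K))
      (Z := insert a (Finset.univ.image (algebraMap F K))) (fun x hx => by
        rw [Polynomial.mem_roots (FiniteField.X_pow_card_sub_X_ne_zero K (by norm_num))]
        rcases Finset.mem_insert.mp hx with rfl | hx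
        · simp [ha]
        · obtain ⟨c, -, rfl⟩ := Finset.mem_image.mp hx
          simp [← map_pow, show c ^ 4 = c by rw [← hq]; exact FiniteField.pow_card c])
    rw [Finset.card_insert_of_notMem (by simpa using fun c => hne c),
      Finset.card_image_of_injective _ (algebraMap F K).injective, Finset.card_univ, hq,
      FiniteField.X_pow_card_sub_X_natDegree_eq K (by norm_num : 1 < 4)] at hsub
    omega
  obtain ⟨ζ, hζ⟩ := IsCyclic.exists_generator (α := Kˣ)
  have hord : orderOf ζ = 63 := by rw [orderOf_eq_card_of_forall_mem_zpowers hζ, hcardU]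
  set η : K := ((ζ ^ 9 : Kˣ) : K) with hη
  have hη7 : η ^ 7 = 1 := by
    rw [hη, ← Units.val_pow_eq_pow_val, ← pow_mul, show 9 * 7 = 63 by norm_num, ← hord, pow_orderOf_eq_one,
      Units.val_one]
  have hη1 : η ≠ 1 := fun h => by
    have h' := orderOf_dvd_of_pow_eq_one (Units.ext h : ζ ^ 9 = 1)
    rw [hord] at h'
    norm_num at h'
  -- the `F`-coordinates of a fixed point of `x ↦ x⁸` lie in `F₂`
  have hc4 : ∀ c : F, c ^ 4 = c := fun c => by rw [← hq]; exact FiniteField.pow_card c
  have hc8 : ∀ c : F, c ^ 8 = c ^ 2 := fun c => by rw [show 8 = 4 * 2 by norm_num, pow_mul, hc4]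
  haveI : CharP K 2 := charP_of_injective_algebraMap (algebraMap F K).injective 2
  have hadd : ∀ a b : K, (a + b) ^ 8 = a ^ 8 + b ^ 8 := fun a b => add_pow_char_pow a b 2 3
  have hη8 : η ^ 8 = η := by rw [pow_succ, hη7, one_mul]
  have hηF : ∀ c : F, algebraMap F K c ≠ η := by
    intro c hc
    have h3 : η ^ 4 = η := by rw [← hc, ← map_pow, hc4]
    have h4 : η ^ 16 = η := by rw [show 16 = 4 * 4 by norm_num, pow_mul, h3, h3]
    have h2 : η ^ 2 = η := by
      conv_rhs => rw [← h4, show 16 = 7 + 7 + 2 by norm_num, pow_add, pow_add, hη7, one_mul, one_mul]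
    have hne : η ≠ 0 := fun h => by simp [h] at hη7
    exact hη1 (mul_left_cancel₀ hne (by rw [mul_one, ← sq, h2]))
  have hsq : ∀ c : F, c ^ 2 = c → c = 0 ∨ c = 1 := fun c h => by
    rcases eq_or_ne c 0 with h0 | h0
    · exact Or.inl h0
    · exact Or.inr (mul_left_cancel₀ h0 (by rw [mul_one, ← sq, h]))
  have hli : LinearIndependent F ![(1 : K), η, η ^ 2] := by
    rw [Fintype.linearIndependent_iff]
    intro g hg
    simp [Fin.sum_univ_three, Algebra.smul_def] at hg
    have hg2 : g 2 = 0 := by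
      by_contra h0
      set a := -g 0 / g 2 with ha
      set b := -g 1 / g 2 with hb
      have he : η ^ 2 = algebraMap F K a + algebraMap F K b * η := by
        have : algebraMap F K (g 2)⁻¹ * (algebraMap F K (g 0) + algebraMap F K (g 1) * η + algebraMap F K (g 2) * η ^ 2) = 0 := by
          rw [hg, mul_zero]
        rw [mul_add, mul_add, ← mul_assoc, ← mul_assoc, ← map_mul, ← map_mul, ← map_mul, inv_mul_cancel₀ h0,
          map_one, one_mul] at this
        rw [ha, hb, neg_div, neg_div, map_neg, map_neg, div_eq_inv_mul, div_eq_inv_mul]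
        linear_combination this
      have he8 := congrArg (fun x : K => x ^ 8) he
      simp only [hadd, mul_pow, ← pow_mul, ← map_pow, hc8] at he8
      rw [show η ^ (2 * 8) = η ^ 2 by rw [mul_comm, pow_mul, hη8], hη8, he] at he8
      have hd : algebraMap F K (a - a ^ 2) + algebraMap F K (b - b ^ 2) * η = 0 := by
        rw [map_sub, map_sub]
        linear_combination he8
      have hb2 : b ^ 2 = b := by
        by_contra hne
        have hbne : b - b ^ 2 ≠ 0 := fun h => hne (sub_eq_zero.mp h).symm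
        apply hηF (-(a - a ^ 2) / (b - b ^ 2))
        rw [div_eq_inv_mul, map_mul, map_neg, eq_neg_of_add_eq_zero_left hd, neg_neg, ← mul_assoc, ← map_mul,
          inv_mul_cancel₀ hbne, map_one, one_mul]
      have ha2 : a ^ 2 = a := by
        rw [hb2, sub_self, map_zero, zero_mul, add_zero, map_eq_zero] at hd
        exact (sub_eq_zero.mp hd).symm
      rcases hsq a ha2 with h | h <;> rcases hsq b hb2 with h' | h' <;>
        rw [h, h'] at he <;> simp at he
      · simp [he] at hη7
      · exact hη1 (mul_left_cancel₀ (show η ≠ 0 from fun h => by simp [h] at hη7) (by rw [mul_one, ← sq]; exact he))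
      · rcases he with h2 | h2
        · exact hη1 h2
        · exact hη1 (by rw [h2]; exact CharTwo.neg_eq 1)
      · have h3 : η ^ 3 = 1 := by
          rw [pow_succ, he, add_mul, one_mul, ← sq, he, ← add_assoc, add_comm η 1, add_assoc,
            CharTwo.add_self_eq_zero, add_zero]
        apply hη1
        calc η = η * (η ^ 3) ^ 2 := by rw [h3]; ring
          _ = η ^ 7 := by ring
          _ = 1 := hη7
    have hg1 : g 1 = 0 := by
      by_contra h0
      apply hηF (-g 0 / g 1)
      rw [hg2, map_zero, zero_mul, add_zero] at hg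
      rw [div_eq_inv_mul, map_mul, map_neg, eq_neg_of_add_eq_zero_left hg, neg_neg, ← mul_assoc, ← map_mul,
        inv_mul_cancel₀ h0, map_one, one_mul]
    rw [hg1, hg2, map_zero, zero_mul, zero_mul, add_zero, add_zero, map_eq_zero] at hg
    intro i
    fin_cases i <;> assumption
  let βK : Module.Basis (Fin 3) F K := basisOfLinearIndependentOfCardEqFinrank hli (by simp [hK.finrank_eq])
  have hβ : ∀ i, βK i = η ^ (i : ℕ) := fun i => by
    simp only [βK, coe_basisOfLinearIndependentOfCardEqFinrank]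
    fin_cases i <;> simp
  have hcoord : ∀ (e : K), e ^ 8 = e → ∀ i, βK.repr e i = 0 ∨ βK.repr e i = 1 := by
    intro e he i
    refine hsq _ ?_
    have h1 : e = ∑ i, βK.repr e i • η ^ (i : ℕ) := by
      conv_lhs => rw [← βK.sum_repr e]
      simp only [hβ]
    have h2 : e = ∑ i, (βK.repr e i) ^ 2 • βK i := by
      calc e = e ^ 8 := he.symm
        _ = _ := by
          conv_lhs => rw [h1]
          simp only [Fin.sum_univ_three, hadd, Algebra.smul_def, mul_pow, ← map_pow, hc8, hβ]
          simp [← pow_mul, hη8, show η ^ (2 * 8) = η ^ 2 by rw [mul_comm, pow_mul, hη8]]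
    have h3 := congrArg (fun x => βK.repr x i) h2
    simp only [βK.repr_sum_self] at h3
    exact h3.symm
  -- transport to `F³`
  let v : Fin 3 → F := Pi.single 0 1
  let evv : K →ₗ[F] (Fin 3 → F) :=
    { toFun := fun k => (k : Matrix (Fin 3) (Fin 3) F) *ᵥ v
      map_add' := fun a b => by simp [add_mulVec]
      map_smul' := fun c a => by simp [smul_mulVec] }
  have hevi : Function.Injective evv := by
    rw [← LinearMap.ker_eq_bot, eq_bot_iff]
    intro k hk
    rw [Submodule.mem_bot]
    by_contra h0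
    obtain ⟨y, hy, he⟩ := hK.inv k k.2 fun h => h0 (Subtype.ext h)
    have : v = 0 := by
      rw [← one_mulVec v, ← mul_eq_one_comm.mp he, ← mulVec_mulVec]
      show y *ᵥ evv k = 0
      rw [LinearMap.mem_ker.mp hk, mulVec_zero]
    simpa [v] using congrFun this 0
  let ev : K ≃ₗ[F] (Fin 3 → F) := LinearEquiv.ofBijective evv ⟨hevi,
    (LinearMap.injective_iff_surjective_of_finrank_eq_finrank (by simp [hK.finrank_eq])).mp hevi⟩
  let b : Module.Basis (Fin 3) F (Fin 3 → F) := βK.map ev
  have hb : ∀ i, b i = (βK i : Matrix (Fin 3) (Fin 3) F) *ᵥ v := fun i => rfl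
  have hev : ∀ (k : K) i, b.repr ((k : Matrix (Fin 3) (Fin 3) F) *ᵥ v) i = βK.repr k i := fun k i => by
    show (βK.map ev).repr (ev k) i = _
    simp
  obtain ⟨B, hB⟩ := exists_basisChange b
  -- determinants
  let d : K →* F := (Matrix.detMonoidHom (n := Fin 3) (R := F)).comp (K.val : K →* Matrix (Fin 3) (Fin 3) F)
  have hdval : ∀ k : K, d k = (k : Matrix (Fin 3) (Fin 3) F).det := fun k => rfl
  have hdζ : d ζ ≠ 1 := by
    intro h1
    have hall : ∀ a : K, a ≠ 0 → d a = 1 := fun a ha => by
      obtain ⟨j, hj⟩ := (mem_powers_iff_mem_zpowers.mpr (hζ (hinv a ha).unit))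
      change ζ ^ j = (hinv a ha).unit at hj
      have : (ζ : K) ^ j = a := by rw [← Units.val_pow_eq_pow_val, hj, IsUnit.unit_spec]
      rw [← this, map_pow, h1, one_pow]
    have hsub := Polynomial.card_le_degree_of_subset_roots
      (p := (η : Matrix (Fin 3) (Fin 3) F).charpoly - 1) (Z := (Finset.univ : Finset F)) (fun c _ => by
      rw [Polynomial.mem_roots', Polynomial.IsRoot, Polynomial.eval_sub, Polynomial.eval_one, eval_charpoly]
      refine ⟨fun h => ?_, ?_⟩
      · have := congrArg (fun P : Polynomial F => P.natDegree) (sub_eq_zero.mp h)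
        simp at this
      · rw [sub_eq_zero, Matrix.scalar_apply, ← smul_one_eq_diagonal]
        exact hall (algebraMap F K c - η) (sub_ne_zero.mpr (hηF c))
          |>.trans rfl |> fun h => by simpa [hdval, Algebra.algebraMap_eq_smul_one] using h)
    rw [Finset.card_univ, hq] at hsub
    have : ((η : Matrix (Fin 3) (Fin 3) F).charpoly - 1).natDegree ≤ 3 := by
      refine (Polynomial.natDegree_sub_le _ _).trans ?_
      simp
    omega
  have hscal : ∀ a : K, a ≠ 0 → d a = 1 → ∃ c : F, c ≠ 0 ∧ (c • a) ^ 8 = c • a := by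
    intro a ha hda
    obtain ⟨j, hj⟩ := (mem_powers_iff_mem_zpowers.mpr (hζ (hinv a ha).unit))
    change ζ ^ j = (hinv a ha).unit at hj
    have ha' : (ζ : K) ^ j = a := by rw [← Units.val_pow_eq_pow_val, hj, IsUnit.unit_spec]
    have hd3 : d ζ ^ 3 = 1 := by
      have h := hc4 (d ζ)
      rw [pow_succ] at h
      refine mul_right_cancel₀ ?_ (h.trans (one_mul _).symm)
      intro h0
      have := congrArg d (show (ζ : K) * ((ζ⁻¹ : Kˣ) : K) = 1 from ζ.mul_inv)
      rw [map_mul, h0, zero_mul, map_one] at this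
      exact zero_ne_one this
    have h3 : 3 ∣ j := by
      rw [← orderOf_eq_prime hd3 hdζ, orderOf_dvd_iff_pow_eq_one, ← map_pow, ha']
      exact hda
    obtain ⟨i, rfl⟩ := h3
    obtain ⟨c, hc⟩ := hfix (((ζ ^ 21) ^ (2 * i) : Kˣ) : K) (by
      rw [← Units.val_pow_eq_pow_val]
      congr 1
      rw [← pow_mul, ← pow_mul, show 21 * (2 * i * 4) = 63 * (2 * i) + 21 * (2 * i) by ring, pow_add,
        pow_mul ζ 63, ← hord, pow_orderOf_eq_one, one_pow, one_mul, ← pow_mul])
    refine ⟨c, fun h0 => ?_, ?_⟩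
    · rw [h0, map_zero] at hc
      exact (Units.ne_zero _) hc.symm
    · rw [Algebra.smul_def, hc, ← ha', ← Units.val_pow_eq_pow_val, ← Units.val_mul, ← Units.val_pow_eq_pow_val]
      congr 1
      rw [← pow_mul, ← pow_add, ← pow_mul, show (21 * (2 * i) + 3 * i) * 8 = 63 * (5 * i) + (21 * (2 * i) + 3 * i) by ring,
        pow_add, pow_mul ζ 63, ← hord, pow_orderOf_eq_one, one_pow, one_mul]
  -- the subfield `F₂`
  have h2top : frobFixed F 2 1 ≠ ⊤ := frobFixed_ne_top F 2 (by norm_num) one_pos (by rw [hq]; norm_num)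
  suffices hmem : ∀ g ∈ H, ∃ c : F, c ≠ 0 ∧ ∀ i j,
      c * ((B * g * B⁻¹ : GL (Fin 3) F) : Matrix (Fin 3) (Fin 3) F) i j ∈ frobFixed F 2 1 by
    obtain ⟨F₁, r, hr, hne, hcF, hle⟩ := exists_le_subfieldSubgroup h2top B hmem
    exact ⟨F₁, r, B⁻¹, hr, hne, hcF, hle⟩
  intro g hg
  let θ : K →+* K :=
    { toFun := fun k => ⟨(g : Matrix (Fin 3) (Fin 3) F) * k * ((g⁻¹ : GL (Fin 3) F) : Matrix (Fin 3) (Fin 3) F),
        (mem_subalgebraNormalizer.mp (hH hg) k).mp k.2⟩
      map_one' := Subtype.ext (by simp)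
      map_mul' := fun a b => Subtype.ext (by simp [mul_assoc])
      map_zero' := Subtype.ext (by simp)
      map_add' := fun a b => Subtype.ext (by simp [mul_add, add_mul]) }
  set a : K := ev.symm ((g : Matrix (Fin 3) (Fin 3) F) *ᵥ v) with ha
  have hav : (a : Matrix (Fin 3) (Fin 3) F) *ᵥ v = (g : Matrix (Fin 3) (Fin 3) F) *ᵥ v := by
    show evv a = _
    exact ev.apply_symm_apply _
  have ha0 : a ≠ 0 := by
    intro h0
    have h0' : v = 0 := gl_inj g (by rw [← hav, h0, mulVec_zero]; simp)
    simpa [v] using congrFun h0' 0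
  -- `g` sends `k v` to `θ k a v`
  have hgk : ∀ k : K, (g : Matrix (Fin 3) (Fin 3) F) *ᵥ ((k : Matrix (Fin 3) (Fin 3) F) *ᵥ v) =
      ((θ k * a : K) : Matrix (Fin 3) (Fin 3) F) *ᵥ v := fun k => by
    show _ = ((g : Matrix (Fin 3) (Fin 3) F) * (k : Matrix (Fin 3) (Fin 3) F) * ((g⁻¹ : GL (Fin 3) F) : Matrix (Fin 3) (Fin 3) F) *
      (a : Matrix (Fin 3) (Fin 3) F)) *ᵥ v
    rw [← mulVec_mulVec, hav, ← mulVec_mulVec, ← mulVec_mulVec,
      gl_inv_mulVec]
  have hθb : ∀ j, θ (βK j) ^ 8 = θ (βK j) := fun j => by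
    rw [← map_pow, hβ, ← pow_mul, mul_comm, pow_mul, hη8]
  -- the determinant of the semilinear part is one
  have hda : d a = 1 := by
    let A : Matrix (Fin 3) (Fin 3) F := fun i j => βK.repr (θ (βK j)) i
    have hA : A.det = 0 ∨ A.det = 1 := by
      let A₀ : Matrix (Fin 3) (Fin 3) (frobFixed F 2 1) := fun i j => ⟨A i j, (mem_frobFixed F 2).mpr (by
        rcases hcoord _ (hθb j) i with h | h <;> simp [A, h])⟩
      have h1 := RingHom.map_det (frobFixed F 2 1).subtype A₀
      rw [RingHom.mapMatrix_apply] at h1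
      change ((A₀.det : frobFixed F 2 1) : F) = A.det at h1
      refine hsq _ ?_
      rw [← h1]
      simpa using (mem_frobFixed F 2).mp A₀.det.2
    have hmat : LinearMap.toMatrix b b (Matrix.toLin' (g : Matrix (Fin 3) (Fin 3) F)) =
        LinearMap.toMatrix b b (Matrix.toLin' (a : Matrix (Fin 3) (Fin 3) F)) * A := by
      ext i j
      rw [LinearMap.toMatrix_apply, Matrix.toLin'_apply, hb, hgk, hev, Matrix.mul_apply]
      simp only [LinearMap.toMatrix_apply, Matrix.toLin'_apply, hb, mulVec_mulVec, A]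
      conv_lhs => rw [mul_comm, ← βK.sum_repr (θ (βK j)), Finset.mul_sum, map_sum, Finsupp.coe_finsetSum,
        Finset.sum_apply]
      refine Finset.sum_congr rfl fun l _ => ?_
      rw [mul_smul_comm, map_smul, Finsupp.smul_apply, smul_eq_mul, mul_comm]
      congr 1
      exact (hev (a * βK l) i).symm
    have hdet := congrArg Matrix.det hmat
    rw [det_mul, LinearMap.det_toMatrix, LinearMap.det_toMatrix, LinearMap.det_toLin', LinearMap.det_toLin',
      mem_specialLinear.mp (hS hg)] at hdet
    rcases hA with h | h <;> rw [h] at hdet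
    · exact absurd (hdet.trans (mul_zero _)) one_ne_zero
    · rw [hdval, hdet, mul_one]
  obtain ⟨c, hc0, hc⟩ := hscal a ha0 hda
  refine ⟨c, hc0, fun i j => ?_⟩
  have e : c * βK.repr (θ (βK j) * a) i = βK.repr (θ (βK j) * c • a) i := by
    rw [mul_smul_comm, map_smul, Finsupp.smul_apply, smul_eq_mul]
  rw [hB, hb, hgk, hev, e, mem_frobFixed]
  rcases hcoord (θ (βK j) * c • a) (by rw [mul_pow, hθb, hc]) i with h | h <;> rw [h] <;> simp

end CfsgLib.GeoPrime
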