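import Mathlib
import Cfsg.Agent.GeoPrime.Core
import Cfsg.Agent.GeoPrime.SixtyFour

/-!
Maximal subgroups of SL in odd prime dimension.
-/

set_option autoImplicit false

namespace CfsgLib.GeoPrime

open Matrix

variable {n : ℕ} {F : Type*} [Field F] [Fintype F]

theorem two_ne_zero_of_odd (h : Odd (Fintype.card F)) : (2 : F) ≠ 0 :=
  Ring.two_ne_zero fun h2 => by
    have := FiniteField.even_card_iff_char_two.mp h2
    rw [Nat.odd_iff] at h
    omega

theorem odd_card_of_two_ne_zero (h : (2 : F) ≠ 0) : Odd (Fintype.card F) := by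
  refine Nat.odd_iff.mpr (FiniteField.odd_card_of_char_ne_two ?_)
  intro h2
  haveI : CharP F 2 := ringChar.of_eq h2
  exact h (CharTwo.two_eq_zero)

/-- The subfield disjunct. -/
def SubfieldCase (n : ℕ) (F : Type*) [Field F] [Fintype F] (H : Subgroup (GL (Fin n) F)) : Prop :=
  ∃ (F₀ : Subfield F) (r : ℕ) (P : GL (Fin n) F), r.Prime ∧ Fintype.card F = Nat.card F₀ ^ r ∧
    H = Cfsg.Geo.subfieldSubgroup F₀ P ⊓ Cfsg.Geo.specialLinear (Fin n) F

/-- The quadratic disjunct. -/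
def QuadCase (n : ℕ) (F : Type*) [Field F] [Fintype F] (H : Subgroup (GL (Fin n) F)) : Prop :=
  Odd (Fintype.card F) ∧ ∃ Q : (Fin n → F) → F, Cfsg.Geo.IsNondegenerateQuadraticForm Q ∧
    H = Cfsg.Geo.quadSimilarityGroup Q ⊓ Cfsg.Geo.specialLinear (Fin n) F

/-- The unitary disjunct. -/
def UnitaryCase (n : ℕ) (F : Type*) [Field F] [Fintype F] (H : Subgroup (GL (Fin n) F)) : Prop :=
  ∃ (σ : F ≃+* F) (f : (Fin n → F) → (Fin n → F) → F), Cfsg.Geo.IsUnitaryForm σ f ∧
    H = Cfsg.Geo.similarityGroup f ⊓ Cfsg.Geo.specialLinear (Fin n) F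

variable {H : Subgroup (GL (Fin n) F)} (hn : n.Prime) (hn3 : 3 ≤ n)
  (hH : Cfsg.Geo.IsMaximalIn (Cfsg.Geo.specialLinear (Fin n) F) H)

include hn3 hH in
theorem subfieldCase_of_le {F₁ : Subfield F} {r : ℕ} {Q : GL (Fin n) F} (hr : r.Prime) (hne : F₁ ≠ ⊤)
    (hc : Fintype.card F = Nat.card F₁ ^ r) (hle : H ≤ Cfsg.Geo.subfieldSubgroup F₁ Q) :
    SubfieldCase n F H :=
  ⟨F₁, r, Q, hr, hc, eq_inf_of_maximal hH hle (sl_not_le_subfieldSubgroup (by omega) hne Q)⟩

include hn3 hH in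
theorem unitaryCase_of_le {σ : F ≃+* F} {f : (Fin n → F) → (Fin n → F) → F}
    (hf : Cfsg.Geo.IsUnitaryForm σ f) (hle : H ≤ Cfsg.Geo.similarityGroup f) : UnitaryCase n F H :=
  ⟨σ, f, hf, eq_inf_of_maximal hH hle (sl_not_le_similarityGroup hn3 (isSesq_of_unitary hf))⟩

include hn3 hH in
theorem quadCase_of_le (hodd : Odd (Fintype.card F)) {Q : (Fin n → F) → F}
    (hQ : Cfsg.Geo.IsNondegenerateQuadraticForm Q) (hle : H ≤ Cfsg.Geo.quadSimilarityGroup Q) :
    QuadCase n F H :=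
  ⟨hodd, Q, hQ, eq_inf_of_maximal hH hle (sl_not_le_quadSimilarityGroup hn3 hQ)⟩

include hn3 hH in
/-- The case of a monomial group. -/
theorem lines_case (hirr : Cfsg.Geo.ActsIrreducibly (Cfsg.Geo.matrixSet H))
    {b : Module.Basis (Fin n) F (Fin n → F)}
    (hle : H ≤ Cfsg.Geo.decompositionStabilizer (basisLines b)) :
    (5 ≤ Fintype.card F ∧ ∃ D : Fin n → Submodule F (Fin n → F), Cfsg.Geo.IsMDecomposition 1 D ∧
      H = Cfsg.Geo.decompositionStabilizer D ⊓ Cfsg.Geo.specialLinear (Fin n) F) ∨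
    QuadCase n F H ∨ UnitaryCase n F H := by
  classical
  by_cases h5 : 5 ≤ Fintype.card F
  · exact Or.inl ⟨h5, basisLines b, isMDecomposition_basisLines (by omega) b,
      eq_inf_of_maximal hH hle (sl_not_le_decompositionStabilizer hn3 b)⟩
  have h1 : 1 < Fintype.card F := Fintype.one_lt_card
  have hpow : ∀ c : F, c ≠ 0 → c ^ (Fintype.card F - 1) = 1 := fun c hc =>
    FiniteField.pow_card_sub_one_eq_one c hc
  obtain h | h | h : Fintype.card F = 2 ∨ Fintype.card F = 3 ∨ Fintype.card F = 4 := by omega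
  · exfalso
    set w : Fin n → F := ∑ i, b i with hw
    have hinv : ∀ g ∈ H, ∀ v ∈ Submodule.span F {w},
        (g : Matrix (Fin n) (Fin n) F) *ᵥ v ∈ Submodule.span F {w} := by
      intro g hg v hv
      obtain ⟨a, rfl⟩ := Submodule.mem_span_singleton.mp hv
      obtain ⟨c, τ, hc0, hc⟩ := exists_monomial (hle hg)
      have hgw : (g : Matrix (Fin n) (Fin n) F) *ᵥ w = w := by
        rw [hw, Matrix.mulVec_sum]
        refine (Finset.sum_congr rfl fun i _ => ?_).trans (Equiv.sum_comp τ fun i => b i)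
        rw [hc i, show c i = 1 by simpa [h] using hpow (c i) (hc0 i), one_smul]
      rw [mulVec_smul, hgw]
      exact Submodule.smul_mem _ _ (Submodule.mem_span_singleton_self w)
    let i0 : Fin n := ⟨0, by omega⟩
    have hw0 : w ≠ 0 := fun h0 => by
      have := congrArg (fun v => b.repr v i0) h0
      simp [hw, Finsupp.single_apply] at this
    rcases (irreducible_iff H).mp hirr _ hinv with h0 | h0
    · exact hw0 (by simpa using h0)
    · have := congrArg (fun W : Submodule F (Fin n → F) => Module.finrank F W) h0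
      simp only [finrank_span_singleton hw0, finrank_top, Module.finrank_fin_fun] at this
      omega
  · have hodd : Odd (Fintype.card F) := by rw [h]; decide
    refine Or.inr (Or.inl (quadCase_of_le hn3 hH hodd (isQuad_diagQuad (two_ne_zero_of_odd hodd) b) fun g hg => ?_))
    obtain ⟨c, τ, hc0, hc⟩ := exists_monomial (hle hg)
    exact mem_quadSimilarityGroup.mpr ⟨1, fun v => by
      rw [diagQuad_monomial hc (fun i => by simpa [h] using hpow (c i) (hc0 i)), Units.val_one, one_mul]⟩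
  · haveI : Fact (Nat.Prime 2) := ⟨Nat.prime_two⟩
    haveI : CharP F 2 := charP_of_card_eq_prime_pow (f := 2) (by rw [h]; norm_num)
    haveI : ExpChar F 2 := ExpChar.prime Nat.prime_two
    obtain ⟨σ, hne, hinv, hσ⟩ := exists_involution F 2 (k := 1) (by norm_num) one_pos (by rw [h]; norm_num)
    refine Or.inr (Or.inr (unitaryCase_of_le hn3 hH (isUnitary_diagForm hne hinv b) fun g hg => ?_))
    obtain ⟨c, τ, hc0, hc⟩ := exists_monomial (hle hg)
    exact mem_similarityGroup.mpr ⟨1, fun u v => by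
      rw [diagForm_monomial hc (fun i => by
        rw [hσ, pow_one, ← pow_succ']
        simpa [h] using hpow (c i) (hc0 i)), Units.val_one, one_mul]⟩

include hn hn3 hH in
/-- The class-two case. -/
theorem heisenberg_case {P : Subgroup (GL (Fin n) F)} (hM : MinNormal H P)
    (hP : Cfsg.Geo.ActsAbsolutelyIrreducibly (Cfsg.Geo.matrixSet P))
    (hc2 : ⁅P, P⁆ ≤ Cfsg.Geo.scalars (Fin n) F) :
    SubfieldCase n F H ∨ UnitaryCase n F H ∨
    ∃ (p e : ℕ), p.Prime ∧ CharP F p ∧ Fintype.card F = p ^ e ∧ Odd e ∧ e ∣ n - 1 ∧ (p % n) ^ e % n = 1 ∧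
      (∀ d, 0 < d → d < e → (p % n) ^ d % n ≠ 1) ∧
      ∃ R : Subgroup (GL (Fin n) F), Cfsg.Geo.IsLinearSymplecticTypeData n R ∧
        H = Cfsg.Geo.subgroupNormalizer R ⊓ Cfsg.Geo.specialLinear (Fin n) F := by
  classical
  haveI := Fact.mk hn
  haveI : NeZero n := ⟨hn.ne_zero⟩
  have hodd : Odd n := hn.odd_of_ne_two (by omega)
  have hns : ∃ x ∈ P, x ∉ Cfsg.Geo.scalars (Fin n) F := by
    have := hM.not_scalar
    rw [SetLike.not_le_iff_exists] at this
    exact this
  obtain ⟨ω, b, hb⟩ := exists_heisenberg hP (hM.le.trans hH.1.le) (commutator_scalar_iff.mp hc2) hodd hns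
  obtain ⟨p, hpC⟩ := CharP.exists F
  obtain ⟨a, hp, hcard⟩ := FiniteField.card F p
  haveI := Fact.mk hp
  haveI : ExpChar F p := ExpChar.prime hp
  set e : ℕ := (a : ℕ) with he
  have he0 : 0 < e := a.pos
  have hω0 : ω ≠ 0 := hb.prim.ne_zero hn.ne_zero
  have hwpow : ∀ d, ω ^ p ^ d = ω ↔ (p % n) ^ d % n = 1 := by
    intro d
    rw [← Nat.pow_mod]
    constructor
    · intro h
      refine hb.prim.pow_inj (Nat.mod_lt _ hn.pos) hn.one_lt ?_
      rw [pow_one, ← pow_eq_pow_mod _ hb.prim.pow_eq_one, h]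
    · intro h
      rw [pow_eq_pow_mod _ hb.prim.pow_eq_one, h, pow_one]
  have hsub : ∀ F₀ : Subfield F, F₀ ≠ ⊤ → ω ∈ F₀ → SubfieldCase n F H := by
    intro F₀ hne hmem
    obtain ⟨B, hB⟩ := exists_basisChange b
    obtain ⟨F₁, r, Q, hr, hne1, hc, hle⟩ := subfield_case hP hM.normal hne ⟨B, by
      rintro _ ⟨x, hx, rfl⟩ i j
      rw [← Units.val_mul, ← Units.val_mul, hB]
      obtain ⟨c, a, hcpow, hc⟩ := hb.monomial x hx
      rw [hc, map_smul, b.repr_self, Finsupp.smul_apply, smul_eq_mul, Finsupp.single_apply]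
      obtain ⟨k, hk⟩ := hcpow j
      split
      · rw [mul_one, hk]; exact pow_mem hmem k
      · rw [mul_zero]; exact F₀.zero_mem⟩
    exact subfieldCase_of_le hn3 hH hr hne1 hc hle
  by_cases hmin : ∃ d, 0 < d ∧ d < e ∧ ω ^ p ^ d = ω
  · obtain ⟨d, hd0, hde, hd⟩ := hmin
    exact Or.inl (hsub _ (frobFixed_ne_top F p hp.one_lt hd0 (by
      rw [hcard]; exact Nat.pow_lt_pow_right hp.one_lt hde)) ((mem_frobFixed F p).mpr hd))
  push Not at hmin
  have hwe : ω ^ p ^ e = ω := by rw [← hcard, FiniteField.pow_card]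
  rcases Nat.even_or_odd e with ⟨k, hk⟩ | hoe
  · have hk0 : 0 < k := by omega
    obtain ⟨σ, hne, hinv, hσ⟩ := exists_involution F p hp.one_lt hk0 (by rw [hcard, hk, two_mul])
    have hne' : σ ω ≠ ω := by rw [hσ]; exact hmin k hk0 (by omega)
    have hpk : ω ^ p ^ k = ω⁻¹ := by
      have hsq : (((p ^ k : ℕ) : ZMod n)) ^ 2 = 1 := by
        rw [← Nat.cast_pow, ← pow_mul, mul_two, ← hk]
        rw [hwpow, ← Nat.pow_mod] at hwe
        rw [← Nat.cast_one, ZMod.natCast_eq_natCast_iff', hwe, Nat.one_mod_eq_one.mpr (by omega)]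
      rcases sq_eq_one_iff.mp hsq with h | h
      · exfalso
        apply hne'
        rw [hσ, hwpow, ← Nat.pow_mod]
        rw [← Nat.cast_one, ZMod.natCast_eq_natCast_iff'] at h
        rw [h, Nat.one_mod_eq_one.mpr (by omega)]
      · refine eq_inv_of_mul_eq_one_left ?_
        rw [← pow_succ, hb.prim.pow_eq_one_iff_dvd, ← ZMod.natCast_eq_zero_iff]
        push_cast
        rw [← Nat.cast_pow, h]
        ring
    refine Or.inr (Or.inl (unitaryCase_of_le hn3 hH (isUnitary_diagForm hne hinv b) fun h hh =>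
      mem_similarity_of_fixes hP (isSesq_of_unitary (isUnitary_diagForm hne hinv b)) ?_ (hM.normal h hh)))
    rintro _ ⟨x, hx, rfl⟩ u v
    obtain ⟨c, a, hcpow, hc⟩ := hb.monomial x hx
    refine diagForm_monomial (τ := Equiv.addLeft a) hc (fun i => ?_) u v
    obtain ⟨l, hl⟩ := hcpow i
    rw [hl, map_pow, hσ, hpk, inv_pow, mul_inv_cancel₀ (pow_ne_zero _ hω0)]
  · refine Or.inr (Or.inr ⟨p, e, hp, hpC, hcard, hoe, ?_, (hwpow e).mp hwe, fun d hd0 hde h =>
      hmin d hd0 hde ((hwpow d).mpr h), P, ?_, ?_⟩)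
    · have hord : orderOf (p : ZMod n) = e := by
        rw [orderOf_eq_iff he0]
        refine ⟨?_, fun d hde hd0 h => hmin d hd0 hde ((hwpow d).mpr ?_)⟩
        · have := (hwpow e).mp hwe
          rw [← Nat.pow_mod] at this
          rw [← Nat.cast_pow, ← Nat.cast_one, ZMod.natCast_eq_natCast_iff', this,
            Nat.one_mod_eq_one.mpr (by omega)]
        · rw [← Nat.cast_pow, ← Nat.cast_one, ZMod.natCast_eq_natCast_iff',
            Nat.one_mod_eq_one.mpr (by omega)] at h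
          rw [← Nat.pow_mod, h]
      rw [← hord]
      refine orderOf_dvd_of_pow_eq_one (ZMod.pow_card_sub_one_eq_one ?_)
      intro h0
      rw [ZMod.natCast_eq_zero_iff] at h0
      have := (hwpow e).mp hwe
      rw [Nat.mod_eq_zero_of_dvd h0, zero_pow (by omega)] at this
      simp at this
    · refine ⟨symplecticType_of_heisenberg hodd hM hP hb, hP, p, e, ?_, ?_, Or.inl ⟨hodd, hoe, hb.card_center, 1, le_rfl, ?_⟩⟩
      · rintro rfl
        have := (hwpow e).mp hwe
        rw [Nat.mod_self, zero_pow (by omega)] at this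
        simp at this
      · rw [hb.card_center]
        refine ⟨hp, hpC, hcard, ?_, fun d hd0 hde hdvd => hmin d hd0 hde ?_⟩
        · rw [← hcard, ← hb.prim.pow_eq_one_iff_dvd]
          exact FiniteField.pow_card_sub_one_eq_one ω hω0
        · rw [← hb.prim.pow_eq_one_iff_dvd] at hdvd
          rw [← Nat.sub_add_cancel (Nat.one_le_pow d p hp.pos), pow_succ, hdvd, one_mul]
      · rw [hb.card_eq]
    · refine eq_inf_of_maximal hH ?_ (sl_not_le_normalizer hn3 hb)
      intro h hh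
      rw [Cfsg.Geo.subgroupNormalizer, Subgroup.mem_normalizer_iff]
      intro x
      refine ⟨hM.normal h hh x, fun hx => ?_⟩
      simpa [mul_assoc] using hM.normal h⁻¹ (H.inv_mem hh) _ hx

include hn hn3 hH in
/-- Maximal subgroups of SL in odd prime dimension. -/
theorem linear_cases :
    (∃ W : Submodule F (Fin n → F), W ≠ ⊥ ∧ W ≠ ⊤ ∧
      H = Cfsg.Geo.subspaceStabilizer W ⊓ Cfsg.Geo.specialLinear (Fin n) F) ∨
    (5 ≤ Fintype.card F ∧ ∃ D : Fin n → Submodule F (Fin n → F), Cfsg.Geo.IsMDecomposition 1 D ∧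
      H = Cfsg.Geo.decompositionStabilizer D ⊓ Cfsg.Geo.specialLinear (Fin n) F) ∨
    ((n = 3 → Fintype.card F ≠ 4) ∧ ∃ K : Subalgebra F (Matrix (Fin n) (Fin n) F),
      Cfsg.Geo.IsFieldSubalgebra n K ∧
      H = Cfsg.Geo.subalgebraNormalizer K ⊓ Cfsg.Geo.specialLinear (Fin n) F) ∨
    SubfieldCase n F H ∨
    (∃ (p e : ℕ), p.Prime ∧ CharP F p ∧ Fintype.card F = p ^ e ∧ Odd e ∧ e ∣ n - 1 ∧ (p % n) ^ e % n = 1 ∧
      (∀ d, 0 < d → d < e → (p % n) ^ d % n ≠ 1) ∧
      ∃ R : Subgroup (GL (Fin n) F), Cfsg.Geo.IsLinearSymplecticTypeData n R ∧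
        H = Cfsg.Geo.subgroupNormalizer R ⊓ Cfsg.Geo.specialLinear (Fin n) F) ∨
    QuadCase n F H ∨ UnitaryCase n F H ∨ Cfsg.Geo.InLinearResidualClass H := by
  classical
  haveI : NeZero n := ⟨hn.ne_zero⟩
  haveI : Nonempty (Fin n) := ⟨0⟩
  have hodd : Odd n := hn.odd_of_ne_two (by omega)
  by_cases hirr : Cfsg.Geo.ActsIrreducibly (Cfsg.Geo.matrixSet H)
  swap
  · rw [irreducible_iff] at hirr
    push Not at hirr
    obtain ⟨W, hW, h0, h1⟩ := hirr
    exact Or.inl ⟨W, h0, h1, eq_inf_of_maximal hH (le_subspaceStabilizer hW)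
      (sl_not_le_subspaceStabilizer h0 h1)⟩
  refine Or.inr ?_
  have hHs : ¬ H ≤ Cfsg.Geo.scalars (Fin n) F := by
    intro hle
    let v : Fin n → F := Pi.single 0 1
    have hv : v ≠ 0 := fun h => by simpa [v] using congrFun h 0
    rcases (irreducible_iff H).mp hirr (Submodule.span F {v}) (fun g hg w hw => by
      obtain ⟨c, -, hc⟩ := scalar_matrix (hle hg)
      rw [hc, smul_mulVec, one_mulVec]
      exact Submodule.smul_mem _ _ hw) with h | h
    · exact hv (by simpa using h)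
    · have := congrArg (fun W : Submodule F (Fin n → F) => Module.finrank F W) h
      simp only [finrank_span_singleton hv, finrank_top, Module.finrank_fin_fun] at this
      omega
  obtain ⟨P, hM⟩ := exists_minNormal hHs
  rcases clifford hn hirr hM.normal with h | ⟨-, b, hle⟩ | ⟨-, K, hK, hle⟩ | hP
  · exact absurd h hM.not_scalar
  · rcases lines_case hn3 hH hirr hle with h | h | h
    · exact Or.inl h
    · exact Or.inr (Or.inr (Or.inr (Or.inr (Or.inl h))))
    · exact Or.inr (Or.inr (Or.inr (Or.inr (Or.inr (Or.inl h)))))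
  · by_cases h34 : n = 3 ∧ Fintype.card F = 4
    · obtain ⟨rfl, hq⟩ := h34
      obtain ⟨F₁, r, Q, hr, hne, hc, hle'⟩ := le_subfield_of_field64 hq hH.1.le hK hle
      exact Or.inr (Or.inr (Or.inl (subfieldCase_of_le hn3 hH hr hne hc hle')))
    · refine Or.inr (Or.inl ⟨fun h3 h4 => h34 ⟨h3, h4⟩, K, hK, eq_inf_of_maximal hH hle
        (sl_not_le_subalgebraNormalizer hn3 hK.inv ?_)⟩)
      by_contra hcon
      push Not at hcon
      have hK' : K = ⊥ := eq_bot_iff.mpr fun k hk => by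
        obtain ⟨c, hc⟩ := hcon k hk
        rw [hc, Algebra.mem_bot]
        exact ⟨c, by simp [Algebra.algebraMap_eq_smul_one]⟩
      have := hK.finrank_eq
      rw [hK', Subalgebra.finrank_bot] at this
      omega
  · by_cases hc2 : ⁅P, P⁆ ≤ Cfsg.Geo.scalars (Fin n) F
    · rcases heisenberg_case hn hn3 hH hM hP hc2 with h | h | h
      · exact Or.inr (Or.inr (Or.inl h))
      · exact Or.inr (Or.inr (Or.inr (Or.inr (Or.inr (Or.inl h)))))
      · exact Or.inr (Or.inr (Or.inr (Or.inl h)))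
    have hperf := hM.perfect hc2
    by_cases hsub : ∃ F₀ : Subfield F, F₀ ≠ ⊤ ∧ Cfsg.Geo.RealisableOver F₀ (Cfsg.Geo.matrixSet P)
    · obtain ⟨F₀, hne, hR⟩ := hsub
      obtain ⟨F₁, r, Q, hr, hne1, hc, hle⟩ := subfield_case hP hM.normal hne hR
      exact Or.inr (Or.inr (Or.inl (subfieldCase_of_le hn3 hH hr hne1 hc hle)))
    push Not at hsub
    by_cases hQ : ∃ Q : (Fin n → F) → F, Cfsg.Geo.IsNondegenerateQuadraticForm Q ∧
        Cfsg.Geo.FixesQuadForm (Cfsg.Geo.matrixSet P) Q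
    · obtain ⟨Q, hQn, hfix⟩ := hQ
      have h2 : (2 : F) ≠ 0 := fun h2 => no_quad_char_two hodd h2 hQn
      exact Or.inr (Or.inr (Or.inr (Or.inr (Or.inl (quadCase_of_le hn3 hH (odd_card_of_two_ne_zero h2) hQn
        fun h hh => mem_quadSimilarity_of_fixes h2 hP hQn hfix (hM.normal h hh))))))
    by_cases hU : ∃ (σ : F ≃+* F) (f : (Fin n → F) → (Fin n → F) → F), Cfsg.Geo.IsUnitaryForm σ f ∧
        Cfsg.Geo.FixesForm (Cfsg.Geo.matrixSet P) f
    · obtain ⟨σ, f, hf, hfix⟩ := hU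
      exact Or.inr (Or.inr (Or.inr (Or.inr (Or.inr (Or.inl (unitaryCase_of_le hn3 hH hf
        fun h hh => mem_similarity_of_fixes hP (isSesq_of_unitary hf) hfix (hM.normal h hh)))))))
    exact Or.inr (Or.inr (Or.inr (Or.inr (Or.inr (Or.inr ⟨P, residual_core hn hM hP hperf hsub, hQ,
      fun ⟨f, hf, _⟩ => no_alternating_odd hodd hf.bilinear hf.alternating hf.nondegenerate, hU⟩)))))

end CfsgLib.GeoPrime
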