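import Mathlib
import Cfsg.Agent.GeoPrime.Tools
import Cfsg.Agent.Hermitian.Basic

/-!
The standard hermitian form, its transvections and its isotropic vectors.
-/

set_option autoImplicit false

namespace CfsgLib.GeoPrime

open Matrix

variable {n : ℕ} {F : Type*} [Field F] [Fintype F]

/-- The conjugation of a field of order `q²`. -/
theorem exists_conj {q : ℕ} (hF : Fintype.card F = q ^ 2) :
    ∃ (p k : ℕ) (σ : F ≃+* F), p.Prime ∧ CharP F p ∧ 0 < k ∧ q = p ^ k ∧
      σ ≠ RingEquiv.refl F ∧ (∀ a, σ (σ a) = a) ∧ ∀ a, σ a = a ^ q := by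
  obtain ⟨p, hC⟩ := CharP.exists F
  obtain ⟨a, hp, hc⟩ := FiniteField.card F p
  haveI := Fact.mk hp
  haveI : ExpChar F p := ExpChar.prime hp
  have hdvd : q ∣ p ^ (a : ℕ) := by rw [← hc, hF]; exact dvd_pow_self q two_ne_zero
  obtain ⟨k, -, rfl⟩ := (Nat.dvd_prime_pow hp).mp hdvd
  have hk : 0 < k := by
    rcases k.eq_zero_or_pos with rfl | h
    · have := Fintype.one_lt_card (α := F)
      rw [hF] at this
      simp at this
    · exact h
  obtain ⟨σ, h1, h2, h3⟩ := exists_involution F p hp.one_lt hk (by rw [hF, ← pow_mul, mul_comm])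
  exact ⟨p, k, σ, hp, hC, hk, rfl, h1, h2, h3⟩

theorem hermForm_eq {q : ℕ} {σ : F ≃+* F} (hσ : ∀ a, σ a = a ^ q) (u v : Fin n → F) :
    Cfsg.hermForm n F q u v = ∑ i, u i * σ (v i) := by
  simp [Cfsg.hermForm, hσ]

theorem isUnitary_hermForm {q : ℕ} {σ : F ≃+* F} (hne : σ ≠ RingEquiv.refl F) (hinv : ∀ a, σ (σ a) = a)
    (hσ : ∀ a, σ a = a ^ q) : Cfsg.Geo.IsUnitaryForm σ (Cfsg.hermForm n F q) := by
  have h : Cfsg.hermForm n F q = diagForm σ (Pi.basisFun F (Fin n)) := by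
    funext u v
    simp [hermForm_eq hσ, diagForm]
  exact h ▸ isUnitary_diagForm hne hinv _

omit [Fintype F] in
theorem mem_GU {q : ℕ} {g : GL (Fin n) F} : g ∈ Cfsg.GU n F q ↔
    ∀ u v, Cfsg.hermForm n F q ((g : Matrix (Fin n) (Fin n) F) *ᵥ u) ((g : Matrix (Fin n) (Fin n) F) *ᵥ v) =
      Cfsg.hermForm n F q u v :=
  Iff.rfl

section Form

variable {σ : F ≃+* F} {f : (Fin n → F) → (Fin n → F) → F}

omit [Fintype F] in
theorem exists_trace_zero (hne : σ ≠ RingEquiv.refl F) (hinv : ∀ a, σ (σ a) = a) :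
    ∃ c : F, c ≠ 0 ∧ σ c = -c := by
  obtain ⟨y, hy⟩ : ∃ y, σ y ≠ y := by
    by_contra h
    push Not at h
    exact hne (RingEquiv.ext h)
  exact ⟨y - σ y, sub_ne_zero.mpr (Ne.symm hy), by rw [map_sub, hinv, neg_sub]⟩

theorem exists_norm_eq (hne : σ ≠ RingEquiv.refl F) (hinv : ∀ a, σ (σ a) = a) {a : F} (ha : a ≠ 0)
    (haf : σ a = a) : ∃ c : F, c ≠ 0 ∧ c * σ c = a := by
  obtain ⟨c, hc0, hc⟩ := Hermitian.exists_norm (σ := (σ : F →+* F))
    (fun h => hne (RingEquiv.ext fun x => RingHom.congr_fun h x)) hinv ha haf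
  exact ⟨c, hc0, by rw [mul_comm]; exact hc⟩

omit [Fintype F] in
/-- The transvection with isotropic centre `u` is an isometry. -/
theorem exists_unitary_transvection (hf : Cfsg.Geo.IsUnitaryForm σ f) {u : Fin n → F} (hu : f u u = 0)
    {c : F} (hc : σ c = -c) :
    ∃ t ∈ Cfsg.Geo.specialLinear (Fin n) F,
      (∀ x, (t : Matrix (Fin n) (Fin n) F) *ᵥ x = x + (c * f x u) • u) ∧
      ∀ x y, f ((t : Matrix (Fin n) (Fin n) F) *ᵥ x) ((t : Matrix (Fin n) (Fin n) F) *ᵥ y) = f x y := by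
  have hs := isSesq_of_unitary hf
  obtain ⟨t, htS, ht⟩ := GeoTransvection.exists_transvection u (c • hs.rightFun u) (by
    show c * f u u = 0
    rw [hu, mul_zero])
  refine ⟨t, htS, fun x => by rw [ht]; rfl, fun x y => ?_⟩
  rw [ht, ht]
  show f (x + (c * f x u) • u) (y + (c * f y u) • u) = f x y
  rw [hs.add_left, hs.add_right, hs.add_right, hs.smul_left, hs.smul_left, hs.smul_right, hs.smul_right,
    hu, map_mul, hc, ← hf.herm u y]
  ring

omit [Fintype F] in
theorem herm_symm_zero (hf : Cfsg.Geo.IsUnitaryForm σ f) {u v : Fin n → F} (h : f u v = 0) : f v u = 0 := by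
  rw [hf.herm, h, map_zero]

omit [Fintype F] in
/-- The orthogonal complement. -/
def perp (hf : Cfsg.Geo.IsUnitaryForm σ f) (W : Submodule F (Fin n → F)) : Submodule F (Fin n → F) :=
  ⨅ w : W, LinearMap.ker ((isSesq_of_unitary hf).rightFun (w : Fin n → F))

omit [Fintype F] in
theorem mem_perp (hf : Cfsg.Geo.IsUnitaryForm σ f) {W : Submodule F (Fin n → F)} {x : Fin n → F} :
    x ∈ perp hf W ↔ ∀ w ∈ W, f x w = 0 := by
  rw [perp, Submodule.mem_iInf]
  exact ⟨fun h w hw => h ⟨w, hw⟩, fun h w => h w w.2⟩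

omit [Fintype F] in
theorem finrank_perp_ge (hf : Cfsg.Geo.IsUnitaryForm σ f) (W : Submodule F (Fin n → F)) :
    n ≤ Module.finrank F (perp hf W) + Module.finrank F W := by
  classical
  let b := Module.finBasis F W
  let Φ : (Fin n → F) →ₗ[F] (Fin (Module.finrank F W) → F) :=
    LinearMap.pi fun i => (isSesq_of_unitary hf).rightFun (b i : Fin n → F)
  have hker : LinearMap.ker Φ ≤ perp hf W := by
    intro x hx
    rw [mem_perp]
    intro w hw
    have h1 : ∀ i, f x (b i : Fin n → F) = 0 := fun i => congrFun (LinearMap.mem_ker.mp hx) i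
    let g : (Fin n → F) →+ F := AddMonoidHom.mk' (fun y => f x y) ((isSesq_of_unitary hf).add_right x)
    calc f x w = g ((⟨w, hw⟩ : W) : Fin n → F) := rfl
      _ = g (∑ i, b.repr ⟨w, hw⟩ i • (b i : Fin n → F)) := by
        congr 1
        refine ((congrArg Subtype.val (b.sum_repr ⟨w, hw⟩)).symm.trans ?_)
        rw [Submodule.coe_sum]
        exact Finset.sum_congr rfl fun i _ => Submodule.coe_smul _ _
      _ = ∑ i, g (b.repr ⟨w, hw⟩ i • (b i : Fin n → F)) := map_sum g _ _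
      _ = 0 := Finset.sum_eq_zero fun i _ => by
        show f x _ = 0
        rw [(isSesq_of_unitary hf).smul_right, h1, mul_zero]
  have h2 := LinearMap.finrank_range_add_finrank_ker Φ
  have h3 := Submodule.finrank_mono hker
  have h4 : Module.finrank F (LinearMap.range Φ) ≤ Module.finrank F W := by
    refine (Submodule.finrank_le _).trans ?_
    simp
  rw [Module.finrank_fin_fun] at h2
  omega

omit [Fintype F] in
/-- A subspace meeting its orthogonal trivially has a non-degenerate complement. -/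
theorem perp_of_inf_eq_bot (hf : Cfsg.Geo.IsUnitaryForm σ f) {W : Submodule F (Fin n → F)}
    (hW : W ⊓ perp hf W = ⊥) :
    Module.finrank F (perp hf W) + Module.finrank F W = n ∧ Cfsg.Geo.IsNondegenerateOn f W ∧
      Cfsg.Geo.IsNondegenerateOn f (perp hf W) := by
  have hs := isSesq_of_unitary hf
  have h1 := Submodule.finrank_sup_add_finrank_inf_eq W (perp hf W)
  rw [hW, finrank_bot, add_zero] at h1
  have h2 := Submodule.finrank_le (W ⊔ perp hf W)
  rw [Module.finrank_fin_fun] at h2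
  have h3 := finrank_perp_ge hf W
  have hsum : Module.finrank F (perp hf W) + Module.finrank F W = n := by omega
  have htop : W ⊔ perp hf W = ⊤ := Submodule.eq_top_of_finrank_eq (by rw [Module.finrank_fin_fun]; omega)
  refine ⟨hsum, fun w hw hw0 => ?_, fun w hw hw0 => ?_⟩
  · obtain ⟨x, hx, hne⟩ : ∃ x ∈ W, f w x ≠ 0 := by
      by_contra h
      push Not at h
      exact hw0 ((Submodule.mem_bot F).mp (hW ▸ ⟨hw, (mem_perp hf).mpr h⟩))
    exact ⟨⟨x, hx, fun e => hne (herm_symm_zero hf e)⟩, ⟨x, hx, hne⟩⟩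
  · obtain ⟨x, hx, hne⟩ : ∃ x ∈ perp hf W, f w x ≠ 0 := by
      by_contra h
      push Not at h
      obtain ⟨y, hy⟩ := hs.left_ne w hw0
      obtain ⟨a, ha, b, hb, rfl⟩ := Submodule.mem_sup.mp (htop ▸ Submodule.mem_top : y ∈ W ⊔ perp hf W)
      rw [hs.add_right, (mem_perp hf).mp hw a ha, h b hb, add_zero] at hy
      exact hy rfl
    exact ⟨⟨x, hx, fun e => hne (herm_symm_zero hf e)⟩, ⟨x, hx, hne⟩⟩

omit [Fintype F] in
theorem perp_invariant (hf : Cfsg.Geo.IsUnitaryForm σ f) {H : Subgroup (GL (Fin n) F)}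
    (hH : ∀ g ∈ H, ∀ u v, f ((g : Matrix (Fin n) (Fin n) F) *ᵥ u) ((g : Matrix (Fin n) (Fin n) F) *ᵥ v) = f u v)
    {W : Submodule F (Fin n → F)} (hW : ∀ g ∈ H, ∀ v ∈ W, (g : Matrix (Fin n) (Fin n) F) *ᵥ v ∈ W) :
    ∀ g ∈ H, ∀ v ∈ perp hf W, (g : Matrix (Fin n) (Fin n) F) *ᵥ v ∈ perp hf W := by
  intro g hg v hv
  rw [mem_perp] at hv ⊢
  intro w hw
  rw [← gl_mulVec_inv g w, hH g hg]
  exact hv _ (hW g⁻¹ (H.inv_mem hg) w hw)

end Form

section Isotropic

variable {q : ℕ} {σ : F ≃+* F} (hne : σ ≠ RingEquiv.refl F) (hinv : ∀ a, σ (σ a) = a)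
  (hσ : ∀ a, σ a = a ^ q) (hF : Fintype.card F = q ^ 2)

include hne hinv in
theorem exists_norm_neg_one : ∃ a : F, a ≠ 0 ∧ a * σ a = -1 :=
  exists_norm_eq hne hinv (neg_ne_zero.mpr one_ne_zero) (by rw [map_neg, map_one])

include hσ hF in
/-- There is an element of norm one other than `±1`. -/
theorem exists_norm_one : ∃ η : F, η ≠ 0 ∧ η * σ η = 1 ∧ η ^ 2 ≠ 1 := by
  classical
  have hq : 2 ≤ q := by
    by_contra h
    have := Fintype.one_lt_card (α := F)
    rw [hF] at this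
    interval_cases q <;> simp at this
  obtain ⟨x, hx⟩ : ∃ x : Fˣ, x ^ ((q - 1) * 2) ≠ 1 := by
    by_contra h
    push Not at h
    have hd := (FiniteField.forall_pow_eq_one_iff F ((q - 1) * 2)).mp h
    rw [hF] at hd
    have hle := Nat.le_of_dvd (by omega) hd
    nlinarith [Nat.sub_add_cancel (show 1 ≤ q by omega), Nat.sub_add_cancel (Nat.one_le_pow 2 q (by omega))]
  refine ⟨(x : F) ^ (q - 1), pow_ne_zero _ x.ne_zero, ?_, fun h => hx (Units.ext ?_)⟩
  · rw [hσ, ← pow_mul, ← pow_add]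
    refine mul_right_cancel₀ x.ne_zero ?_
    rw [one_mul, ← pow_succ]
    conv_rhs => rw [← FiniteField.pow_card (x : F), hF]
    congr 1
    have := Nat.sub_add_cancel (show 1 ≤ q by omega)
    nlinarith
  · rw [Units.val_pow_eq_pow_val, pow_mul, h, Units.val_one]

omit [Fintype F] in
theorem herm_pair_zero (hσ : ∀ a, σ a = a ^ q) {i j : Fin n} (hij : i ≠ j) {a : F} (ha : a * σ a = -1) :
    Cfsg.hermForm n F q (Pi.single i 1 + a • Pi.single j 1) (Pi.single i 1 + a • Pi.single j 1) = 0 := by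
  rw [Cfsg.hermForm]
  simp only [← hσ]
  rw [Fintype.sum_eq_add i j hij]
  · simp [hij, hij.symm, ha]
  · intro k hk
    simp [hk.1, hk.2]

include hne hinv hσ hF in
/-- The isotropic vectors span. -/
theorem isotropic_span (hn : 2 ≤ n) {W : Submodule F (Fin n → F)}
    (hW : ∀ u, Cfsg.hermForm n F q u u = 0 → u ∈ W) : W = ⊤ := by
  classical
  obtain ⟨a, ha0, ha⟩ := exists_norm_neg_one hne hinv
  obtain ⟨η, hη0, hη, hη2⟩ := exists_norm_one hσ hF
  have hη1 : η ≠ 1 := fun h => hη2 (by rw [h, one_pow])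
  have hj : ∀ i j : Fin n, i ≠ j → (Pi.single j 1 : Fin n → F) ∈ W := by
    intro i j hij
    have ha' : (a * η) * σ (a * η) = -1 := by rw [map_mul, mul_mul_mul_comm, ha, hη, mul_one]
    have h := W.sub_mem (hW _ (herm_pair_zero hσ hij ha')) (hW _ (herm_pair_zero hσ hij ha))
    rw [add_sub_add_left_eq_sub, ← sub_smul] at h
    have hne' : a * η - a ≠ 0 := by
      rw [← mul_sub_one]; exact mul_ne_zero ha0 (sub_ne_zero.mpr hη1)
    have h2 := W.smul_mem (a * η - a)⁻¹ h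
    rwa [smul_smul, inv_mul_cancel₀ hne', one_smul] at h2
  rw [eq_top_iff, ← (Pi.basisFun F (Fin n)).span_eq, Submodule.span_le]
  rintro _ ⟨j, rfl⟩
  haveI : Nontrivial (Fin n) := Fin.nontrivial_iff_two_le.mpr hn
  obtain ⟨i, hij⟩ := exists_ne j
  rw [Pi.basisFun_apply]
  exact hj i j hij

end Isotropic

end CfsgLib.GeoPrime
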