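import Mathlib
import Cfsg.Agent.GeoPrime.UBasic
import Cfsg.Agent.GeoPrime.Extraspecial

/-!
The special unitary group lies in no member of the geometric classes.
-/

set_option autoImplicit false

namespace CfsgLib.GeoPrime

open Matrix

variable {n : ℕ} {F : Type*} [Field F] [Fintype F] {q : ℕ} {σ : F ≃+* F}

/-- The group of determinant one isometries. -/
def specialUnitary (n : ℕ) (F : Type*) [Field F] (q : ℕ) : Subgroup (GL (Fin n) F) :=
  Cfsg.GU n F q ⊓ Cfsg.Geo.specialLinear (Fin n) F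

/-- The data of the standard form. -/
structure UData (n : ℕ) (F : Type*) [Field F] [Fintype F] (q : ℕ) (σ : F ≃+* F) : Prop where
  ne_refl : σ ≠ RingEquiv.refl F
  inv : ∀ a, σ (σ a) = a
  conj : ∀ a, σ a = a ^ q
  card : Fintype.card F = q ^ 2

variable (D : UData n F q σ)

include D in
theorem UData.unitary : Cfsg.Geo.IsUnitaryForm σ (Cfsg.hermForm n F q) :=
  isUnitary_hermForm D.ne_refl D.inv D.conj

include D in
/-- Transvections of the special unitary group. -/
theorem UData.transvection {u : Fin n → F} (hu : Cfsg.hermForm n F q u u = 0) {c : F} (hc : σ c = -c) :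
    ∃ t ∈ specialUnitary n F q,
      ∀ x, (t : Matrix (Fin n) (Fin n) F) *ᵥ x = x + (c * Cfsg.hermForm n F q x u) • u := by
  obtain ⟨t, htS, ht, hf⟩ := exists_unitary_transvection D.unitary hu hc
  exact ⟨t, ⟨mem_GU.mpr hf, htS⟩, ht⟩

include D in
theorem su_not_le_subspaceStabilizer (hn : 2 ≤ n) {W : Submodule F (Fin n → F)} (h0 : W ≠ ⊥) (h1 : W ≠ ⊤) :
    ¬ specialUnitary n F q ≤ Cfsg.Geo.subspaceStabilizer W := by
  intro hle
  have hf := D.unitary (n := n)
  obtain ⟨c, hc0, hc⟩ := exists_trace_zero D.ne_refl D.inv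
  set U := perp hf W with hU
  have hor : ∀ u, Cfsg.hermForm n F q u u = 0 → u ∈ W ∨ u ∈ U := by
    intro u hu
    refine or_iff_not_imp_left.mpr fun huW => (mem_perp hf).mpr fun w hw => ?_
    by_contra hne
    obtain ⟨t, ht, htx⟩ := D.transvection hu hc
    have h := ((GeoTransvection.mem_subspaceStabilizer_iff W t).mp (hle ht) w).mp hw
    rw [htx] at h
    have h2 := W.smul_mem (c * Cfsg.hermForm n F q w u)⁻¹ (W.sub_mem h hw)
    rw [add_sub_cancel_left, smul_smul, inv_mul_cancel₀ (mul_ne_zero hc0 fun e => hne (herm_symm_zero hf e)),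
      one_smul] at h2
    exact huW h2
  obtain ⟨u, hu, huW⟩ : ∃ u, Cfsg.hermForm n F q u u = 0 ∧ u ∉ W := by
    by_contra h
    push Not at h
    exact h1 (isotropic_span D.ne_refl D.inv D.conj D.card hn h)
  have hUtop : U ≠ ⊤ := fun htop => h0 (by
    refine eq_bot_iff.mpr fun w hw => (Submodule.mem_bot F).mpr ?_
    by_contra hw0
    obtain ⟨x, hx⟩ := (isSesq_of_unitary hf).right_ne w hw0
    exact hx ((mem_perp hf).mp (htop ▸ Submodule.mem_top : x ∈ U) w hw))
  obtain ⟨u', hu', hu'U⟩ : ∃ u, Cfsg.hermForm n F q u u = 0 ∧ u ∉ U := by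
    by_contra h
    push Not at h
    exact hUtop (isotropic_span D.ne_refl D.inv D.conj D.card hn h)
  have huU : u ∈ U := (hor u hu).resolve_left huW
  have hu'W : u' ∈ W := (hor u' hu').resolve_right hu'U
  have h12 : Cfsg.hermForm n F q u u' = 0 := (mem_perp hf).mp huU u' hu'W
  have hsum : Cfsg.hermForm n F q (u + u') (u + u') = 0 := by
    rw [hf.add_left, (isSesq_of_unitary hf).add_right, (isSesq_of_unitary hf).add_right, hu, hu', h12,
      herm_symm_zero hf h12, add_zero, add_zero]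
  rcases hor _ hsum with h | h
  · exact huW (by simpa using W.sub_mem h hu'W)
  · exact hu'U (by simpa using U.sub_mem h huU)

include D in
theorem su_not_le_subalgebraNormalizer (hn : 3 ≤ n) {K : Subalgebra F (Matrix (Fin n) (Fin n) F)}
    (hinv : ∀ x ∈ K, x ≠ 0 → ∃ y ∈ K, x * y = 1) (hne : ∃ k ∈ K, ∀ c : F, k ≠ c • 1) :
    ¬ specialUnitary n F q ≤ Cfsg.Geo.subalgebraNormalizer K := by
  classical
  intro hle
  obtain ⟨k, hk, hks⟩ := hne
  have hunit : ∀ x ∈ K, ∀ v, v ≠ 0 → x *ᵥ v = 0 → x = 0 := by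
    intro x hx v hv hxv
    by_contra hx0
    obtain ⟨y, -, hxy⟩ := hinv x hx hx0
    apply hv
    rw [← one_mulVec v, ← mul_eq_one_comm.mp hxy, ← mulVec_mulVec, hxv, mulVec_zero]
  have hf := D.unitary (n := n)
  obtain ⟨c, hc0, hc⟩ := exists_trace_zero D.ne_refl D.inv
  obtain ⟨a, -, ha⟩ := exists_norm_neg_one D.ne_refl D.inv
  let i : Fin n := ⟨0, by omega⟩
  let j : Fin n := ⟨1, by omega⟩
  have hij : i ≠ j := by simp [i, j]
  set u : Fin n → F := Pi.single i 1 + a • Pi.single j 1 with hu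
  have hu0 : u ≠ 0 := fun h => by simpa [hu, hij] using congrFun h i
  obtain ⟨t, ht, htx⟩ := D.transvection (herm_pair_zero D.conj hij ha) hc
  set φ := (isSesq_of_unitary hf).rightFun u
  -- a vector fixed together with its image under `k`
  obtain ⟨v, hv, hv0⟩ : ∃ v ∈ LinearMap.ker φ ⊓ LinearMap.ker (φ ∘ₗ Matrix.toLin' k), v ≠ 0 := by
    rw [← Submodule.ne_bot_iff]
    intro hbot
    have h1 := LinearMap.finrank_range_add_finrank_ker (φ.prod (φ ∘ₗ Matrix.toLin' k))
    rw [LinearMap.ker_prod, hbot, finrank_bot, Module.finrank_fin_fun] at h1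
    have h2 := Submodule.finrank_le (LinearMap.range (φ.prod (φ ∘ₗ Matrix.toLin' k)))
    rw [Module.finrank_prod, Module.finrank_self] at h2
    omega
  have hv1 : Cfsg.hermForm n F q v u = 0 := LinearMap.mem_ker.mp hv.1
  have hv2 : Cfsg.hermForm n F q (k *ᵥ v) u = 0 := by
    have := LinearMap.mem_ker.mp hv.2
    simpa [φ, IsSesq.rightFun] using this
  set k' := (t : Matrix (Fin n) (Fin n) F) * k * ((t⁻¹ : GL (Fin n) F) : Matrix (Fin n) (Fin n) F) with hk'def
  have hk' : k' ∈ K := (mem_subalgebraNormalizer.mp (hle ht) k).mp hk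
  have hfix : ∀ x, Cfsg.hermForm n F q x u = 0 → (t : Matrix (Fin n) (Fin n) F) *ᵥ x = x := fun x hx => by
    rw [htx, hx, mul_zero, zero_smul, add_zero]
  have hgv : ((t⁻¹ : GL (Fin n) F) : Matrix (Fin n) (Fin n) F) *ᵥ v = v := by
    conv_lhs => rw [← hfix v hv1]
    exact gl_inv_mulVec t v
  have heq : k' = k := sub_eq_zero.mp (hunit _ (K.sub_mem hk' hk) v hv0 (by
    rw [sub_mulVec, hk'def, ← mulVec_mulVec, ← mulVec_mulVec, hgv, hfix _ hv2, sub_self]))
  have hcomm : (t : Matrix (Fin n) (Fin n) F) * k = k * t := by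
    conv_rhs => rw [← heq]
    simp [hk'def, mul_assoc]
  obtain ⟨w, hw⟩ := (isSesq_of_unitary hf).left_ne u hu0
  have hw' : Cfsg.hermForm n F q w u ≠ 0 := fun e => hw (herm_symm_zero hf e)
  have h1 := congrArg (fun M : Matrix (Fin n) (Fin n) F => M *ᵥ w) hcomm
  simp only [← mulVec_mulVec, htx] at h1
  rw [mulVec_add, mulVec_smul] at h1
  obtain ⟨d, hd⟩ : ∃ d : F, k *ᵥ u = d • u :=
    ⟨(c * Cfsg.hermForm n F q w u)⁻¹ * (c * Cfsg.hermForm n F q (k *ᵥ w) u), by
      rw [mul_smul, add_left_cancel h1, smul_smul, inv_mul_cancel₀ (mul_ne_zero hc0 hw'), one_smul]⟩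
  exact hks d (sub_eq_zero.mp (hunit _ (K.sub_mem hk (K.smul_mem K.one_mem d)) u hu0 (by
    rw [sub_mulVec, smul_mulVec, one_mulVec, hd, sub_self])))

include D in
theorem su_not_le_decompositionStabilizer (hn : 4 ≤ n) (b : Module.Basis (Fin n) F (Fin n → F))
    (hb : ∀ i j, i ≠ j → Cfsg.hermForm n F q (b i) (b j) = 0) :
    ¬ specialUnitary n F q ≤ Cfsg.Geo.decompositionStabilizer (basisLines b) := by
  classical
  intro hle
  have hf := D.unitary (n := n)
  have hs := isSesq_of_unitary hf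
  obtain ⟨c, hc0, hc⟩ := exists_trace_zero D.ne_refl D.inv
  -- norms
  have hdiag0 : ∀ i, Cfsg.hermForm n F q (b i) (b i) ≠ 0 := by
    intro i h0
    obtain ⟨x, hx⟩ := hs.left_ne (b i) (b.ne_zero i)
    apply hx
    let g : (Fin n → F) →+ F := AddMonoidHom.mk' (fun y => Cfsg.hermForm n F q (b i) y) (hs.add_right (b i))
    calc Cfsg.hermForm n F q (b i) x = g (∑ j, b.repr x j • b j) := by
          show _ = Cfsg.hermForm n F q (b i) _
          rw [b.sum_repr]
      _ = ∑ j, g (b.repr x j • b j) := map_sum g _ _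
      _ = 0 := Finset.sum_eq_zero fun j _ => by
        show Cfsg.hermForm n F q (b i) _ = 0
        rw [hs.smul_right]
        rcases eq_or_ne i j with rfl | hij
        · rw [h0, mul_zero]
        · rw [hb i j hij, mul_zero]
  have hnorm : ∀ (i : Fin n) (e : F), e ≠ 0 → σ e = e →
      ∃ a : F, a ≠ 0 ∧ a * σ a * Cfsg.hermForm n F q (b i) (b i) = e := by
    intro i e he hef
    obtain ⟨a, ha0, ha⟩ := exists_norm_eq D.ne_refl D.inv (div_ne_zero he (hdiag0 i)) (by
      rw [map_div₀, hef, ← hf.herm])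
    exact ⟨a, ha0, by rw [ha, div_mul_cancel₀ e (hdiag0 i)]⟩
  let i0 : Fin n := ⟨0, by omega⟩
  let i1 : Fin n := ⟨1, by omega⟩
  let i2 : Fin n := ⟨2, by omega⟩
  let i3 : Fin n := ⟨3, by omega⟩
  have h01 : i0 ≠ i1 := by simp [i0, i1]
  have h02 : i0 ≠ i2 := by simp [i0, i2]
  have h03 : i0 ≠ i3 := by simp [i0, i3]
  have h12 : i1 ≠ i2 := by simp [i1, i2]
  have h13 : i1 ≠ i3 := by simp [i1, i3]
  have h23 : i2 ≠ i3 := by simp [i2, i3]
  obtain ⟨a0, ha0, hn0⟩ := hnorm i0 1 one_ne_zero (map_one σ)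
  obtain ⟨a1, ha1, hn1⟩ := hnorm i1 (-1) (neg_ne_zero.mpr one_ne_zero) (by rw [map_neg, map_one])
  obtain ⟨a2, ha2, hn2⟩ := hnorm i2 1 one_ne_zero (map_one σ)
  obtain ⟨a3, ha3, hn3⟩ := hnorm i3 (-1) (neg_ne_zero.mpr one_ne_zero) (by rw [map_neg, map_one])
  set u := a0 • b i0 + a1 • b i1 + a2 • b i2 + a3 • b i3 with hu
  have hu0 : Cfsg.hermForm n F q u u = 0 := by
    simp only [hu, hs.add_left, hs.add_right, hs.smul_left, hs.smul_right, hb i0 i1 h01, hb i1 i0 h01.symm,
      hb i0 i2 h02, hb i2 i0 h02.symm, hb i0 i3 h03, hb i3 i0 h03.symm, hb i1 i2 h12, hb i2 i1 h12.symm,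
      hb i1 i3 h13, hb i3 i1 h13.symm, hb i2 i3 h23, hb i3 i2 h23.symm, mul_zero, add_zero, zero_add]
    linear_combination hn0 + hn1 + hn2 + hn3
  obtain ⟨t, ht, htx⟩ := D.transvection hu0 hc
  obtain ⟨τ, hτ⟩ := mem_decompositionStabilizer.mp (hle ht)
  have hcoef : Cfsg.hermForm n F q (b i0) u ≠ 0 := by
    simp only [hu, hs.add_right, hs.smul_right, hb i0 i1 h01, hb i0 i2 h02, hb i0 i3 h03, mul_zero, add_zero]
    exact mul_ne_zero ((map_ne_zero σ).mpr ha0) (hdiag0 i0)
  have hmem : b i0 + (c * Cfsg.hermForm n F q (b i0) u) • u ∈ basisLines b (τ i0) := by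
    rw [← hτ i0, ← htx]
    exact ⟨b i0, Submodule.mem_span_singleton_self _, by simp⟩
  obtain ⟨d, hd⟩ := Submodule.mem_span_singleton.mp hmem
  have e1 := congrArg (fun v => b.repr v i1) hd
  have e2 := congrArg (fun v => b.repr v i2) hd
  simp [hu, h01, h02, h12.symm, h12, h13.symm, h23.symm, h02.symm, h01.symm] at e1 e2
  have hm : c * Cfsg.hermForm n F q (b i0) u ≠ 0 := mul_ne_zero hc0 hcoef
  rw [← hu] at e1 e2
  by_cases h : τ i0 = i1
  · rw [h] at e2
    simp [h12, hc0, hcoef, ha2] at e2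
  · simp [h, hc0, hcoef, ha1] at e1

theorem fixed_sub_or_top {F₁ : Subfield F} (hne : σ ≠ RingEquiv.refl F) (hinv : ∀ a, σ (σ a) = a)
    (hle : ∀ a, σ a = a → a ∈ F₁) (hF₁ : F₁ ≠ ⊤) : ∀ a ∈ F₁, σ a = a := by
  intro y hy
  by_contra hne'
  apply hF₁
  refine eq_top_iff.mpr fun z _ => ?_
  have hd : y - σ y ≠ 0 := sub_ne_zero.mpr (Ne.symm hne')
  set β := (z - σ z) / (y - σ y) with hβ
  have hβf : σ β = β := by
    rw [hβ, map_div₀, map_sub, map_sub, hinv, hinv, ← neg_sub z, ← neg_sub y, neg_div_neg_eq]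
  have hα : σ (z - β * y) = z - β * y := by
    rw [map_sub, map_mul, hβf]
    have : β * (y - σ y) = z - σ z := div_mul_cancel₀ _ hd
    linear_combination this
  have := F₁.add_mem (hle _ hα) (F₁.mul_mem (hle _ hβf) hy)
  simpa using this

include D in
theorem su_not_le_subfieldSubgroup (hn : 3 ≤ n) {F₁ : Subfield F} (hF₁ : F₁ ≠ ⊤) (P : GL (Fin n) F) :
    ¬ specialUnitary n F q ≤ Cfsg.Geo.subfieldSubgroup F₁ P := by
  classical
  intro hle
  have hf := D.unitary (n := n)
  obtain ⟨p, hC⟩ := CharP.exists F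
  obtain ⟨e, hp, -⟩ := FiniteField.card F p
  haveI := Fact.mk hp
  haveI : ExpChar F p := ExpChar.prime hp
  -- the conjugated nilpotent parts
  let N : (Fin n → F) → F → Matrix (Fin n) (Fin n) F := fun u c =>
    ((P⁻¹ : GL (Fin n) F) : Matrix (Fin n) (Fin n) F) * (c • vecMulVec u (σ ∘ u)) * P
  have hdot : ∀ u x : Fin n → F, (σ ∘ u) ⬝ᵥ x = Cfsg.hermForm n F q x u := fun u x => by
    simp [dotProduct, hermForm_eq D.conj, mul_comm]
  have hrat : ∀ (u : Fin n → F) (c : F), Cfsg.hermForm n F q u u = 0 → σ c = -c →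
      ∀ i j, N u c i j ∈ F₁ := by
    intro u c hu hc
    obtain ⟨t, ht, htx⟩ := D.transvection hu hc
    have htm : (t : Matrix (Fin n) (Fin n) F) = 1 + c • vecMulVec u (σ ∘ u) := by
      refine Matrix.ext_iff_mulVec.mpr fun x => ?_
      rw [htx, add_mulVec, one_mulVec, smul_mulVec, vecMulVec_mulVec, op_smul_eq_smul, hdot, smul_smul]
    obtain ⟨g₀, d, hg⟩ := mem_subfieldSubgroup.mp (hle ht)
    have hN : ((P⁻¹ * t * P : GL (Fin n) F) : Matrix (Fin n) (Fin n) F) = 1 + N u c := by
      simp [N, htm, Matrix.mul_add, Matrix.add_mul]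
    rw [hN] at hg
    have hsq : N u c * N u c = 0 := by
      have h0 : (c • vecMulVec u (σ ∘ u)) * (c • vecMulVec u (σ ∘ u)) = 0 := by
        rw [smul_mul_smul_comm, vecMulVec_mul_vecMulVec, hdot, hu, zero_smul, vecMulVec_zero, smul_zero]
      calc N u c * N u c = ((P⁻¹ : GL (Fin n) F) : Matrix (Fin n) (Fin n) F) *
            ((c • vecMulVec u (σ ∘ u)) * (c • vecMulVec u (σ ∘ u))) * P := by
            simp [N, mul_assoc]
        _ = 0 := by rw [h0, mul_zero, zero_mul]
    haveI : Nonempty (Fin n) := ⟨⟨0, by omega⟩⟩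
    have hpow : (1 + N u c) ^ p = 1 := by
      rw [add_pow_char_of_commute p (Commute.one_left _), one_pow, ← Nat.sub_add_cancel hp.two_le,
        pow_add, pow_two, hsq, mul_zero, add_zero]
    have hdF : (d : F) ∈ F₁ := by
      have h1 := congrArg (fun M : Matrix (Fin n) (Fin n) F => M ^ p) hg
      simp only [hpow, smul_pow] at h1
      have hmem : ∀ i j, (((g₀ : Matrix (Fin n) (Fin n) F₁).map Subtype.val) ^ p) i j ∈ F₁ := by
        intro i j
        have := Matrix.map_pow (g₀ : Matrix (Fin n) (Fin n) F₁) F₁.subtype p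
        rw [show ((g₀ : Matrix (Fin n) (Fin n) F₁).map Subtype.val) = (g₀ : Matrix (Fin n) (Fin n) F₁).map F₁.subtype from rfl,
          ← this]
        exact (((g₀ : Matrix (Fin n) (Fin n) F₁) ^ p) i j).2
      let i : Fin n := ⟨0, by omega⟩
      have h2 := congrFun (congrFun h1 i) i
      simp only [Matrix.smul_apply, Matrix.one_apply_eq, smul_eq_mul] at h2
      have hdp : (d : F) ^ p ∈ F₁ := by
        rw [eq_inv_of_mul_eq_one_left h2.symm]
        exact F₁.inv_mem (hmem i i)
      obtain ⟨w, hw⟩ := (Finite.injective_iff_surjective (f := fun x : F₁ => x ^ p)).mp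
        (fun x y h => Subtype.ext (frobenius_inj F p (by
          simpa [frobenius_def] using congrArg Subtype.val h))) ⟨_, hdp⟩
      have : (w : F) = d := frobenius_inj F p (by simpa [frobenius_def] using congrArg Subtype.val hw)
      exact this ▸ w.2
    intro i j
    have h := congrFun (congrFun hg i) j
    rw [Matrix.add_apply] at h
    rw [eq_sub_of_add_eq' h, Matrix.smul_apply, smul_eq_mul, Matrix.map_apply]
    refine F₁.sub_mem (F₁.mul_mem hdF (g₀ i j).2) ?_
    rw [Matrix.one_apply]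
    split
    · exact F₁.one_mem
    · exact F₁.zero_mem
  obtain ⟨c, hc0, hc⟩ := exists_trace_zero D.ne_refl D.inv
  obtain ⟨a, ha0, ha⟩ := exists_norm_neg_one D.ne_refl D.inv
  let i0 : Fin n := ⟨0, by omega⟩
  let i1 : Fin n := ⟨1, by omega⟩
  let i2 : Fin n := ⟨2, by omega⟩
  have h01 : i0 ≠ i1 := by simp [i0, i1]
  have h12 : i1 ≠ i2 := by simp [i1, i2]
  have h20 : i2 ≠ i0 := by simp [i0, i2]
  -- the fixed field lies in `F₁`
  have hfix : ∀ ν, σ ν = ν → ν ∈ F₁ := by
    intro ν hν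
    rcases eq_or_ne ν 0 with rfl | hν0
    · exact F₁.zero_mem
    set u : Fin n → F := Pi.single i0 1 + a • Pi.single i1 1 with hu
    have hiso := herm_pair_zero (q := q) D.conj h01 ha
    have hne0 : N u c ≠ 0 := by
      intro h0
      have h1 : c • vecMulVec u (σ ∘ u) = 0 := by
        have h2 := congrArg (fun M => (P : Matrix (Fin n) (Fin n) F) * M *
          ((P⁻¹ : GL (Fin n) F) : Matrix (Fin n) (Fin n) F)) h0
        simpa [N, mul_assoc] using h2
      have := congrFun (congrFun h1 i0) i0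
      simp [hu, h01, hc0, vecMulVec_apply] at this
    obtain ⟨i, j, hij⟩ : ∃ i j, N u c i j ≠ 0 := by
      by_contra h
      push Not at h
      exact hne0 (Matrix.ext fun i j => h i j)
    obtain ⟨m, -, hm⟩ := exists_norm_eq D.ne_refl D.inv hν0 hν
    have hscale : N (m • u) c = ν • N u c := by
      have : σ ∘ (m • u) = σ m • (σ ∘ u) := by ext k; simp
      simp only [N, this, smul_vecMulVec, vecMulVec_smul, smul_smul, smul_mul_assoc, mul_smul_comm]
      rw [← hm]
      ring_nf
    have h2 := hrat (m • u) c (by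
      rw [(D.unitary (n := n)).smul_left, (isSesq_of_unitary hf).smul_right, hiso, mul_zero, mul_zero]) hc i j
    rw [hscale, Matrix.smul_apply, smul_eq_mul] at h2
    have := F₁.mul_mem h2 (F₁.inv_mem (hrat u c hiso hc i j))
    rwa [mul_assoc, mul_inv_cancel₀ hij, mul_one] at this
  have hsub := fixed_sub_or_top D.ne_refl D.inv hfix hF₁
  -- every element of norm `-1` is purely imaginary
  have key : ∀ x : F, x * σ x = -1 → σ x = -x := by
    intro x hx
    set a'' := x / (a * a) with ha''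
    have han : a'' * σ a'' = -1 := by
      rw [ha'', map_div₀, map_mul, div_mul_div_comm, hx, mul_mul_mul_comm, ha]
      simp
    set u1 : Fin n → F := Pi.single i0 1 + a • Pi.single i1 1
    set u2 : Fin n → F := Pi.single i1 1 + a • Pi.single i2 1
    set u3 : Fin n → F := Pi.single i2 1 + a'' • Pi.single i0 1
    have hmem : ∀ i j, (N u1 c * N u2 c * N u3 c) i j ∈ F₁ := by
      intro i j
      simp only [Matrix.mul_apply]
      exact F₁.sum_mem fun k _ => F₁.mul_mem (F₁.sum_mem fun l _ => F₁.mul_mem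
        (hrat u1 c (herm_pair_zero D.conj h01 ha) hc i l) (hrat u2 c (herm_pair_zero D.conj h12 ha) hc l k))
        (hrat u3 c (herm_pair_zero D.conj h20 han) hc k j)
    have htr : (N u1 c * N u2 c * N u3 c).trace =
        c * c * c * (Cfsg.hermForm n F q u2 u1 * Cfsg.hermForm n F q u3 u2 * Cfsg.hermForm n F q u1 u3) := by
      have e : N u1 c * N u2 c * N u3 c = ((P⁻¹ : GL (Fin n) F) : Matrix (Fin n) (Fin n) F) *
          ((c • vecMulVec u1 (σ ∘ u1)) * (c • vecMulVec u2 (σ ∘ u2)) * (c • vecMulVec u3 (σ ∘ u3))) * P := by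
        simp [N, mul_assoc]
      rw [e, trace_mul_cycle, ← Units.val_mul, mul_inv_cancel, Units.val_one, one_mul]
      have hmul : ∀ (α β : F) (x y z w : Fin n → F), (α • vecMulVec x y) * (β • vecMulVec z w) =
          (α * β * (y ⬝ᵥ z)) • vecMulVec x w := by
        intro α β x y z w
        rw [smul_mul_assoc, mul_smul_comm, vecMulVec_mul_vecMulVec, vecMulVec_smul, smul_smul, smul_smul]
      rw [hmul, hmul, trace_smul, trace_vecMulVec, smul_eq_mul, hdot, hdot, dotProduct_comm, hdot]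
      ring
    have hval : Cfsg.hermForm n F q u2 u1 * Cfsg.hermForm n F q u3 u2 * Cfsg.hermForm n F q u1 u3 = σ x := by
      have e21 : Cfsg.hermForm n F q u2 u1 = σ a := by
        rw [hermForm_eq D.conj, Fintype.sum_eq_single i1]
        · simp [u1, u2, h01.symm, h12]
        · intro k hk
          rcases eq_or_ne k i2 with rfl | hk2
          · simp [u1, h20, hk]
          · simp [u2, hk, hk2]
      have e32 : Cfsg.hermForm n F q u3 u2 = σ a := by
        rw [hermForm_eq D.conj, Fintype.sum_eq_single i2]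
        · simp [u2, u3, h12.symm, h20]
        · intro k hk
          rcases eq_or_ne k i0 with rfl | hk2
          · simp [u2, h01, hk]
          · simp [u3, hk, hk2]
      have e13 : Cfsg.hermForm n F q u1 u3 = σ a'' := by
        rw [hermForm_eq D.conj, Fintype.sum_eq_single i0]
        · simp [u1, u3, h20.symm, h01]
        · intro k hk
          rcases eq_or_ne k i1 with rfl | hk2
          · simp [u3, h12, hk]
          · simp [u1, hk, hk2]
      rw [e21, e32, e13, ← map_mul, ← map_mul, ha'', mul_div_cancel₀ x (mul_ne_zero ha0 ha0)]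
    have h : σ (N u1 c * N u2 c * N u3 c).trace = (N u1 c * N u2 c * N u3 c).trace :=
      hsub _ (F₁.sum_mem fun i _ => hmem i i)
    rw [htr, hval, map_mul, map_mul, map_mul, hc, D.inv] at h
    have h' : c * c * c * (σ x + x) = 0 := by linear_combination (-1 : F) * h
    exact eq_neg_of_add_eq_zero_left ((mul_eq_zero.mp h').resolve_left (mul_ne_zero (mul_ne_zero hc0 hc0) hc0))
  obtain ⟨η, hη0, hη, hη2⟩ := exists_norm_one D.conj D.card
  have h1 := key a ha
  rw [h1] at ha
  have hx : (a * η) * σ (a * η) = -1 := by rw [map_mul, h1, mul_mul_mul_comm, hη, mul_one, ha]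
  have h2 := key (a * η) hx
  rw [h2] at hx
  apply hη2
  have : a ^ 2 * (η ^ 2 - 1) = 0 := by linear_combination ha - hx
  exact sub_eq_zero.mp ((mul_eq_zero.mp this).resolve_left (pow_ne_zero _ ha0))

include D in
theorem su_not_le_normalizer [hn : Fact n.Prime] (hn5 : 5 ≤ n) {P : Subgroup (GL (Fin n) F)}
    (hP : Cfsg.Geo.ActsAbsolutelyIrreducibly (Cfsg.Geo.matrixSet P))
    (hS : P ≤ Cfsg.Geo.specialLinear (Fin n) F)
    (hc2 : ∀ x ∈ P, ∀ y ∈ P, x * y * x⁻¹ * y⁻¹ ∈ Cfsg.Geo.scalars (Fin n) F) :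
    ¬ specialUnitary n F q ≤ Cfsg.Geo.subgroupNormalizer P := by
  classical
  intro hle
  haveI : Nonempty (Fin n) := ⟨⟨0, by omega⟩⟩
  have hf := D.unitary (n := n)
  obtain ⟨c, hc0, hc⟩ := exists_trace_zero D.ne_refl D.inv
  obtain ⟨a, -, ha⟩ := exists_norm_neg_one D.ne_refl D.inv
  let i : Fin n := ⟨0, by omega⟩
  let j : Fin n := ⟨1, by omega⟩
  have hij : i ≠ j := by simp [i, j]
  set u : Fin n → F := Pi.single i 1 + a • Pi.single j 1 with hu
  have hu0 : u ≠ 0 := fun h => by simpa [hu, hij] using congrFun h i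
  obtain ⟨t, ht, htx⟩ := D.transvection (herm_pair_zero D.conj hij ha) hc
  set φ := (isSesq_of_unitary hf).rightFun u with hφ
  have htfix : ∀ v, φ v = 0 → (t : Matrix (Fin n) (Fin n) F) *ᵥ v = v := fun v hv => by
    rw [htx, show Cfsg.hermForm n F q v u = 0 from hv, mul_zero, zero_smul, add_zero]
  have htinv : ∀ v, φ v = 0 → ((t⁻¹ : GL (Fin n) F) : Matrix (Fin n) (Fin n) F) *ᵥ v = v := fun v hv => by
    conv_lhs => rw [← htfix v hv]
    exact gl_inv_mulVec t v
  have hcomm : ∀ x ∈ P, t * x = x * t := by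
    intro x hx
    set y := t * x * t⁻¹ * x⁻¹ with hy
    have hyP : y ∈ P := P.mul_mem ((Subgroup.mem_normalizer_iff.mp (hle ht) x).mp hx) (P.inv_mem hx)
    set S := LinearMap.ker φ ⊓
      LinearMap.ker (φ ∘ₗ Matrix.toLin' ((x⁻¹ : GL (Fin n) F) : Matrix (Fin n) (Fin n) F)) with hSdef
    have hSfix : ∀ v ∈ S, (y : Matrix (Fin n) (Fin n) F) *ᵥ v = v := by
      rintro v ⟨hv1, hv2⟩
      have hv1' : φ v = 0 := LinearMap.mem_ker.mp hv1
      have hv2' : φ (((x⁻¹ : GL (Fin n) F) : Matrix (Fin n) (Fin n) F) *ᵥ v) = 0 := by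
        simpa using LinearMap.mem_ker.mp hv2
      simp only [hy, Units.val_mul, ← mulVec_mulVec]
      rw [htinv _ hv2', gl_mulVec_inv, htfix _ hv1']
    have hdim : 3 ≤ Module.finrank F S := by
      have h1 := LinearMap.finrank_range_add_finrank_ker
        (φ.prod (φ ∘ₗ Matrix.toLin' ((x⁻¹ : GL (Fin n) F) : Matrix (Fin n) (Fin n) F)))
      rw [LinearMap.ker_prod, Module.finrank_fin_fun, ← hSdef] at h1
      have h2 := Submodule.finrank_le (LinearMap.range
        (φ.prod (φ ∘ₗ Matrix.toLin' ((x⁻¹ : GL (Fin n) F) : Matrix (Fin n) (Fin n) F))))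
      rw [Module.finrank_prod, Module.finrank_self] at h2
      omega
    obtain ⟨v, hvS, hv0⟩ := S.ne_bot_iff.mp (fun h => by rw [h, finrank_bot] at hdim; omega)
    have hy1 : y = 1 := by
      by_cases hys : y ∈ Cfsg.Geo.scalars (Fin n) F
      · obtain ⟨d, -, hd⟩ := scalar_matrix hys
        have h := hSfix v hvS
        rw [hd, smul_mulVec, one_mulVec] at h
        have hd1 : d = 1 := smul_left_injective F hv0 (by simpa using h)
        exact Units.ext (by rw [hd, hd1, one_smul, Units.val_one])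
      · exfalso
        obtain ⟨z, -, e, he, hyz⟩ := exists_noncommuting hP hS hc2 hyP hys
        obtain ⟨b, hb0, hb⟩ := eigenbasis he one_ne_zero hyz hv0 (by rw [one_smul]; exact hSfix v hvS)
        have hle2 : S ≤ Submodule.span F {v} := by
          intro w hw
          have hrepr : ∀ k : Fin n, (k : ℕ) ≠ 0 → b.repr w k = 0 := by
            intro k hk
            have h := congrArg (fun z => b.repr z k) (hSfix w hw)
            conv_lhs at h => rw [← b.sum_repr w]
            simp only [mulVec_sum, mulVec_smul, hb, one_mul, smul_smul, map_sum, map_smul, b.repr_self,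
              Finsupp.coe_finsetSum, Finset.sum_apply, Finsupp.smul_apply, smul_eq_mul, Finsupp.single_apply,
              mul_ite, mul_one, mul_zero, Finset.sum_ite_eq', Finset.mem_univ, if_true] at h
            by_contra hne
            refine hk (he.pow_inj k.2 hn.out.pos ?_)
            rw [pow_zero]
            exact mul_left_cancel₀ hne (by rw [h, mul_one])
          rw [← b.sum_repr w]
          refine Submodule.sum_mem _ fun k _ => ?_
          by_cases hk : (k : ℕ) = 0
          · refine Submodule.smul_mem _ _ ?_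
            rw [hb0, hk, pow_zero, one_mulVec]
            exact Submodule.mem_span_singleton_self v
          · rw [hrepr k hk, zero_smul]
            exact zero_mem _
        have := Submodule.finrank_mono hle2
        rw [finrank_span_singleton hv0] at this
        omega
    rw [hy, mul_inv_eq_one, mul_inv_eq_iff_eq_mul] at hy1
    exact hy1
  obtain ⟨d, -, hd⟩ := scalar_matrix (mem_scalars_of_commute hP hcomm)
  obtain ⟨w, hw⟩ := (isSesq_of_unitary hf).left_ne u hu0
  have h := htx w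
  rw [hd, smul_mulVec, one_mulVec] at h
  have hdw : Cfsg.hermForm n F q w u ≠ 0 := fun e => hw (herm_symm_zero hf e)
  have huw : u = ((c * Cfsg.hermForm n F q w u)⁻¹ * (d - 1)) • w := by
    rw [mul_smul, sub_smul, one_smul, h, add_sub_cancel_left, smul_smul,
      inv_mul_cancel₀ (mul_ne_zero hc0 hdw), one_smul]
  apply hdw
  have hu00 := herm_pair_zero (q := q) D.conj hij ha
  rw [← hu, huw, hf.smul_left, (isSesq_of_unitary hf).smul_right] at hu00
  have hne' : (c * Cfsg.hermForm n F q w u)⁻¹ * (d - 1) ≠ 0 := fun e => hu0 (by rw [huw, e, zero_smul])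
  have hww := (mul_eq_zero.mp ((mul_eq_zero.mp hu00).resolve_left hne')).resolve_left
    ((map_ne_zero σ).mpr hne')
  rw [huw, (isSesq_of_unitary hf).smul_right, hww, mul_zero]

end CfsgLib.GeoPrime
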