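import Mathlib
import Cfsg.Agent.GeoPrime.UProper
import Cfsg.Agent.GeoPrime.Core

/-!
Subfield structures carrying the hermitian form, and descent from an invariant symmetric form.
-/

set_option autoImplicit false

namespace CfsgLib.GeoPrime

open Matrix

variable {n : ℕ} {F : Type*} [Field F] [Fintype F] {q : ℕ} {σ : F ≃+* F}

omit [Fintype F] in
theorem matrix_eq_of_dot {M N : Matrix (Fin n) (Fin n) F} (h : ∀ u v, u ⬝ᵥ M *ᵥ v = u ⬝ᵥ N *ᵥ v) : M = N := by
  ext i j
  simpa [mulVec_single] using h (Pi.single i 1) (Pi.single j 1)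

omit [Fintype F] in
theorem exists_gram {f : (Fin n → F) → (Fin n → F) → F} (hb : Cfsg.Geo.IsBilinearForm f) :
    ∃ S : Matrix (Fin n) (Fin n) F, ∀ u v, f u v = u ⬝ᵥ S *ᵥ v := by
  let L : (Fin n → F) →ₗ[F] (Fin n → F) →ₗ[F] F :=
    LinearMap.mk₂ F f hb.add_left hb.smul_left hb.add_right hb.smul_right
  refine ⟨LinearMap.toMatrix₂' F L, fun u v => ?_⟩
  rw [← Matrix.toLinearMap₂'_apply', Matrix.toLinearMap₂'_toMatrix']
  rfl

variable (D : UData n F q σ)

/-- Entrywise conjugation. -/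
abbrev conjMat (σ : F ≃+* F) (M : Matrix (Fin n) (Fin n) F) : Matrix (Fin n) (Fin n) F :=
  M.map σ

omit [Fintype F] in
theorem conjMat_mul (M N : Matrix (Fin n) (Fin n) F) : conjMat σ (M * N) = conjMat σ M * conjMat σ N :=
  Matrix.map_mul (f := (σ : F →+* F))

omit [Fintype F] in
theorem conjMat_mulVec (M : Matrix (Fin n) (Fin n) F) (v : Fin n → F) :
    (σ ∘ (M *ᵥ v)) = conjMat σ M *ᵥ (σ ∘ v) :=
  funext fun i => RingHom.map_mulVec (σ : F →+* F) M v i

include D in
theorem herm_dot (u v : Fin n → F) : Cfsg.hermForm n F q u v = u ⬝ᵥ (σ ∘ v) := by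
  simp [dotProduct, hermForm_eq D.conj]

include D in
theorem mem_GU_matrix {g : GL (Fin n) F} (hg : g ∈ Cfsg.GU n F q) :
    (g : Matrix (Fin n) (Fin n) F)ᵀ * conjMat σ (g : Matrix (Fin n) (Fin n) F) = 1 := by
  refine matrix_eq_of_dot fun u v => ?_
  have h := mem_GU.mp hg u (σ ∘ v)
  have hv : σ ∘ (σ ∘ v) = v := funext fun i => D.inv (v i)
  rw [herm_dot D, herm_dot D, conjMat_mulVec, hv] at h
  rw [← mulVec_mulVec, dotProduct_mulVec, vecMul_transpose, one_mulVec]
  exact h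

include D in
theorem form_pullback (M : Matrix (Fin n) (Fin n) F) (u v : Fin n → F) :
    Cfsg.hermForm n F q (M *ᵥ u) (M *ᵥ v) = u ⬝ᵥ (Mᵀ * conjMat σ M) *ᵥ (σ ∘ v) := by
  rw [herm_dot D, conjMat_mulVec, ← mulVec_mulVec, dotProduct_mulVec u, vecMul_transpose]

include D in
/-- A subfield structure of prime index carries the form. -/
theorem form_rational_case (hn : n.Prime) (hn3 : 3 ≤ n) {H P : Subgroup (GL (Fin n) F)}
    (hP : Cfsg.Geo.ActsAbsolutelyIrreducibly (Cfsg.Geo.matrixSet P))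
    (hPG : P ≤ Cfsg.GU n F q) (hN : ∀ h ∈ H, ∀ x ∈ P, h * x * h⁻¹ ∈ P) {F₀ : Subfield F} (hF₀ : F₀ ≠ ⊤)
    (hR : Cfsg.Geo.RealisableOver F₀ (Cfsg.Geo.matrixSet P)) :
    ∃ (F₁ : Subfield F) (r : ℕ) (Q : GL (Fin n) F), r.Prime ∧ F₁ ≠ ⊤ ∧
      Fintype.card F = Nat.card F₁ ^ r ∧ Cfsg.Geo.IsFormRationalStructure (Cfsg.hermForm n F q) F₁ 1 Q ∧
      (r = 2 → Odd q) ∧ H ≤ Cfsg.Geo.subfieldSubgroup F₁ Q := by
  classical
  haveI : NeZero n := ⟨hn.ne_zero⟩
  have hodd : Odd n := hn.odd_of_ne_two (by omega)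
  obtain ⟨F₁, r, hle, hne, hr, hcard⟩ := exists_prime_index_subfield hF₀
  obtain ⟨B, hB⟩ := hR
  have hσ1 : ∀ a ∈ F₁, σ a ∈ F₁ := fun a ha => by rw [D.conj]; exact pow_mem ha q
  set Bi := ((B⁻¹ : GL (Fin n) F) : Matrix (Fin n) (Fin n) F) with hBi
  set G := Biᵀ * conjMat σ Bi with hG
  have hGdet : G.det ≠ 0 := by
    have hu : IsUnit Bi.det := (Matrix.isUnit_iff_isUnit_det _).mp (B⁻¹).isUnit
    rw [hG, det_mul, det_transpose]
    refine mul_ne_zero hu.ne_zero ?_
    rw [show (conjMat σ Bi).det = σ Bi.det from ((σ : F →+* F).map_det Bi).symm]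
    exact (map_ne_zero σ).mpr hu.ne_zero
  have hherm : ∀ i j, σ (G i j) = G j i := fun i j => by
    simp [hG, Matrix.mul_apply, map_sum, map_mul, D.inv, mul_comm]
  -- invariance
  obtain ⟨g, hg⟩ : ∃ g : P → Matrix (Fin n) (Fin n) F,
      ∀ x, g x = ((B * x.1 * B⁻¹ : GL (Fin n) F) : Matrix (Fin n) (Fin n) F) := ⟨_, fun x => rfl⟩
  have hgF : ∀ x i j, g x i j ∈ F₁ := fun x i j => hle (by
    rw [hg, Units.val_mul, Units.val_mul]
    exact hB _ ⟨x.1, x.2, rfl⟩ i j)
  have hBg : ∀ x, Bi * g x = (x.1 : Matrix (Fin n) (Fin n) F) * Bi := fun x => by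
    simp only [hg, hBi, ← Units.val_mul]
    congr 1
    group
  have hGinv : ∀ x, (g x)ᵀ * G * conjMat σ (g x) = G := fun x => by
    calc (g x)ᵀ * G * conjMat σ (g x) = (Bi * g x)ᵀ * conjMat σ (Bi * g x) := by
          rw [conjMat_mul, transpose_mul, hG]; simp only [mul_assoc]
      _ = Biᵀ * ((x.1 : Matrix (Fin n) (Fin n) F)ᵀ * conjMat σ (x.1 : Matrix (Fin n) (Fin n) F)) * conjMat σ Bi := by
          rw [hBg, conjMat_mul, transpose_mul]; simp only [mul_assoc]
      _ = G := by rw [mem_GU_matrix D (hPG x.2), mul_one]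
  obtain ⟨i0, j0, hij⟩ : ∃ i j, G i j ≠ 0 := by
    by_contra h
    push Not at h
    exact hGdet (by rw [show G = 0 from Matrix.ext fun i j => h i j]; exact det_zero)
  obtain ⟨π, hπ⟩ : ∃ π : Module.Dual F₁ F, π (G i0 j0) ≠ 0 := by
    by_contra hc
    push Not at hc
    exact hij ((Module.forall_dual_apply_eq_zero_iff F₁ _).mp hc)
  let A : Matrix (Fin n) (Fin n) F := fun i j => ((π (G i j) : F₁) : F)
  have hlin : ∀ (a s : F), s ∈ F₁ → ((π (s * a) : F₁) : F) = s * (π a : F) := by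
    intro a s hs
    rw [show s * a = (⟨s, hs⟩ : F₁) • a from rfl, map_smul, smul_eq_mul, Subfield.coe_mul]
  have hAinv : ∀ x, (g x)ᵀ * A * conjMat σ (g x) = A := by
    intro x
    ext i l
    have h := congrArg (fun M : Matrix (Fin n) (Fin n) F => ((π (M i l) : F₁) : F)) (hGinv x)
    simp only [Matrix.mul_apply, transpose_apply, Finset.sum_mul, map_sum, AddSubmonoidClass.coe_finsetSum,
      Matrix.map_apply] at h ⊢
    refine (Finset.sum_congr rfl fun k _ => Finset.sum_congr rfl fun j _ => ?_).trans h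
    have e := hlin (G j k) (g x j i * σ (g x k l)) (F₁.mul_mem (hgF x j i) (hσ1 _ (hgF x k l)))
    rw [show g x j i * G j k * σ (g x k l) = g x j i * σ (g x k l) * G j k by ring, e]
    show g x j i * ((π (G j k) : F₁) : F) * σ (g x k l) = _
    ring
  set M := G⁻¹ * A with hM
  have hMcomm : ∀ x, M * conjMat σ (g x) = conjMat σ (g x) * M := by
    intro x
    have hu : IsUnit G.det := isUnit_iff_ne_zero.mpr hGdet
    have hgu : IsUnit (g x).det := by
      rw [hg]; exact (Matrix.isUnit_iff_isUnit_det _).mp (B * x.1 * B⁻¹).isUnit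
    have hT : IsUnit ((g x)ᵀ) := (Matrix.isUnit_iff_isUnit_det _).mpr (by rwa [det_transpose])
    have h1 : (g x)ᵀ * (A * conjMat σ (g x)) = (g x)ᵀ * (G * conjMat σ (g x) * M) := by
      rw [← mul_assoc, hAinv, hM, ← mul_assoc ((g x)ᵀ), ← mul_assoc ((g x)ᵀ) G, hGinv,
        Matrix.mul_nonsing_inv_cancel_left G A hu]
    have h2 := hT.mul_left_cancel h1
    rw [hM, mul_assoc, h2, mul_assoc G, Matrix.nonsing_inv_mul_cancel_left G _ hu, hM]
  obtain ⟨c, hc⟩ := hP.2 (Bi * conjMat σ M * (B : Matrix (Fin n) (Fin n) F)) (by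
    rintro _ ⟨x, hx, rfl⟩
    have hinvol : ∀ N : Matrix (Fin n) (Fin n) F, conjMat σ (conjMat σ N) = N := fun N =>
      Matrix.ext fun i j => D.inv (N i j)
    have h : conjMat σ M * g ⟨x, hx⟩ = g ⟨x, hx⟩ * conjMat σ M := by
      have := congrArg (conjMat σ) (hMcomm ⟨x, hx⟩)
      rwa [conjMat_mul M, conjMat_mul _ M, hinvol] at this
    have hxB : (B : Matrix (Fin n) (Fin n) F) * x = g ⟨x, hx⟩ * B := by
      simp [hg, mul_assoc]
    show _ * (x : Matrix (Fin n) (Fin n) F) = (x : Matrix (Fin n) (Fin n) F) * _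
    rw [mul_assoc, hxB, ← mul_assoc, mul_assoc Bi, h, ← mul_assoc, hBg ⟨x, hx⟩]
    simp only [mul_assoc])
  have hMc : conjMat σ M = c • 1 := by
    calc conjMat σ M = (B : Matrix (Fin n) (Fin n) F) * (Bi * conjMat σ M * B) * Bi := by
          simp [hBi, mul_assoc]
      _ = c • 1 := by rw [hc]; simp [hBi]
  set t0 := σ c with ht0
  have hAG : A = t0 • G := by
    have hM1 : M = t0 • 1 := by
      ext i j
      have := congrArg σ (congrFun (congrFun hMc i) j)
      simp only [conjMat, Matrix.map_apply, D.inv] at this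
      rw [this]
      rcases eq_or_ne i j with rfl | hne'
      · simp [ht0]
      · simp [hne']
    have := congrArg (G * ·) hM1
    simp only [hM, Matrix.mul_nonsing_inv_cancel_left G A (isUnit_iff_ne_zero.mpr hGdet), mul_smul_comm,
      mul_one] at this
    exact this
  have hG1 : ∀ i j, t0 * G i j ∈ F₁ := fun i j => by
    rw [← smul_eq_mul, ← Matrix.smul_apply, ← hAG]
    exact (π (G i j)).2
  have ht00 : t0 ≠ 0 := by
    intro h0
    rw [h0, zero_smul] at hAG
    exact hπ (Subtype.ext (congrFun (congrFun hAG i0) j0))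
  -- a fixed multiple
  set w := t0 / σ t0 with hw
  have hwF : w ∈ F₁ := by
    have := F₁.div_mem (hG1 j0 i0) (hσ1 _ (hG1 i0 j0))
    rwa [map_mul, hherm, mul_div_mul_right _ _ (by rw [← hherm]; exact (map_ne_zero σ).mpr hij)] at this
  have hσw : σ w = w⁻¹ := by rw [hw, map_div₀, D.inv, inv_div]
  have hσt0 : σ t0 ≠ 0 := (map_ne_zero σ).mpr ht00
  have hw0 : w ≠ 0 := div_ne_zero ht00 hσt0
  obtain ⟨y, hyF, hy0, hy⟩ : ∃ y ∈ F₁, y ≠ 0 ∧ σ y = w⁻¹ * y := by
    by_cases hw1 : w = 1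
    · exact ⟨1, F₁.one_mem, one_ne_zero, by rw [map_one, hw1, inv_one, one_mul]⟩
    by_cases hwm : 1 + w ≠ 0
    · refine ⟨1 + w, F₁.add_mem F₁.one_mem hwF, hwm, ?_⟩
      rw [map_add, map_one, hσw, mul_add, mul_one, inv_mul_cancel₀ hw0, add_comm]
    push Not at hwm
    have hwv : w = -1 := eq_neg_of_add_eq_zero_right hwm
    by_cases hz : ∃ z ∈ F₁, σ z ≠ z
    · obtain ⟨z, hzF, hz⟩ := hz
      refine ⟨z - σ z, F₁.sub_mem hzF (hσ1 z hzF), sub_ne_zero.mpr (Ne.symm hz), ?_⟩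
      rw [map_sub, D.inv, hwv, inv_neg, inv_one, neg_one_mul, neg_sub]
    push Not at hz
    exfalso
    have h2 : (2 : F) ≠ 0 := fun h => hw1 (by rw [hwv]; linear_combination (-1 : F) * h)
    have hσt : σ t0 = -t0 := by
      have : t0 = -σ t0 := by
        rw [hw, div_eq_iff hσt0] at hwv
        exact hwv.trans (neg_one_mul _)
      linear_combination this
    have hskew : Gᵀ = -G := by
      ext i j
      have h := hz _ (hG1 i j)
      rw [map_mul, hσt, hherm] at h
      rw [transpose_apply, Matrix.neg_apply]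
      exact mul_left_cancel₀ ht00 (by linear_combination (-1 : F) * h)
    have := congrArg Matrix.det hskew
    rw [det_transpose, det_neg, Fintype.card_fin, hodd.neg_one_pow] at this
    have h' : (2 : F) * G.det = 0 := by linear_combination this
    exact mul_ne_zero h2 hGdet h'
  set t := t0 / y with ht
  have htfix : σ t = t := by
    rw [ht, map_div₀, hy, hw]
    field_simp
  have htG : ∀ i j, t * G i j ∈ F₁ := fun i j => by
    rw [ht, div_mul_eq_mul_div]
    exact F₁.div_mem (hG1 i j) hyF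
  obtain ⟨μ, hμ0, hμ⟩ := exists_norm_eq D.ne_refl D.inv (div_ne_zero ht00 hy0) htfix
  let z : GL (Fin n) F :=
    Units.map (Matrix.scalar (Fin n) : F →+* Matrix (Fin n) (Fin n) F).toMonoidHom (Units.mk0 μ hμ0)
  have hz : z ∈ Cfsg.Geo.scalars (Fin n) F := ⟨Units.mk0 μ hμ0, rfl⟩
  have hzm : (z : Matrix (Fin n) (Fin n) F) = μ • 1 := by
    simp [z, Matrix.smul_one_eq_diagonal]
  have hB' : ∀ x ∈ P, ∀ i j, (((z⁻¹ * B) * x * (z⁻¹ * B)⁻¹ : GL (Fin n) F) : Matrix (Fin n) (Fin n) F) i j ∈ F₁ := by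
    intro x hx i j
    have e : (z⁻¹ * B) * x * (z⁻¹ * B)⁻¹ = B * x * B⁻¹ := by
      rw [show (z⁻¹ * B) * x * (z⁻¹ * B)⁻¹ = z⁻¹ * (B * x * B⁻¹) * z by group,
        scalar_comm ((Cfsg.Geo.scalars (Fin n) F).inv_mem hz), inv_mul_cancel_right]
    rw [e, ← hg ⟨x, hx⟩]
    exact hgF ⟨x, hx⟩ i j
  refine ⟨F₁, r, (z⁻¹ * B)⁻¹, hr, hne, hcard, ?_, ?_, fun h hh => mem_subfield_of_realised hP (hN h hh) F₁ _ hB'⟩
  · intro u v hu hv
    rw [one_mul, _root_.mul_inv_rev, inv_inv, ← scalar_comm hz, Units.val_mul, hzm, smul_mul_assoc, one_mul,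
      form_pullback D, transpose_smul]
    have e : conjMat σ (μ • Bi) = σ μ • conjMat σ Bi := Matrix.ext fun i j => map_mul σ _ _
    rw [← hBi, e, smul_mul_smul_comm, ← hG, hμ, ← ht, dotProduct]
    refine F₁.sum_mem fun i _ => F₁.mul_mem (hu i) ?_
    rw [mulVec, dotProduct]
    refine F₁.sum_mem fun j _ => F₁.mul_mem ?_ (hσ1 _ (hv j))
    exact htG i j
  · intro hr2
    subst hr2
    haveI := Fintype.ofFinite F₁
    have hq : Nat.card F₁ = q :=
      (Nat.pow_left_injective two_ne_zero (hcard.symm.trans D.card))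
    have hfix : ∀ a ∈ F₁, σ a = a := fun a ha => by
      have := congrArg Subtype.val (FiniteField.pow_card (⟨a, ha⟩ : F₁))
      rw [← Nat.card_eq_fintype_card, hq, SubmonoidClass.coe_pow] at this
      rw [D.conj]; exact this
    by_contra hqo
    obtain ⟨p, k, τ, hp, hC, hk, hqp, -⟩ := exists_conj D.card
    have hp2 : p = 2 := by
      by_contra hne2
      exact hqo (hqp ▸ (hp.odd_of_ne_two hne2).pow)
    subst hp2
    haveI := Fact.mk hp
    haveI := hC
    haveI : ExpChar F 2 := ExpChar.prime hp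
    haveI : PerfectRing F 2 := PerfectRing.ofFiniteOfIsReduced 2 F
    set S := t • G with hS
    have hSF : ∀ i j, S i j ∈ F₁ := fun i j => htG i j
    have hsymm : ∀ i j, S i j = S j i := fun i j => by
      rw [← hfix _ (hSF i j), hS, Matrix.smul_apply, Matrix.smul_apply, smul_eq_mul, smul_eq_mul, map_mul,
        hherm, htfix]
    let q0 : (Fin n → F) → F := fun v => v ⬝ᵥ S *ᵥ v
    have hST : Sᵀ = S := Matrix.ext fun i j => hsymm j i
    have hswap : ∀ u v, u ⬝ᵥ S *ᵥ v = v ⬝ᵥ S *ᵥ u := fun u v => by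
      rw [dotProduct_mulVec, dotProduct_comm, ← mulVec_transpose, hST]
    have hadd : ∀ u v, q0 (u + v) = q0 u + q0 v := fun u v => by
      simp only [q0, mulVec_add, add_dotProduct, dotProduct_add]
      rw [hswap v u]
      linear_combination (u ⬝ᵥ S *ᵥ v) * (CharTwo.two_eq_zero (R := F))
    obtain ⟨Q0, hQ0⟩ : ∃ Q0 : (Fin n → F) →+ F, ∀ v, Q0 v = q0 v :=
      ⟨AddMonoidHom.mk' q0 hadd, fun _ => rfl⟩
    let s : Fin n → F := fun i => (frobeniusEquiv F 2).symm (S i i)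
    have hs : ∀ i, s i ^ 2 = S i i := fun i => by
      rw [← frobenius_def, ← frobeniusEquiv_apply, RingEquiv.apply_symm_apply]
    have hq0 : ∀ v, q0 v = (v ⬝ᵥ s) ^ 2 := fun v => by
      calc q0 v = Q0 (∑ i, v i • Pi.single i (1 : F)) := by rw [← pi_eq_sum_univ' v, hQ0]
        _ = ∑ i, Q0 (v i • Pi.single i (1 : F)) := map_sum Q0 (fun i => v i • Pi.single i (1 : F)) Finset.univ
        _ = ∑ i, (v i * s i) ^ 2 := Finset.sum_congr rfl fun i _ => by
            rw [hQ0, mul_pow, hs]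
            simp [q0, mulVec_smul, mulVec_single, smul_dotProduct, dotProduct_smul]
            ring
        _ = (v ⬝ᵥ s) ^ 2 := (sum_pow_char 2 _ _).symm
    have hLinv : ∀ (x : GL (Fin n) F) (hx : x ∈ P) (v : Fin n → F), (g ⟨x, hx⟩ *ᵥ v) ⬝ᵥ s = v ⬝ᵥ s := by
      intro x hx v
      have hgσ : conjMat σ (g ⟨x, hx⟩) = g ⟨x, hx⟩ := Matrix.ext fun i j => hfix _ (hgF _ i j)
      have hSinv : (g ⟨x, hx⟩)ᵀ * S * g ⟨x, hx⟩ = S := by
        conv_lhs => rw [hS, mul_smul_comm, smul_mul_assoc]; arg 2; arg 2; rw [← hgσ]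
        rw [hGinv]
      apply frobenius_inj F 2
      rw [frobenius_def, frobenius_def, ← hq0, ← hq0]
      show _ = v ⬝ᵥ S *ᵥ v
      conv_rhs => rw [← hSinv, ← mulVec_mulVec, ← mulVec_mulVec, dotProduct_mulVec v, vecMul_transpose]
    let L : (Fin n → F) →ₗ[F] F :=
      { toFun := fun v => ((B : Matrix (Fin n) (Fin n) F) *ᵥ v) ⬝ᵥ s
        map_add' := fun a b => by rw [mulVec_add, add_dotProduct]
        map_smul' := fun a b => by rw [mulVec_smul, smul_dotProduct]; rfl }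
    rcases (irreducible_iff P).mp hP.1 (LinearMap.ker L) (fun x hx v hv => by
      rw [LinearMap.mem_ker] at hv ⊢
      show ((B : Matrix (Fin n) (Fin n) F) *ᵥ _) ⬝ᵥ s = 0
      rw [mulVec_mulVec, show (B : Matrix (Fin n) (Fin n) F) * x = g ⟨x, hx⟩ * B by simp [hg, mul_assoc],
        ← mulVec_mulVec, hLinv x hx]
      exact hv) with h | h
    · have h1 := LinearMap.finrank_range_add_finrank_ker L
      rw [h, finrank_bot, Module.finrank_fin_fun] at h1
      have h2 := Submodule.finrank_le (LinearMap.range L)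
      rw [Module.finrank_self] at h2
      omega
    · have hs0 : ∀ v, v ⬝ᵥ s = 0 := fun v => by
        obtain ⟨v', rfl⟩ : ∃ v', (B : Matrix (Fin n) (Fin n) F) *ᵥ v' = v := ⟨_, gl_mulVec_inv B v⟩
        exact LinearMap.mem_ker.mp (h ▸ Submodule.mem_top : v' ∈ LinearMap.ker L)
      have hSdet : S.det ≠ 0 := by
        rw [hS, Matrix.det_smul]
        exact mul_ne_zero (pow_ne_zero _ (div_ne_zero ht00 hy0)) hGdet
      refine no_alternating_odd hodd (f := fun u v => u ⬝ᵥ S *ᵥ v)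
        ⟨fun a b c => add_dotProduct _ _ _, fun a b c => smul_dotProduct _ _ _,
          fun a b c => by rw [mulVec_add, dotProduct_add],
          fun a b c => by rw [mulVec_smul, dotProduct_smul, smul_eq_mul]⟩
        (fun v => by show q0 v = 0; rw [hq0, hs0, zero_pow two_ne_zero]) fun v hv => ?_
      have hne' : S *ᵥ v ≠ 0 := fun e => hSdet (Matrix.exists_mulVec_eq_zero_iff.mp ⟨v, hv, e⟩)
      obtain ⟨i, hi⟩ : ∃ i, (S *ᵥ v) i ≠ 0 := by
        by_contra hcon
        push Not at hcon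
        exact hne' (funext hcon)
      exact ⟨⟨Pi.single i 1, by simpa using hi⟩, ⟨Pi.single i 1, by
          show v ⬝ᵥ S *ᵥ Pi.single i 1 ≠ 0
          rw [hswap]; simpa using hi⟩⟩

include D in
/-- A group fixing the form and a symmetric form is realised over the fixed field. -/
theorem realisable_of_fixes_quad [NeZero n] {P : Subgroup (GL (Fin n) F)}
    (hP : Cfsg.Geo.ActsAbsolutelyIrreducibly (Cfsg.Geo.matrixSet P)) (hPG : P ≤ Cfsg.GU n F q)
    {Q : (Fin n → F) → F} (hQ : Cfsg.Geo.IsNondegenerateQuadraticForm Q)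
    (hfix : Cfsg.Geo.FixesQuadForm (Cfsg.Geo.matrixSet P) Q) :
    ∃ F₀ : Subfield F, F₀ ≠ ⊤ ∧ Cfsg.Geo.RealisableOver F₀ (Cfsg.Geo.matrixSet P) := by
  classical
  obtain ⟨S, hS⟩ := exists_gram hQ.polar_bilinear
  have hSu : IsUnit S.det := by
    rw [isUnit_iff_ne_zero]
    intro h0
    obtain ⟨v, hv, hSv⟩ := Matrix.exists_mulVec_eq_zero_iff.mpr h0
    obtain ⟨⟨x, hx⟩, -⟩ := hQ.nondegenerate v hv
    exact hx (by rw [hS, hSv, dotProduct_zero])
  let J : (Fin n → F) → (Fin n → F) := fun v => S⁻¹ *ᵥ (σ ∘ v)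
  have hJadd : ∀ u v, J (u + v) = J u + J v := fun u v => by
    simp only [J]
    rw [show σ ∘ (u + v) = σ ∘ u + σ ∘ v from funext fun i => map_add σ _ _, mulVec_add]
  have hJsmul : ∀ (a : F) v, J (a • v) = σ a • J v := fun a v => by
    simp only [J]
    rw [show σ ∘ (a • v) = σ a • (σ ∘ v) from funext fun i => map_mul σ _ _, mulVec_smul]
  have hJP : ∀ x ∈ P, ∀ v, J ((x : Matrix (Fin n) (Fin n) F) *ᵥ v) = (x : Matrix (Fin n) (Fin n) F) *ᵥ J v := by
    intro x hx v
    set X := (x : Matrix (Fin n) (Fin n) F)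
    have h1 : Xᵀ * S * X = S := matrix_eq_of_dot fun u w => by
      rw [mul_assoc, ← mulVec_mulVec, ← mulVec_mulVec, dotProduct_mulVec u, vecMul_transpose, ← hS, ← hS]
      simp only [QuadraticMap.polar, ← mulVec_add, X, hfix _ ⟨x, hx, rfl⟩]
    have h2 := mem_GU_matrix D (hPG hx)
    have hX : IsUnit Xᵀ := (Matrix.isUnit_iff_isUnit_det _).mpr (by
      rw [det_transpose]; exact (Matrix.isUnit_iff_isUnit_det _).mp x.isUnit)
    have h3 : conjMat σ X = S * X * S⁻¹ := hX.mul_left_cancel (by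
      rw [h2, ← mul_assoc, ← mul_assoc, h1, Matrix.mul_nonsing_inv S hSu])
    simp only [J]
    rw [conjMat_mulVec, h3, mulVec_mulVec, mulVec_mulVec, ← mul_assoc, ← mul_assoc,
      Matrix.nonsing_inv_mul S hSu, one_mul]
  have hJ2 : ∀ v, J (J v) = (S⁻¹ * conjMat σ S⁻¹) *ᵥ v := fun v => by
    simp only [J]
    rw [conjMat_mulVec, mulVec_mulVec, show σ ∘ (σ ∘ v) = v from funext fun i => D.inv (v i)]
  obtain ⟨c, hc⟩ := hP.2 (S⁻¹ * conjMat σ S⁻¹) (by
    rintro _ ⟨x, hx, rfl⟩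
    refine Matrix.ext_iff_mulVec.mpr fun v => ?_
    beta_reduce
    calc (S⁻¹ * conjMat σ S⁻¹ * (x : Matrix (Fin n) (Fin n) F)) *ᵥ v
        = J (J ((x : Matrix (Fin n) (Fin n) F) *ᵥ v)) := by rw [hJ2, mulVec_mulVec]
      _ = _ := by rw [hJP x hx, hJP x hx, hJ2, mulVec_mulVec])
  have hJ2c : ∀ v, J (J v) = c • v := fun v => by rw [hJ2, hc, smul_mulVec, one_mulVec]
  have hc0 : c ≠ 0 := by
    intro h0
    have := congrArg Matrix.det hc
    rw [h0, zero_smul, det_zero, det_mul,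
      show (conjMat σ S⁻¹).det = σ S⁻¹.det from ((σ : F →+* F).map_det S⁻¹).symm] at this
    exact mul_ne_zero (IsUnit.ne_zero (Matrix.isUnit_nonsing_inv_det S hSu))
      ((map_ne_zero σ).mpr (IsUnit.ne_zero (Matrix.isUnit_nonsing_inv_det S hSu))) this
  have hcfix : σ c = c := by
    let e : Fin n → F := Pi.single 0 1
    have he : J e ≠ 0 := fun h0 => by
      have := hJ2c e
      rw [h0, show J 0 = 0 from by simpa using hJsmul 0 0] at this
      have := congrFun this 0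
      simp [e] at this
      exact hc0 this.symm
    have h1 : J (J (J e)) = σ c • J e := by rw [hJ2c e, hJsmul]
    rw [hJ2c (J e)] at h1
    exact (smul_left_injective F he h1).symm
  obtain ⟨m, hm0, hm⟩ := exists_norm_eq D.ne_refl D.inv hc0 hcfix
  let I : (Fin n → F) → (Fin n → F) := fun v => m⁻¹ • J v
  have hIinv : ∀ v, I (I v) = v := fun v => by
    simp only [I]
    rw [hJsmul, hJ2c, smul_smul, smul_smul, map_inv₀, ← mul_inv, hm, inv_mul_cancel₀ hc0, one_smul]
  have hIsmul : ∀ (a : F) v, I (a • v) = σ a • I v := fun a v => by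
    simp only [I]; rw [hJsmul, smul_comm]
  have hIadd : ∀ u v, I (u + v) = I u + I v := fun u v => by simp only [I]; rw [hJadd, smul_add]
  obtain ⟨ζ, hζ⟩ : ∃ ζ, σ ζ ≠ ζ := by
    by_contra h
    push Not at h
    exact D.ne_refl (RingEquiv.ext h)
  let Fix : Set (Fin n → F) := {v | I v = v}
  have hspan : Submodule.span F Fix = ⊤ := by
    refine eq_top_iff.mpr fun v _ => ?_
    have h1 : v + I v ∈ Submodule.span F Fix :=
      Submodule.subset_span (show I (v + I v) = v + I v by rw [hIadd, hIinv, add_comm])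
    have h2 : ζ • v + σ ζ • I v ∈ Submodule.span F Fix :=
      Submodule.subset_span (show I (ζ • v + σ ζ • I v) = ζ • v + σ ζ • I v by
        rw [hIadd, hIsmul, hIsmul, D.inv, hIinv, add_comm])
    have h3 := Submodule.smul_mem _ (ζ - σ ζ)⁻¹ (Submodule.sub_mem _ h2 (Submodule.smul_mem _ (σ ζ) h1))
    have e : ζ • v + σ ζ • I v - σ ζ • (v + I v) = (ζ - σ ζ) • v := by
      rw [smul_add, sub_smul]; abel
    rwa [e, smul_smul, inv_mul_cancel₀ (sub_ne_zero.mpr (Ne.symm hζ)), one_smul] at h3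
  obtain ⟨s, hsE, hsspan, hsli⟩ := exists_linearIndependent F Fix
  let b0 : Module.Basis s F (Fin n → F) :=
    Module.Basis.mk hsli (by rw [Subtype.range_coe_subtype, Set.setOf_mem_eq, hsspan, hspan])
  haveI := Fintype.ofFinite s
  have hcard : Fintype.card s = n := by
    rw [← Module.finrank_eq_card_basis b0, Module.finrank_fin_fun]
  let b : Module.Basis (Fin n) F (Fin n → F) := b0.reindex ((Fintype.equivFin s).trans (finCongr hcard))
  have hbE : ∀ i, I (b i) = b i := fun i => by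
    simp only [b, Module.Basis.reindex_apply, b0, Module.Basis.mk_apply]
    exact hsE (Subtype.prop _)
  refine ⟨RingHom.eqLocusField (σ : F →+* F) (RingHom.id F), fun h => hζ ?_, ?_⟩
  · have : ζ ∈ RingHom.eqLocusField (σ : F →+* F) (RingHom.id F) := h ▸ Subfield.mem_top ζ
    exact this
  obtain ⟨B, hB⟩ := exists_basisChange b
  refine ⟨B, ?_⟩
  rintro _ ⟨x, hx, rfl⟩ i j
  rw [← Units.val_mul, ← Units.val_mul, hB]
  show σ _ = _
  set a := b.repr ((x : Matrix (Fin n) (Fin n) F) *ᵥ b j) with ha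
  have h1 : I ((x : Matrix (Fin n) (Fin n) F) *ᵥ b j) = (x : Matrix (Fin n) (Fin n) F) *ᵥ b j := by
    conv_rhs => rw [← hbE j]
    simp only [I]
    rw [hJP x hx, mulVec_smul]
  let Iadd : (Fin n → F) →+ (Fin n → F) := AddMonoidHom.mk' I hIadd
  have h2 : I ((x : Matrix (Fin n) (Fin n) F) *ᵥ b j) = ∑ k, σ (a k) • b k := by
    conv_lhs => rw [← b.sum_repr ((x : Matrix (Fin n) (Fin n) F) *ᵥ b j)]
    show Iadd _ = _
    rw [map_sum]
    exact Finset.sum_congr rfl fun k _ => by show I _ = _; rw [hIsmul, hbE]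
  have h3 := congrArg (fun z => b.repr z i) (h2.symm.trans h1)
  simp only [b.repr_sum_self] at h3
  exact h3

end CfsgLib.GeoPrime
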