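import Mathlib
import Cfsg.Agent.GeoPrime.UProper
import Cfsg.Agent.GeoPrime.Clifford

/-!
Orthogonality of eigen-lines and adjoint closure of fields attached to abelian groups of isometries.
-/

set_option autoImplicit false

namespace CfsgLib.GeoPrime

open Matrix

variable {n : ℕ} {F : Type*} [Field F] [Fintype F] {q : ℕ} {σ : F ≃+* F} (D : UData n F q σ)

/-- The dimension of a field of matrices divides the dimension of the space. -/
theorem finrank_dvd_of_subfield {C : Subalgebra F (Matrix (Fin n) (Fin n) F)}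
    (hinv : ∀ k : C, k ≠ 0 → ∃ j : C, j * k = 1) : Module.finrank F C ∣ n := by
  classical
  let P : Submodule F (Fin n → F) → Prop := fun U =>
    (∀ k ∈ C, ∀ v ∈ U, k *ᵥ v ∈ U) ∧ Module.finrank F C ∣ Module.finrank F U
  obtain ⟨U, ⟨hUC, hUd⟩, hUmax⟩ := WellFounded.has_min
    (wellFounded_gt (α := Submodule F (Fin n → F))) {U | P U}
    ⟨⊥, fun k _ v hv => by simp [(Submodule.mem_bot F).mp hv], by simp⟩
  have : U = ⊤ := by
    by_contra hne
    obtain ⟨v, hv⟩ : ∃ v, v ∉ U := by
      by_contra h; push Not at h; exact hne (eq_top_iff.mpr fun y _ => h y)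
    let evv : C →ₗ[F] (Fin n → F) :=
      { toFun := fun k => (k : Matrix (Fin n) (Fin n) F) *ᵥ v
        map_add' := fun a b => add_mulVec _ _ _
        map_smul' := fun c a => smul_mulVec _ _ _ }
    have hk : ∀ k : C, evv k ∈ U → k = 0 := by
      intro k hkU
      by_contra hk0
      obtain ⟨j, hj⟩ := hinv k hk0
      apply hv
      have := hUC (j : Matrix (Fin n) (Fin n) F) j.2 _ hkU
      simp only [evv, LinearMap.coe_mk, AddHom.coe_mk, mulVec_mulVec] at this
      rw [show (j : Matrix (Fin n) (Fin n) F) * k = 1 from congrArg Subtype.val hj, one_mulVec] at this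
      exact this
    have hinj : Function.Injective evv := fun a b h => sub_eq_zero.mp (hk _ (by
      rw [map_sub, h, sub_self]; exact U.zero_mem))
    refine hUmax (LinearMap.range evv ⊔ U) ⟨?_, ?_⟩ (lt_of_le_of_ne le_sup_right fun e => hv ?_)
    · intro k hk' x hx
      obtain ⟨_, ⟨a, rfl⟩, b, hb, rfl⟩ := Submodule.mem_sup.mp hx
      rw [mulVec_add]
      exact Submodule.add_mem_sup ⟨⟨k, hk'⟩ * a, by simp [evv, mulVec_mulVec]⟩ (hUC k hk' b hb)
    · have hbot : LinearMap.range evv ⊓ U = ⊥ := by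
        rw [eq_bot_iff]
        rintro _ ⟨⟨a, rfl⟩, ha⟩
        simp [hk a ha]
      have h := Submodule.finrank_sup_add_finrank_inf_eq (LinearMap.range evv) U
      rw [hbot, finrank_bot, add_zero, LinearMap.finrank_range_of_inj hinj] at h
      rw [h]
      exact dvd_add dvd_rfl hUd
    · rw [e]
      exact Submodule.mem_sup_left ⟨1, by simp [evv]⟩
  rwa [this, finrank_top, Module.finrank_fin_fun] at hUd

include D in
/-- A field generated by an isometry is closed under adjoints. -/
theorem adjointClosed_field (hn : n.Prime) {K : Subalgebra F (Matrix (Fin n) (Fin n) F)}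
    (hK : Cfsg.Geo.IsFieldSubalgebra n K) {x : GL (Fin n) F}
    (hxK : (x : Matrix (Fin n) (Fin n) F) ∈ K) (hxG : x ∈ Cfsg.GU n F q)
    (hxs : x ∉ Cfsg.Geo.scalars (Fin n) F) :
    Cfsg.Geo.IsAdjointClosedFor (Cfsg.hermForm n F q) K := by
  classical
  haveI : NeZero n := ⟨hn.ne_zero⟩
  have hs := isSesq_of_unitary (D.unitary (n := n))
  let T : Subalgebra F (Matrix (Fin n) (Fin n) F) :=
    { carrier := {k | k ∈ K ∧ ∃ k' ∈ K, ∀ u v,
        Cfsg.hermForm n F q (k *ᵥ u) v = Cfsg.hermForm n F q u (k' *ᵥ v)}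
      mul_mem' := by
        rintro a b ⟨ha, a', ha', hea⟩ ⟨hb, b', hb', heb⟩
        exact ⟨K.mul_mem ha hb, b' * a', K.mul_mem hb' ha', fun u v => by
          rw [← mulVec_mulVec, hea, heb, mulVec_mulVec]⟩
      add_mem' := by
        rintro a b ⟨ha, a', ha', hea⟩ ⟨hb, b', hb', heb⟩
        exact ⟨K.add_mem ha hb, a' + b', K.add_mem ha' hb', fun u v => by
          rw [add_mulVec, add_mulVec, hs.add_left, hea, heb, hs.add_right]⟩
      algebraMap_mem' := fun c => ⟨K.algebraMap_mem c, algebraMap F _ (σ c), K.algebraMap_mem _, fun u v => by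
        simp only [Algebra.algebraMap_eq_smul_one, smul_mulVec, one_mulVec, hs.smul_left, hs.smul_right, D.inv]⟩ }
  have hxT : (x : Matrix (Fin n) (Fin n) F) ∈ T := by
    obtain ⟨y, hy, he⟩ := hK.inv _ hxK x.ne_zero
    have hye : y = ((x⁻¹ : GL (Fin n) F) : Matrix (Fin n) (Fin n) F) := by
      calc y = ((x⁻¹ : GL (Fin n) F) : Matrix (Fin n) (Fin n) F) * ((x : Matrix (Fin n) (Fin n) F) * y) := by
            rw [← mul_assoc, Units.inv_mul, one_mul]
        _ = _ := by rw [he, mul_one]
    refine ⟨hxK, y, hy, fun u v => ?_⟩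
    conv_lhs => rw [← gl_mulVec_inv x v]
    rw [mem_GU.mp hxG, hye]
  have hle : T ≤ K := fun k hk => hk.1
  haveI : NoZeroDivisors T := ⟨fun {a b} hab => by
    by_cases ha : a = 0
    · exact Or.inl ha
    · obtain ⟨y, -, hy⟩ := hK.inv _ (hle a.2) (fun h => ha (Subtype.ext h))
      have h := congrArg (fun z : T => y * (z : Matrix (Fin n) (Fin n) F)) hab
      simp only [MulMemClass.coe_mul, ← mul_assoc, mul_eq_one_comm.mp hy, one_mul, ZeroMemClass.coe_zero,
        mul_zero] at h
      exact Or.inr (Subtype.ext h)⟩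
  haveI : Nontrivial T := ⟨⟨0, 1, fun h => by
    have := congrArg Subtype.val h
    exact zero_ne_one (α := Matrix (Fin n) (Fin n) F) this⟩⟩
  haveI : IsDomain T := NoZeroDivisors.to_isDomain T
  haveI : Finite T := Finite.of_injective _ (Subtype.val_injective (p := (· ∈ T)))
  have hfield : IsField T := Finite.isDomain_to_isField T
  have hd := finrank_dvd_of_subfield (C := T) fun k hk => by
    obtain ⟨j, hj⟩ := hfield.mul_inv_cancel hk
    exact ⟨j, by rw [hfield.mul_comm, hj]⟩
  rcases (Nat.dvd_prime hn).mp hd with h1 | h1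
  · exfalso
    apply hxs
    obtain ⟨c, hc⟩ := (finrank_eq_one_iff_of_nonzero' (1 : T) one_ne_zero).mp h1 ⟨_, hxT⟩
    have hc' : (x : Matrix (Fin n) (Fin n) F) = c • 1 := (congrArg Subtype.val hc).symm
    have hc0 : c ≠ 0 := fun h => x.ne_zero (by rw [hc', h, zero_smul])
    exact (Cfsg.Geo.mem_scalars_iff x).mpr ⟨Units.mk0 c hc0, hc'⟩
  · have heq : Subalgebra.toSubmodule T = Subalgebra.toSubmodule K :=
      Submodule.eq_of_le_of_finrank_eq hle (h1.trans hK.finrank_eq.symm)
    intro k hk
    have hkT : k ∈ T := by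
      have : k ∈ Subalgebra.toSubmodule T := heq ▸ hk
      exact this
    exact hkT.2

include D in
/-- Eigen-lines with distinct characters permuted transitively are orthogonal, as `n` is odd. -/
theorem lines_orthogonal (hn : Odd n) {H N : Subgroup (GL (Fin n) F)}
    (hirr : Cfsg.Geo.ActsIrreducibly (Cfsg.Geo.matrixSet H)) (hHG : H ≤ Cfsg.GU n F q) (hNG : N ≤ Cfsg.GU n F q)
    {b : Module.Basis (Fin n) F (Fin n → F)} (hb : H ≤ Cfsg.Geo.decompositionStabilizer (basisLines b))
    {l : Fin n → N → F} (hl : Function.Injective l)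
    (he : ∀ i (x : N), (x.1 : Matrix (Fin n) (Fin n) F) *ᵥ b i = l i x • b i) :
    (∀ i j, i ≠ j → Cfsg.hermForm n F q (b i) (b j) = 0) ∧ ∀ i, Cfsg.hermForm n F q (b i) (b i) ≠ 0 := by
  classical
  have hf := D.unitary (n := n)
  have hs := isSesq_of_unitary hf
  let f := Cfsg.hermForm n F q
  have hchar : ∀ i j, f (b i) (b j) ≠ 0 → ∀ x : N, l i x * σ (l j x) = 1 := by
    intro i j hij x
    have h := mem_GU.mp (hNG x.2) (b i) (b j)
    rw [he, he, hs.smul_left, hs.smul_right, ← mul_assoc] at h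
    exact mul_right_cancel₀ hij (h.trans (one_mul _).symm)
  have huniq : ∀ i j k, f (b i) (b j) ≠ 0 → f (b i) (b k) ≠ 0 → j = k := by
    intro i j k hj hk
    refine hl (funext fun x => σ.injective ?_)
    have h1 := hchar i j hj x
    have h0 : l i x ≠ 0 := fun h => by rw [h, zero_mul] at h1; exact zero_ne_one h1
    exact mul_left_cancel₀ h0 (h1.trans (hchar i k hk x).symm)
  have hex : ∀ i, ∃ j, f (b i) (b j) ≠ 0 := by
    intro i
    by_contra h
    push Not at h
    obtain ⟨x, hx⟩ := hs.left_ne (b i) (b.ne_zero i)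
    apply hx
    let g : (Fin n → F) →+ F := AddMonoidHom.mk' (fun y => f (b i) y) (hs.add_right (b i))
    calc f (b i) x = g (∑ j, b.repr x j • b j) := by
          show _ = f (b i) _
          rw [b.sum_repr]
      _ = ∑ j, g (b.repr x j • b j) := map_sum g _ _
      _ = 0 := Finset.sum_eq_zero fun j _ => by
        show Cfsg.hermForm n F q (b i) _ = 0
        rw [hs.smul_right, show Cfsg.hermForm n F q (b i) (b j) = 0 from h j, mul_zero]
  choose π hπ using hex
  have hinvol : ∀ i, π (π i) = i := fun i =>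
    huniq _ _ _ (hπ (π i)) (fun e => hπ i (herm_symm_zero hf e))
  have hequiv : ∀ g ∈ H, ∀ (τ : Equiv.Perm (Fin n)) (c : Fin n → F), (∀ i, c i ≠ 0) →
      (∀ i, (g : Matrix (Fin n) (Fin n) F) *ᵥ b i = c i • b (τ i)) → ∀ i, π (τ i) = τ (π i) := by
    intro g hg τ c hc0 hc i
    refine huniq _ _ _ (hπ (τ i)) fun e => hπ i ?_
    show Cfsg.hermForm n F q (b i) (b (π i)) = 0
    rw [← mem_GU.mp (hHG hg) (b i) (b (π i)), hc, hc, hs.smul_left, hs.smul_right]
    rw [show Cfsg.hermForm n F q (b (τ i)) (b (τ (π i))) = 0 from e, mul_zero, mul_zero]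
  obtain ⟨i0, hi0⟩ : ∃ i, π i = i := by
    by_contra h
    push Not at h
    let τ : Equiv.Perm (Fin n) := Function.Involutive.toPerm π hinvol
    have h2 : τ ^ 2 = 1 := Equiv.ext fun i => by rw [pow_two, Equiv.Perm.mul_apply]; exact hinvol i
    have := Equiv.Perm.card_compl_support_modEq (p := 2) (n := 1) (σ := τ) (by simpa using h2)
    rw [show τ.support = Finset.univ from Finset.eq_univ_iff_forall.mpr fun i =>
      Equiv.Perm.mem_support.mpr (h i), Finset.compl_univ, Finset.card_empty, Fintype.card_fin] at this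
    obtain ⟨k, hk⟩ := hn
    have h' : 0 % 2 = n % 2 := this
    omega
  have hfix : ∀ i, π i = i := by
    let S : Submodule F (Fin n → F) := Submodule.span F (b '' {i | π i = i})
    rcases (irreducible_iff H).mp hirr S (fun g hg v hv => by
      have : S.map (Matrix.toLin' (g : Matrix (Fin n) (Fin n) F)) ≤ S := by
        rw [Submodule.map_span_le]
        rintro _ ⟨i, hi, rfl⟩
        obtain ⟨c, τ, hc0, hc⟩ := exists_monomial (hb hg)
        rw [Matrix.toLin'_apply, hc]
        exact S.smul_mem _ (Submodule.subset_span ⟨τ i, by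
          show π (τ i) = τ i
          rw [hequiv g hg τ c hc0 hc i, show π i = i from hi], rfl⟩)
      exact this ⟨v, hv, by simp⟩) with h | h
    · exfalso
      have : b i0 ∈ S := Submodule.subset_span ⟨i0, hi0, rfl⟩
      rw [h, Submodule.mem_bot] at this
      exact b.ne_zero i0 this
    · intro i
      have : b i ∈ S := h ▸ Submodule.mem_top
      by_contra hne
      exact b.linearIndependent.notMem_span_image (s := {i | π i = i}) hne this
  refine ⟨fun i j hij => ?_, fun i => ?_⟩
  · by_contra h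
    exact hij ((hfix i).symm.trans (huniq _ _ _ (hπ i) h))
  · have := hπ i
    rwa [hfix i] at this

end CfsgLib.GeoPrime
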