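import Mathlib
import Cfsg.Agent.GeoPrime.USubfield
import Cfsg.Agent.GeoPrime.UField

/-!
Maximal subgroups of SU in prime dimension at least five.
-/

set_option autoImplicit false

namespace CfsgLib.GeoPrime

open Matrix

variable {n : ℕ} {F : Type*} [Field F] [Fintype F] {q : ℕ}

/-- The subfield disjunct of odd index. -/
def USubOdd (n : ℕ) (F : Type*) [Field F] [Fintype F] (q : ℕ) (H : Subgroup (GL (Fin n) F)) : Prop :=
  ∃ (F₀ : Subfield F) (r : ℕ) (P : GL (Fin n) F), r.Prime ∧ Odd r ∧ Fintype.card F = Nat.card F₀ ^ r ∧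
    Cfsg.Geo.IsFormRationalStructure (Cfsg.hermForm n F q) F₀ 1 P ∧
    H = Cfsg.Geo.subfieldSubgroup F₀ P ⊓ specialUnitary n F q

/-- The subfield disjunct of index two. -/
def USubTwo (n : ℕ) (F : Type*) [Field F] [Fintype F] (q : ℕ) (H : Subgroup (GL (Fin n) F)) : Prop :=
  Odd q ∧ ∃ (F₀ : Subfield F) (P : GL (Fin n) F), Fintype.card F = Nat.card F₀ ^ 2 ∧
    Cfsg.Geo.IsFormRationalStructure (Cfsg.hermForm n F q) F₀ 1 P ∧
    H = Cfsg.Geo.subfieldSubgroup F₀ P ⊓ specialUnitary n F q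

variable {σ : F ≃+* F} (D : UData n F q σ) {H : Subgroup (GL (Fin n) F)}
  (hn : n.Prime) (hn3 : 3 ≤ n) (hH : Cfsg.Geo.IsMaximalIn (specialUnitary n F q) H)

include D hn hn3 hH in
theorem usubfield_case {P : Subgroup (GL (Fin n) F)} (hM : MinNormal H P)
    (hP : Cfsg.Geo.ActsAbsolutelyIrreducibly (Cfsg.Geo.matrixSet P)) {F₀ : Subfield F} (hF₀ : F₀ ≠ ⊤)
    (hR : Cfsg.Geo.RealisableOver F₀ (Cfsg.Geo.matrixSet P)) : USubOdd n F q H ∨ USubTwo n F q H := by
  obtain ⟨F₁, r, Q, hr, hne, hc, hform, h2, hle⟩ := form_rational_case D hn (by omega) hP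
    (fun x hx => (hH.1.le (hM.le hx)).1) hM.normal hF₀ hR
  have heq := eq_inf_of_maximal hH hle (su_not_le_subfieldSubgroup D hn3 hne Q)
  rcases hr.eq_two_or_odd' with rfl | hro
  · exact Or.inr ⟨h2 rfl, F₁, Q, hc, hform, heq⟩
  · exact Or.inl ⟨F₁, r, Q, hr, hro, hc, hform, heq⟩

include D hn hn3 hH in
/-- The class-two case. -/
theorem uheisenberg_case {P : Subgroup (GL (Fin n) F)} (hM : MinNormal H P)
    (hP : Cfsg.Geo.ActsAbsolutelyIrreducibly (Cfsg.Geo.matrixSet P))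
    (hc2 : ⁅P, P⁆ ≤ Cfsg.Geo.scalars (Fin n) F) :
    (USubOdd n F q H ∨ USubTwo n F q H) ∨
    ∃ (p k : ℕ) (R : Subgroup (GL (Fin n) F)), p.Prime ∧ CharP F p ∧ q = p ^ k ∧ 0 < k ∧ 2 * k ∣ n - 1 ∧
      (p % n) ^ k % n = n - 1 ∧ (∀ d, 0 < d → d < 2 * k → (p % n) ^ d % n ≠ 1) ∧
      Cfsg.Geo.IsSymplecticTypeGroup n R ∧ Cfsg.Geo.ActsAbsolutelyIrreducibly (Cfsg.Geo.matrixSet R) ∧
      R ≤ Cfsg.GU n F q ∧ Nat.card R = n ^ 3 ∧ Nat.card (Subgroup.center R) = n ∧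
      R ≤ H ∧ ⁅R, R⁆ ≤ Cfsg.Geo.scalars (Fin n) F ∧ H ≤ Cfsg.Geo.subgroupNormalizer R := by
  classical
  haveI := Fact.mk hn
  haveI : NeZero n := ⟨hn.ne_zero⟩
  have hodd : Odd n := hn.odd_of_ne_two (by omega)
  have hns : ∃ x ∈ P, x ∉ Cfsg.Geo.scalars (Fin n) F := by
    have := hM.not_scalar
    rw [SetLike.not_le_iff_exists] at this
    exact this
  have hPS : P ≤ Cfsg.Geo.specialLinear (Fin n) F := fun x hx => (hH.1.le (hM.le hx)).2
  have hPG : P ≤ Cfsg.GU n F q := fun x hx => (hH.1.le (hM.le hx)).1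
  have hcomm := commutator_scalar_iff.mp hc2
  obtain ⟨ω, b, hb⟩ := exists_heisenberg hP hPS hcomm hodd hns
  obtain ⟨p, k, τ, hp, hpC, hk0, hqp, -⟩ := exists_conj D.card
  haveI := Fact.mk hp
  haveI := hpC
  haveI : ExpChar F p := ExpChar.prime hp
  have hcard : Fintype.card F = p ^ (2 * k) := by rw [D.card, hqp, ← pow_mul, mul_comm]
  have hwpow : ∀ d, ω ^ p ^ d = ω ↔ (p % n) ^ d % n = 1 := by
    intro d
    rw [← Nat.pow_mod]
    constructor
    · intro h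
      refine hb.prim.pow_inj (Nat.mod_lt _ hn.pos) hn.one_lt ?_
      rw [pow_one, ← pow_eq_pow_mod _ hb.prim.pow_eq_one, h]
    · intro h
      rw [pow_eq_pow_mod _ hb.prim.pow_eq_one, h, pow_one]
  by_cases hmin : ∃ d, 0 < d ∧ d < 2 * k ∧ ω ^ p ^ d = ω
  · obtain ⟨d, hd0, hde, hd⟩ := hmin
    refine Or.inl (usubfield_case D hn hn3 hH hM hP (F₀ := frobFixed F p d) ?_ ?_)
    · exact frobFixed_ne_top F p hp.one_lt hd0 (by rw [hcard]; exact Nat.pow_lt_pow_right hp.one_lt hde)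
    · obtain ⟨B, hB⟩ := exists_basisChange b
      refine ⟨B, ?_⟩
      rintro _ ⟨x, hx, rfl⟩ i j
      rw [← Units.val_mul, ← Units.val_mul, hB]
      obtain ⟨c, a, hcpow, hc⟩ := hb.monomial x hx
      rw [hc, map_smul, b.repr_self, Finsupp.smul_apply, smul_eq_mul, Finsupp.single_apply]
      obtain ⟨l, hl⟩ := hcpow j
      split
      · rw [mul_one, hl]; exact pow_mem ((mem_frobFixed F p).mpr hd) l
      · rw [mul_zero]; exact zero_mem _
  push Not at hmin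
  have hwe : (p % n) ^ (2 * k) % n = 1 := (hwpow _).mp (by rw [← hcard, FiniteField.pow_card])
  have hmin' : ∀ d, 0 < d → d < 2 * k → (p % n) ^ d % n ≠ 1 := fun d hd0 hde h =>
    hmin d hd0 hde ((hwpow d).mpr h)
  have hcast : ∀ d a, a < n → ((p : ZMod n) ^ d = (a : ZMod n) ↔ (p % n) ^ d % n = a) := by
    intro d a ha
    rw [← Nat.cast_pow, ZMod.natCast_eq_natCast_iff', Nat.pow_mod, Nat.mod_eq_of_lt ha]
  have hord : orderOf (p : ZMod n) = 2 * k := by
    rw [orderOf_eq_iff (by omega)]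
    refine ⟨?_, fun d hde hd0 h => hmin' d hd0 hde ?_⟩
    · have := (hcast (2 * k) 1 hn.one_lt).mpr hwe
      rwa [Nat.cast_one] at this
    · exact (hcast d 1 hn.one_lt).mp (by rwa [Nat.cast_one])
  refine Or.inr ⟨p, k, P, hp, hpC, hqp, hk0, ?_, ?_, hmin', symplecticType_of_heisenberg hodd hM hP hb, hP, hPG,
    hb.card_eq, hb.card_center, hM.le, hc2, ?_⟩
  · rw [← hord]
    refine orderOf_dvd_of_pow_eq_one (ZMod.pow_card_sub_one_eq_one ?_)
    intro h0
    have := hord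
    rw [h0, orderOf_zero] at this
    omega
  · refine (hcast k (n - 1) (by omega)).mp ?_
    have hsq : ((p : ZMod n) ^ k) ^ 2 = 1 := by
      rw [← pow_mul, mul_comm, ← hord, pow_orderOf_eq_one]
    rw [Nat.cast_sub hn.one_lt.le, ZMod.natCast_self, Nat.cast_one, zero_sub]
    rcases sq_eq_one_iff.mp hsq with h | h
    · exfalso
      exact hmin' k hk0 (by omega) ((hcast k 1 hn.one_lt).mp (by rwa [Nat.cast_one]))
    · exact h
  · intro h hh
    rw [Cfsg.Geo.subgroupNormalizer, Subgroup.mem_normalizer_iff]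
    intro x
    refine ⟨hM.normal h hh x, fun hx => ?_⟩
    simpa [mul_assoc] using hM.normal h⁻¹ (H.inv_mem hh) _ hx

include D hn hn3 hH in
/-- Maximal subgroups of SU in odd prime dimension, with inclusions in the last two geometric cases. -/
theorem unitary_incl :
    (∃ W : Submodule F (Fin n → F), W ≠ ⊥ ∧ Cfsg.Geo.IsTotallySingularFor (Cfsg.hermForm n F q) W ∧
      H = Cfsg.Geo.subspaceStabilizer W ⊓ specialUnitary n F q) ∨
    (∃ W : Submodule F (Fin n → F), W ≠ ⊥ ∧ Cfsg.Geo.IsNondegenerateOn (Cfsg.hermForm n F q) W ∧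
      2 * Module.finrank F W < n ∧ H = Cfsg.Geo.subspaceStabilizer W ⊓ specialUnitary n F q) ∨
    (∃ D : Fin n → Submodule F (Fin n → F),
      Cfsg.Geo.IsNondegenerateMDecomposition (Cfsg.hermForm n F q) 1 D ∧
      ∃ b : Module.Basis (Fin n) F (Fin n → F), D = basisLines b ∧
        (∀ i j, i ≠ j → Cfsg.hermForm n F q (b i) (b j) = 0) ∧
        (∀ i, Cfsg.hermForm n F q (b i) (b i) ≠ 0) ∧ H ≤ Cfsg.Geo.decompositionStabilizer D) ∨
    (∃ K : Subalgebra F (Matrix (Fin n) (Fin n) F), Cfsg.Geo.IsFieldSubalgebra n K ∧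
      Cfsg.Geo.IsAdjointClosedFor (Cfsg.hermForm n F q) K ∧
      H = Cfsg.Geo.subalgebraNormalizer K ⊓ specialUnitary n F q ∧
      ∃ x ∈ H, x ∉ Cfsg.Geo.scalars (Fin n) F ∧ (x : Matrix (Fin n) (Fin n) F) ∈ K) ∨
    (USubOdd n F q H ∨ USubTwo n F q H) ∨
    (∃ (p k : ℕ) (R : Subgroup (GL (Fin n) F)), p.Prime ∧ CharP F p ∧ q = p ^ k ∧ 0 < k ∧ 2 * k ∣ n - 1 ∧
      (p % n) ^ k % n = n - 1 ∧ (∀ d, 0 < d → d < 2 * k → (p % n) ^ d % n ≠ 1) ∧
      Cfsg.Geo.IsSymplecticTypeGroup n R ∧ Cfsg.Geo.ActsAbsolutelyIrreducibly (Cfsg.Geo.matrixSet R) ∧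
      R ≤ Cfsg.GU n F q ∧ Nat.card R = n ^ 3 ∧ Nat.card (Subgroup.center R) = n ∧
      R ≤ H ∧ ⁅R, R⁆ ≤ Cfsg.Geo.scalars (Fin n) F ∧ H ≤ Cfsg.Geo.subgroupNormalizer R) ∨
    Cfsg.Geo.InUnitaryResidualClass H := by
  classical
  haveI : NeZero n := ⟨hn.ne_zero⟩
  haveI : Nonempty (Fin n) := ⟨0⟩
  have hodd : Odd n := hn.odd_of_ne_two (by omega)
  have hf := D.unitary (n := n)
  have hHG : H ≤ Cfsg.GU n F q := fun x hx => (hH.1.le hx).1
  by_cases hirr : Cfsg.Geo.ActsIrreducibly (Cfsg.Geo.matrixSet H)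
  swap
  · rw [irreducible_iff] at hirr
    push Not at hirr
    obtain ⟨W, hW, h0, h1⟩ := hirr
    have hperp := perp_invariant hf (fun g hg => mem_GU.mp (hHG hg)) hW
    by_cases hR : W ⊓ perp hf W = ⊥
    swap
    · have hne : W ⊓ perp hf W ≠ ⊤ := fun h => h1 (eq_top_iff.mpr (h.ge.trans inf_le_left))
      refine Or.inl ⟨W ⊓ perp hf W, hR, fun u hu v hv => (mem_perp hf).mp hu.2 v hv.1,
        eq_inf_of_maximal hH (le_subspaceStabilizer fun g hg v hv => ⟨hW g hg v hv.1, hperp g hg v hv.2⟩)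
          (su_not_le_subspaceStabilizer D (by omega) hR hne)⟩
    refine Or.inr (Or.inl ?_)
    obtain ⟨hsum, hndW, hndP⟩ := perp_of_inf_eq_bot hf hR
    have hdW : Module.finrank F W ≠ 0 := fun h => h0 (Submodule.finrank_eq_zero.mp h)
    have hdW' : Module.finrank F W ≠ n := fun h =>
      h1 (Submodule.eq_top_of_finrank_eq (by rw [h, Module.finrank_fin_fun]))
    obtain ⟨m, hm⟩ := hodd
    by_cases hlt : 2 * Module.finrank F W < n
    · exact ⟨W, h0, hndW, hlt,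
        eq_inf_of_maximal hH (le_subspaceStabilizer hW) (su_not_le_subspaceStabilizer D (by omega) h0 h1)⟩
    · have hP0 : perp hf W ≠ ⊥ := fun h => by rw [h, finrank_bot] at hsum; omega
      have hP1 : perp hf W ≠ ⊤ := fun h => by
        rw [h, finrank_top, Module.finrank_fin_fun] at hsum; omega
      exact ⟨perp hf W, hP0, hndP, by omega,
        eq_inf_of_maximal hH (le_subspaceStabilizer hperp) (su_not_le_subspaceStabilizer D (by omega) hP0 hP1)⟩
  refine Or.inr (Or.inr ?_)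
  have hHs : ¬ H ≤ Cfsg.Geo.scalars (Fin n) F := by
    intro hle
    let v : Fin n → F := Pi.single 0 1
    have hv : v ≠ 0 := fun h => by simpa [v] using congrFun h 0
    rcases (irreducible_iff H).mp hirr (Submodule.span F {v}) (fun g hg w hw => by
      obtain ⟨c, -, hc⟩ := scalar_matrix (hle hg)
      rw [hc, smul_mulVec, one_mulVec]
      exact Submodule.smul_mem _ _ hw) with h | h
    · exact hv (by simpa using h)
    · have := congrArg (fun W : Submodule F (Fin n → F) => Module.finrank F W) h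
      simp only [finrank_span_singleton hv, finrank_top, Module.finrank_fin_fun] at this
      omega
  obtain ⟨P, hM⟩ := exists_minNormal hHs
  have hPG : P ≤ Cfsg.GU n F q := hM.le.trans hHG
  rcases clifford_data hn hirr hM.normal with h | ⟨-, b, hle, l, hl, he⟩ | ⟨-, K, hK, hle, hPK⟩ | hP
  · exact absurd h hM.not_scalar
  · obtain ⟨horth, hdiag⟩ := lines_orthogonal D hodd hirr hHG hPG hle hl he
    refine Or.inl ⟨basisLines b, ⟨isMDecomposition_basisLines (by omega) b, fun i w hw hw0 => ?_, ?_⟩,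
      b, rfl, horth, hdiag, hle⟩
    · obtain ⟨c, rfl⟩ := Submodule.mem_span_singleton.mp hw
      have hc : c ≠ 0 := fun h => hw0 (by rw [h, zero_smul])
      exact ⟨⟨b i, Submodule.mem_span_singleton_self _, by
          rw [(isSesq_of_unitary hf).smul_right]; exact mul_ne_zero ((map_ne_zero σ).mpr hc) (hdiag i)⟩,
        ⟨b i, Submodule.mem_span_singleton_self _, by rw [hf.smul_left]; exact mul_ne_zero hc (hdiag i)⟩⟩
    · intro i j hij u hu v hv
      obtain ⟨c, rfl⟩ := Submodule.mem_span_singleton.mp hu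
      obtain ⟨d, rfl⟩ := Submodule.mem_span_singleton.mp hv
      rw [hf.smul_left, (isSesq_of_unitary hf).smul_right, horth i j hij, mul_zero, mul_zero]
  · obtain ⟨x, hx, hxs⟩ : ∃ x ∈ P, x ∉ Cfsg.Geo.scalars (Fin n) F := by
      have := hM.not_scalar
      rw [SetLike.not_le_iff_exists] at this
      exact this
    refine Or.inr (Or.inl ⟨K, hK, adjointClosed_field D hn hK (hPK x hx) (hPG hx) hxs,
      eq_inf_of_maximal hH hle (su_not_le_subalgebraNormalizer D (by omega) hK.inv ?_),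
      x, hM.le hx, hxs, hPK x hx⟩)
    refine ⟨_, hPK x hx, fun c hc => hxs ?_⟩
    have hc0 : c ≠ 0 := fun h => x.ne_zero (by rw [hc, h, zero_smul])
    exact (Cfsg.Geo.mem_scalars_iff x).mpr ⟨Units.mk0 c hc0, hc⟩
  · by_cases hc2 : ⁅P, P⁆ ≤ Cfsg.Geo.scalars (Fin n) F
    · rcases uheisenberg_case D hn hn3 hH hM hP hc2 with h | h
      · exact Or.inr (Or.inr (Or.inl h))
      · exact Or.inr (Or.inr (Or.inr (Or.inl h)))
    have hperf := hM.perfect hc2
    by_cases hsub : ∃ F₀ : Subfield F, F₀ ≠ ⊤ ∧ Cfsg.Geo.RealisableOver F₀ (Cfsg.Geo.matrixSet P)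
    · obtain ⟨F₀, hne, hR⟩ := hsub
      exact Or.inr (Or.inr (Or.inl (usubfield_case D hn hn3 hH hM hP hne hR)))
    push Not at hsub
    refine Or.inr (Or.inr (Or.inr (Or.inr ⟨P, residual_core hn hM hP hperf hsub, ?_,
      fun ⟨f, hf, _⟩ => no_alternating_odd hodd hf.bilinear hf.alternating hf.nondegenerate⟩)))
    rintro ⟨Q, hQ, hfix⟩
    obtain ⟨F₀, hne, hR⟩ := realisable_of_fixes_quad D hP hPG hQ hfix
    exact hsub F₀ hne hR

include D hn hn3 hH in
/-- Maximal subgroups of SU in prime dimension at least five. -/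
theorem unitary_cases (hn5 : 5 ≤ n) :
    (∃ W : Submodule F (Fin n → F), W ≠ ⊥ ∧ Cfsg.Geo.IsTotallySingularFor (Cfsg.hermForm n F q) W ∧
      H = Cfsg.Geo.subspaceStabilizer W ⊓ specialUnitary n F q) ∨
    (∃ W : Submodule F (Fin n → F), W ≠ ⊥ ∧ Cfsg.Geo.IsNondegenerateOn (Cfsg.hermForm n F q) W ∧
      2 * Module.finrank F W < n ∧ H = Cfsg.Geo.subspaceStabilizer W ⊓ specialUnitary n F q) ∨
    (∃ D : Fin n → Submodule F (Fin n → F),
      Cfsg.Geo.IsNondegenerateMDecomposition (Cfsg.hermForm n F q) 1 D ∧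
      H = Cfsg.Geo.decompositionStabilizer D ⊓ specialUnitary n F q) ∨
    (∃ K : Subalgebra F (Matrix (Fin n) (Fin n) F), Cfsg.Geo.IsFieldSubalgebra n K ∧
      Cfsg.Geo.IsAdjointClosedFor (Cfsg.hermForm n F q) K ∧
      H = Cfsg.Geo.subalgebraNormalizer K ⊓ specialUnitary n F q ∧
      ∃ x ∈ H, x ∉ Cfsg.Geo.scalars (Fin n) F ∧ (x : Matrix (Fin n) (Fin n) F) ∈ K) ∨
    (USubOdd n F q H ∨ USubTwo n F q H) ∨
    (∃ (p k : ℕ) (R : Subgroup (GL (Fin n) F)), p.Prime ∧ CharP F p ∧ q = p ^ k ∧ 0 < k ∧ 2 * k ∣ n - 1 ∧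
      (p % n) ^ k % n = n - 1 ∧ (∀ d, 0 < d → d < 2 * k → (p % n) ^ d % n ≠ 1) ∧
      Cfsg.Geo.IsSymplecticTypeGroup n R ∧ Cfsg.Geo.ActsAbsolutelyIrreducibly (Cfsg.Geo.matrixSet R) ∧
      R ≤ Cfsg.GU n F q ∧ Nat.card R = n ^ 3 ∧ Nat.card (Subgroup.center R) = n ∧
      H = Cfsg.Geo.subgroupNormalizer R ⊓ specialUnitary n F q) ∨
    Cfsg.Geo.InUnitaryResidualClass H := by
  haveI := Fact.mk hn
  refine (unitary_incl D hn hn3 hH).imp_right (Or.imp_right (Or.imp ?_ (Or.imp_right (Or.imp_right (Or.imp_left ?_)))))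
  · rintro ⟨Dd, hDd, b, rfl, horth, -, hle⟩
    exact ⟨_, hDd, eq_inf_of_maximal hH hle (su_not_le_decompositionStabilizer D (by omega) b horth)⟩
  · rintro ⟨p, k, R, h1, h2, h3, h4, h5, h6, h7, h8, h9, h10, h11, h12, hRH, hc2, hle⟩
    exact ⟨p, k, R, h1, h2, h3, h4, h5, h6, h7, h8, h9, h10, h11, h12, eq_inf_of_maximal hH hle
      (su_not_le_normalizer D hn5 h9 (fun x hx => (hH.1.le (hRH hx)).2) (commutator_scalar_iff.mp hc2))⟩

end CfsgLib.GeoPrime
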