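import Mathlib
import Cfsg.Agent.GeoPrime.FourData
import Cfsg.Agent.GeoPrime.UField
import Cfsg.Agent.GeoPrime.USubfield

/-!
The normaliser of a field of order `4⁵` in SU(5,2) lies in a subgroup of order 660, so is not maximal.
-/

set_option autoImplicit false

namespace CfsgLib.GeoPrime

open Matrix

variable {F : Type*} [Field F] [Fintype F]

/-- The conjugate transpose. -/
abbrev conjMatT (σ : F ≃+* F) (M : Matrix (Fin 5) (Fin 5) F) : Matrix (Fin 5) (Fin 5) F :=
  Mᵀ.map σ

theorem conjMatT_iso {σ : F ≃+* F} (D : UData 5 F 2 σ) {M : Matrix (Fin 5) (Fin 5) F}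
    (h : conjMatT σ M * M = 1) (u v : Fin 5 → F) :
    Cfsg.hermForm 5 F 2 (M *ᵥ u) (M *ᵥ v) = Cfsg.hermForm 5 F 2 u v := by
  have h' : Mᵀ * M.map σ = 1 := by
    refine Matrix.ext fun i j => σ.injective ?_
    have := congrFun (congrFun h i) j
    simp only [Matrix.mul_apply, Matrix.map_apply, Matrix.transpose_apply, map_sum, map_mul, D.inv] at this ⊢
    rw [this]
    rcases eq_or_ne i j with rfl | hne
    · simp
    · simp [hne]
  rw [form_pullback D, show conjMat σ M = M.map σ from rfl, h', one_mulVec, herm_dot D]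

/-- An element of a Singer field inside SU(5,2) has order dividing eleven. -/
theorem pow_eleven {σ : F ≃+* F} (D : UData 5 F 2 σ) {K : Subalgebra F (Matrix (Fin 5) (Fin 5) F)}
    (hK : Cfsg.Geo.IsFieldSubalgebra 5 K) (hadj : Cfsg.Geo.IsAdjointClosedFor (Cfsg.hermForm 5 F 2) K)
    {x : GL (Fin 5) F} (hxG : x ∈ specialUnitary 5 F 2) (hxK : (x : Matrix (Fin 5) (Fin 5) F) ∈ K) :
    x ^ 11 = 1 := by
  classical
  have hq : Fintype.card F = 4 := D.card.trans (by norm_num)
  haveI : Fact (Nat.Prime 2) := ⟨Nat.prime_two⟩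
  haveI : CharP F 2 := charP_of_card_eq_prime_pow (f := 2) (by rw [hq]; norm_num)
  have hs := isSesq_of_unitary (D.unitary (n := 5))
  letI : CommRing K := { (inferInstance : Ring K) with mul_comm := fun a b => Subtype.ext (hK.comm a a.2 b b.2) }
  haveI : Nontrivial K := ⟨0, 1, fun h => by
    have := congrArg (fun k : K => (k : Matrix (Fin 5) (Fin 5) F) 0 0) h
    simp at this⟩
  haveI : Fintype K := Fintype.ofFinite K
  haveI : NoZeroDivisors K := ⟨fun {a b} hab => or_iff_not_imp_left.mpr fun ha => by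
    obtain ⟨y, hy, he⟩ := hK.inv a a.2 fun h => ha (Subtype.ext h)
    exact ((IsUnit.of_mul_eq_one (⟨y, hy⟩ : K) (Subtype.ext he)).mul_right_eq_zero).mp hab⟩
  haveI : IsDomain K := NoZeroDivisors.to_isDomain K
  letI : Field K := Fintype.fieldOfDomain K
  haveI : CharP K 2 := charP_of_injective_algebraMap (algebraMap F K).injective 2
  have hcardK : Fintype.card K = 1024 := by
    rw [Module.card_eq_pow_finrank (K := F) (V := K), hK.finrank_eq, hq]
    norm_num
  -- the adjoint
  choose A hA using hadj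
  let θ : K → K := fun k => ⟨A k k.2, (hA k k.2).1⟩
  have hθ : ∀ (k : K) (m : Matrix (Fin 5) (Fin 5) F),
      (∀ u v, Cfsg.hermForm 5 F 2 ((k : Matrix (Fin 5) (Fin 5) F) *ᵥ u) v =
        Cfsg.hermForm 5 F 2 u (m *ᵥ v)) → (θ k : Matrix (Fin 5) (Fin 5) F) = m := by
    intro k m hm
    refine Matrix.ext_iff_mulVec.mpr fun v => ?_
    by_contra hne
    obtain ⟨u, hu⟩ := hs.right_ne _ (sub_ne_zero.mpr hne)
    apply hu
    have h1 : Cfsg.hermForm 5 F 2 u (A k k.2 *ᵥ v) = Cfsg.hermForm 5 F 2 u (m *ᵥ v) :=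
      ((hA k k.2).2 u v).symm.trans (hm u v)
    have h2 : Cfsg.hermForm 5 F 2 u (A k k.2 *ᵥ v - m *ᵥ v + m *ᵥ v) =
        Cfsg.hermForm 5 F 2 u (A k k.2 *ᵥ v - m *ᵥ v) + Cfsg.hermForm 5 F 2 u (m *ᵥ v) := hs.add_right _ _ _
    rw [sub_add_cancel, h1] at h2
    exact right_eq_add.mp h2
  have hθspec : ∀ (k : K) u v, Cfsg.hermForm 5 F 2 ((k : Matrix (Fin 5) (Fin 5) F) *ᵥ u) v =
      Cfsg.hermForm 5 F 2 u ((θ k : Matrix (Fin 5) (Fin 5) F) *ᵥ v) := fun k => (hA k k.2).2
  have hθmul : ∀ a b : K, θ (a * b) = θ a * θ b := fun a b => Subtype.ext (by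
    rw [hθ (a * b) ((θ b : Matrix (Fin 5) (Fin 5) F) * θ a) fun u v => by
      rw [MulMemClass.coe_mul, ← mulVec_mulVec, hθspec, hθspec, mulVec_mulVec]]
    exact hK.comm _ (θ b).2 _ (θ a).2)
  have hθadd : ∀ a b : K, θ (a + b) = θ a + θ b := fun a b => Subtype.ext (by
    rw [hθ (a + b) ((θ a : Matrix (Fin 5) (Fin 5) F) + θ b) fun u v => by
      rw [AddMemClass.coe_add, add_mulVec, add_mulVec, hs.add_left, hθspec, hθspec, hs.add_right]]
    rfl)
  have hθalg : ∀ c : F, θ (algebraMap F K c) = algebraMap F K (σ c) := fun c => Subtype.ext (by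
    rw [hθ (algebraMap F K c) (σ c • 1) fun u v => by
      simp [Algebra.algebraMap_eq_smul_one, smul_mulVec, hs.smul_left, hs.smul_right, D.inv]]
    simp [Algebra.algebraMap_eq_smul_one])
  let ψ : K →ₐ[F] K :=
    { toFun := fun k => θ k ^ 2
      map_one' := by
        have : θ 1 = 1 := by simpa using hθalg 1
        rw [this, one_pow]
      map_mul' := fun a b => by rw [hθmul, mul_pow]
      map_zero' := by
        have : θ 0 = 0 := by simpa using hθalg 0
        rw [this, zero_pow two_ne_zero]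
      map_add' := fun a b => by rw [hθadd, add_pow_char]
      commutes' := fun c => by
        show θ _ ^ 2 = _
        rw [hθalg, ← map_pow, D.conj, ← pow_mul]
        congr 1
        rw [show 2 * 2 = Fintype.card F by rw [hq], FiniteField.pow_card] }
  obtain ⟨i, hi⟩ := (FiniteField.bijective_frobeniusAlgHom_pow F K).2 ψ
  have hpow : ∀ (j : ℕ) (k : K), (FiniteField.frobeniusAlgHom F K ^ j) k = k ^ 4 ^ j := by
    intro j k
    induction j with
    | zero => simp
    | succ j ih =>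
      rw [pow_succ', AlgHom.mul_apply, ih, FiniteField.coe_frobeniusAlgHom]
      show (k ^ 4 ^ j) ^ Fintype.card F = _
      rw [hq, ← pow_mul, ← pow_succ]
  set xk : K := ⟨_, hxK⟩
  have hθx : θ xk * xk = 1 := by
    refine Subtype.ext ?_
    rw [MulMemClass.coe_mul, hθ xk ((x⁻¹ : GL (Fin 5) F) : Matrix (Fin 5) (Fin 5) F) fun u v => by
      conv_lhs => rw [← gl_mulVec_inv x v]
      rw [mem_GU.mp hxG.1]]
    exact x.inv_mul
  have hx33 : xk ^ 33 = 1 := by
    have h1 : xk ^ 4 ^ (i : ℕ) = θ xk ^ 2 := (hpow i xk).symm.trans (DFunLike.congr_fun hi xk)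
    have h2 : xk ^ (4 ^ (i : ℕ) + 2) = 1 := by rw [pow_add, h1, ← mul_pow, hθx, one_pow]
    have hx0 : xk ≠ 0 := fun h => by rw [h, mul_zero] at hθx; exact zero_ne_one hθx
    have h3 : xk ^ 1023 = 1 := by
      have := FiniteField.pow_card_sub_one_eq_one xk hx0
      rwa [hcardK] at this
    have hilt : (i : ℕ) < 5 := lt_of_lt_of_eq i.2 hK.finrank_eq
    have hg := Nat.dvd_gcd (orderOf_dvd_of_pow_eq_one h2) (orderOf_dvd_of_pow_eq_one h3)
    rw [← orderOf_dvd_iff_pow_eq_one]
    refine hg.trans ?_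
    generalize (i : ℕ) = m at hilt
    interval_cases m <;> decide
  set a : K := xk ^ 11 with ha
  have ha3 : a ^ 4 = a := by rw [pow_succ, ha, ← pow_mul, show 11 * 3 = 33 from rfl, hx33, one_mul]
  obtain ⟨c, hc⟩ : ∃ c : F, algebraMap F K c = a := by
    by_contra hne
    push Not at hne
    have hsub := Polynomial.card_le_degree_of_subset_roots (p := (Polynomial.X ^ 4 - Polynomial.X : Polynomial K))
      (Z := insert a (Finset.univ.image (algebraMap F K))) (fun y hy => by
        rw [Polynomial.mem_roots (FiniteField.X_pow_card_sub_X_ne_zero K (by norm_num))]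
        rcases Finset.mem_insert.mp hy with rfl | hy
        · simp [ha3]
        · obtain ⟨c, -, rfl⟩ := Finset.mem_image.mp hy
          simp [← map_pow, show c ^ 4 = c by rw [← hq]; exact FiniteField.pow_card c])
    rw [Finset.card_insert_of_notMem (by simpa using fun c => hne c),
      Finset.card_image_of_injective _ (algebraMap F K).injective, Finset.card_univ, hq,
      FiniteField.X_pow_card_sub_X_natDegree_eq K (by norm_num : 1 < 4)] at hsub
    omega
  have hxm : ((x ^ 11 : GL (Fin 5) F) : Matrix (Fin 5) (Fin 5) F) = c • 1 := by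
    have h := congrArg Subtype.val hc
    rw [ha, SubmonoidClass.coe_pow] at h
    rw [Units.val_pow_eq_pow_val]
    refine h.symm.trans ?_
    simp [Algebra.algebraMap_eq_smul_one]
  have hc5 : c ^ 5 = 1 := by
    have h := mem_specialLinear.mp ((Cfsg.Geo.specialLinear (Fin 5) F).pow_mem hxG.2 11)
    rwa [hxm, Matrix.det_smul, det_one, mul_one, Fintype.card_fin] at h
  have hc1 : c = 1 := by
    have h4 : c ^ 4 = c := by rw [← hq]; exact FiniteField.pow_card c
    have hc2 : c ^ 2 = 1 := by rw [pow_two]; nth_rewrite 1 [← h4]; rw [← pow_succ]; exact hc5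
    calc c = (c ^ 2) ^ 2 := by rw [← pow_mul]; exact h4.symm
      _ = 1 := by rw [hc2, one_pow]
  exact Units.ext (by rw [hxm, hc1, one_smul, Units.val_one])

theorem eleven_sq_not_dvd (hq : Fintype.card F = 4) : ¬ 11 ^ 2 ∣ Nat.card (GL (Fin 5) F) := by
  rw [card_GL_field]
  simp only [hq, Fin.prod_univ_five]
  norm_num

/-- Subgroups of order a power of eleven have order at most eleven. -/
theorem eleven_group_eq (hq : Fintype.card F = 4) {G : Subgroup (GL (Fin 5) F)} {x : G} (hx : orderOf x = 11)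
    {T : Subgroup G} (hT : IsPGroup 11 T) (hxT : x ∈ T) : T = Subgroup.zpowers x := by
  haveI : Fact (Nat.Prime 11) := ⟨by norm_num⟩
  refine (Subgroup.eq_of_le_of_card_ge (Subgroup.zpowers_le.mpr hxT) ?_).symm
  obtain ⟨k, hk⟩ := IsPGroup.iff_card.mp hT
  rw [Nat.card_zpowers, hx, hk]
  by_contra hlt
  have h2 : 2 ≤ k := by
    by_contra h
    apply hlt
    interval_cases k <;> norm_num
  refine eleven_sq_not_dvd hq ((pow_dvd_pow 11 h2).trans ?_)
  rw [← hk]
  exact (Subgroup.card_subgroup_dvd_card T).trans (Subgroup.card_subgroup_dvd_card G)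

theorem mem_zpowers_of_commute (hq : Fintype.card F = 4) {x y : GL (Fin 5) F} (hx : orderOf x = 11)
    (hy : y ^ 11 = 1) (hxy : x * y = y * x) : y ∈ Subgroup.zpowers x := by
  haveI : Fact (Nat.Prime 11) := ⟨by norm_num⟩
  set G := Subgroup.closure ({x, y} : Set (GL (Fin 5) F))
  have hxG : x ∈ G := Subgroup.subset_closure (Set.mem_insert x _)
  have hyG : y ∈ G := Subgroup.subset_closure (Set.mem_insert_of_mem _ rfl)
  have hcomm : ∀ a ∈ G, ∀ b ∈ G, a * b = b * a := by
    have hle : G ≤ Subgroup.centralizer ({x, y} : Set (GL (Fin 5) F)) := by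
      rw [Subgroup.closure_le]
      rintro a (rfl | rfl) b (rfl | rfl)
      · rfl
      · exact hxy.symm
      · exact hxy
      · rfl
    intro a ha b hb
    have hb' : G ≤ Subgroup.centralizer {a} := by
      rw [Subgroup.closure_le]
      intro c hc
      rw [SetLike.mem_coe, Subgroup.mem_centralizer_singleton_iff]
      exact hle ha c hc
    exact (Subgroup.mem_centralizer_singleton_iff.mp (hb' hb)).symm
  have hle11 : ∀ a ∈ G, a ^ 11 = 1 := by
    intro a ha
    induction ha using Subgroup.closure_induction with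
    | mem z hz =>
      rcases hz with rfl | rfl
      · rw [← hx, pow_orderOf_eq_one]
      · exact hy
    | one => exact one_pow _
    | mul a b ha hb iha ihb => rw [(show Commute a b from hcomm a ha b hb).mul_pow, iha, ihb, one_mul]
    | inv a _ ih => rw [inv_pow, ih, inv_one]
  have hT : IsPGroup 11 (⊤ : Subgroup G) := fun a => ⟨1, Subtype.ext (Subtype.ext (by
    simpa using hle11 _ (a : G).2))⟩
  have h := eleven_group_eq hq (x := ⟨x, hxG⟩) (by rw [Subgroup.orderOf_mk, hx]) hT (Subgroup.mem_top _)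
  have : (⟨y, hyG⟩ : G) ∈ Subgroup.zpowers (⟨x, hxG⟩ : G) := h ▸ Subgroup.mem_top _
  obtain ⟨m, hm⟩ := Subgroup.mem_zpowers_iff.mp this
  exact Subgroup.mem_zpowers_iff.mpr ⟨m, by simpa using congrArg Subtype.val hm⟩

theorem exists_conj_eleven (hq : Fintype.card F = 4) {G : Subgroup (GL (Fin 5) F)} {x y : GL (Fin 5) F}
    (hxG : x ∈ G) (hyG : y ∈ G) (hx : orderOf x = 11) (hy : orderOf y = 11) :
    ∃ g ∈ G, ∀ z, z ∈ Subgroup.zpowers x ↔ g * z * g⁻¹ ∈ Subgroup.zpowers y := by
  haveI : Fact (Nat.Prime 11) := ⟨by norm_num⟩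
  have key : ∀ (x : G), orderOf x = 11 → ∃ S : Sylow 11 G, (S : Subgroup G) = Subgroup.zpowers x := by
    intro x hx
    have hp : IsPGroup 11 (Subgroup.zpowers x) := IsPGroup.of_card (n := 1) (by rw [Nat.card_zpowers, hx, pow_one])
    obtain ⟨S, hS⟩ := hp.exists_le_sylow
    exact ⟨S, eleven_group_eq hq hx S.2 (hS (Subgroup.mem_zpowers x))⟩
  obtain ⟨S, hS⟩ := key ⟨x, hxG⟩ (by rw [Subgroup.orderOf_mk, hx])
  obtain ⟨T, hT⟩ := key ⟨y, hyG⟩ (by rw [Subgroup.orderOf_mk, hy])
  obtain ⟨g, hg⟩ := MulAction.exists_smul_eq G S T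
  have hmap : (Subgroup.zpowers (⟨x, hxG⟩ : G)).map (MulAut.conj g).toMonoidHom = Subgroup.zpowers ⟨y, hyG⟩ := by
    rw [← hS, ← hT, ← hg]
    rfl
  rw [MonoidHom.map_zpowers] at hmap
  have hsub := congrArg (fun L : Subgroup G => L.map G.subtype) hmap
  simp only [MonoidHom.map_zpowers] at hsub
  refine ⟨g, g.2, fun z => ?_⟩
  change Subgroup.zpowers ((g : GL (Fin 5) F) * x * (g : GL (Fin 5) F)⁻¹) = Subgroup.zpowers y at hsub
  rw [← hsub, Subgroup.mem_zpowers_iff, Subgroup.mem_zpowers_iff]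
  simp only [conj_zpow, mul_left_inj, mul_right_inj]

section Concrete

/-- The element with the given code. -/
def toF (ω : F) : Fin 4 → F := ![0, 1, ω, ω + 1]

/-- A matrix of codes, over the field. -/
def matF (ω : F) (A : Four.CM) : Matrix (Fin 5) (Fin 5) F := Matrix.of fun i j => toF ω (A i j)

/-- The coordinates of a coded vector. -/
def vecF (ω : F) (v : Fin 5 → Fin 4) : Fin 5 → F := fun i => toF ω (v i)

variable {ω : F} (hω : ω ^ 2 + ω + 1 = 0) [CharP F 2]

include hω in
theorem toF_add (a b : Fin 4) : toF ω (Four.addT a b) = toF ω a + toF ω b := by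
  fin_cases a <;> fin_cases b <;> simp [toF, Four.addT] <;> grind

include hω in
theorem toF_mul (a b : Fin 4) : toF ω (Four.mulT a b) = toF ω a * toF ω b := by
  fin_cases a <;> fin_cases b <;> simp [toF, Four.mulT] <;> grind

include hω in
theorem toF_injective : Function.Injective (toF ω) := by
  have h0 : ω ≠ 0 := fun h => by simp [h] at hω
  have h1 : ω ≠ 1 := fun h => by
    rw [h, one_pow, CharTwo.add_self_eq_zero, zero_add] at hω
    exact one_ne_zero hω
  intro a b h
  fin_cases a <;> fin_cases b <;> simp [toF] at h <;> first | rfl | (exfalso; grind)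

include hω in
theorem matF_mul (A B : Four.CM) : matF ω (Four.mulM A B) = matF ω A * matF ω B := by
  ext i k
  simp [matF, Four.mulM, Matrix.mul_apply, Fin.sum_univ_five, toF_add hω, toF_mul hω]

include hω in
theorem matF_mulV (A : Four.CM) (v : Fin 5 → Fin 4) : vecF ω (Four.mulV A v) = matF ω A *ᵥ vecF ω v := by
  funext i
  simp [matF, vecF, Four.mulV, Matrix.mulVec, dotProduct, Fin.sum_univ_five, toF_add hω, toF_mul hω]

theorem matF_one : matF ω Four.oneM = 1 := by
  ext i j
  rcases eq_or_ne i j with rfl | h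
  · simp [matF, Four.oneM, toF]
  · simp [matF, Four.oneM, toF, h]

theorem matF_congr {A B : Four.CM} (h : ∀ i j, A i j = B i j) : matF ω A = matF ω B := by
  ext i j; simp [matF, h]

theorem dec_code : ∀ v : Fin 5 → Fin 4, Four.dec (Four.code v) = v := by
  intro v
  funext i
  apply Fin.ext
  have h0 := (v 0).isLt
  have h1 := (v 1).isLt
  have h2 := (v 2).isLt
  have h3 := (v 3).isLt
  have h4 := (v 4).isLt
  fin_cases i <;> simp [Four.dec, Four.code] <;> omega

/-- The orbit, as vectors. -/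
def orbitF (ω : F) : Set (Fin 5 → F) := {w | ∃ c ∈ Four.orbit, vecF ω (Four.dec c) = w}

include hω in
theorem preserves_iff (A : Four.CM) :
    (∀ w ∈ orbitF ω, matF ω A *ᵥ w ∈ orbitF ω) ↔ Four.preserves A = true := by
  simp only [Four.preserves, List.all_eq_true, List.contains_iff_mem]
  constructor
  · intro h c hc
    obtain ⟨d, hd, he⟩ := h _ ⟨c, hc, rfl⟩
    rw [← matF_mulV hω] at he
    have : Four.dec d = Four.mulV A (Four.dec c) := funext fun i => toF_injective hω (congrFun he i)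
    have hlt : d < 1024 := (show ∀ d ∈ Four.orbit, d < 1024 by decide) d hd
    have hd' : Four.code (Four.dec d) = d := by
      simp [Four.code, Four.dec]; omega
    rwa [← this, hd']
  · rintro h _ ⟨c, hc, rfl⟩
    exact ⟨_, h c hc, by rw [dec_code, matF_mulV hω]⟩

end Concrete

/-- The elements preserving a finite set of vectors. -/
theorem exists_setStabilizer (X : Set (Fin 5 → F)) :
    ∃ S : Subgroup (GL (Fin 5) F), ∀ g, g ∈ S ↔ ∀ w ∈ X, (g : Matrix (Fin 5) (Fin 5) F) *ᵥ w ∈ X := by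
  refine ⟨Cfsg.stabilizing (Cfsg.glToMat (Fin 5) F) X, fun g => ⟨fun h w hw => (h w).mp hw, fun h w => ?_⟩⟩
  refine ⟨h w, fun hw => ?_⟩
  obtain ⟨⟨w', hw'⟩, hww⟩ := (Finite.injective_iff_surjective
    (f := fun w : X => (⟨(g : Matrix (Fin 5) (Fin 5) F) *ᵥ w.1, h w.1 w.2⟩ : X))).mp
    (fun a b e => Subtype.ext (gl_inj g (congrArg Subtype.val e))) ⟨_, hw⟩
  exact gl_inj g (congrArg Subtype.val hww) ▸ hw'

theorem no_field_case_su5_two {σ : F ≃+* F} (D : UData 5 F 2 σ) {H : Subgroup (GL (Fin 5) F)}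
    (hH : Cfsg.Geo.IsMaximalIn (specialUnitary 5 F 2) H)
    {K : Subalgebra F (Matrix (Fin 5) (Fin 5) F)} (hK : Cfsg.Geo.IsFieldSubalgebra 5 K)
    (hadj : Cfsg.Geo.IsAdjointClosedFor (Cfsg.hermForm 5 F 2) K) (hle : H ≤ Cfsg.Geo.subalgebraNormalizer K)
    {x : GL (Fin 5) F} (hx : x ∈ H) (hxs : x ∉ Cfsg.Geo.scalars (Fin 5) F)
    (hxK : (x : Matrix (Fin 5) (Fin 5) F) ∈ K) : False := by
  classical
  have hq : Fintype.card F = 4 := D.card.trans (by norm_num)
  haveI : Fact (Nat.Prime 2) := ⟨Nat.prime_two⟩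
  haveI : Fact (Nat.Prime 11) := ⟨by norm_num⟩
  haveI : CharP F 2 := charP_of_card_eq_prime_pow (f := 2) (by rw [hq]; norm_num)
  obtain ⟨ω, hω⟩ : ∃ ω : F, ω ^ 2 + ω + 1 = 0 := by
    obtain ⟨w, hw⟩ : ∃ w : F, w ∉ ({0, 1} : Finset F) := by
      by_contra h
      push Not at h
      have h1 := Finset.card_le_card (fun w _ => h w : Finset.univ ⊆ ({0, 1} : Finset F))
      rw [Finset.card_univ, hq] at h1
      have := (Finset.card_le_two : ({0, 1} : Finset F).card ≤ 2)
      omega
    simp only [Finset.mem_insert, Finset.mem_singleton, not_or] at hw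
    have h4 : w ^ 4 = w := by rw [← hq]; exact FiniteField.pow_card w
    have hprod : w * (w - 1) * (w ^ 2 + w + 1) = 0 := by linear_combination h4
    exact ⟨w, (mul_eq_zero.mp hprod).resolve_left (mul_ne_zero hw.1 (sub_ne_zero.mpr hw.2))⟩
  have hσT : ∀ a, σ (toF ω a) = toF ω (Four.mulT a a) := fun a => by
    rw [D.conj, sq, toF_mul hω]
  -- elements of SU(5,2)
  have mkSU : ∀ (A : Four.CM) (k : ℕ), k.Coprime 3 → (∀ i j, Four.mulM (Four.star A) A i j = Four.oneM i j) →
      matF ω A ^ k = 1 →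
      ∃ g ∈ specialUnitary 5 F 2, (g : Matrix (Fin 5) (Fin 5) F) = matF ω A := by
    intro A k hk hu hpow
    have h1 : matF ω (Four.star A) * matF ω A = 1 := by rw [← matF_mul hω, matF_congr hu, matF_one]
    have hstar : conjMatT σ (matF ω A) = matF ω (Four.star A) := by
      ext i j
      simp [conjMatT, matF, Four.star, hσT]
    have hdetk : (matF ω A).det ^ k = 1 := by rw [← det_pow, hpow, det_one]
    have hne : (matF ω A).det ≠ 0 := fun h0 => by
      have := congrArg Matrix.det h1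
      rw [det_mul, h0, mul_zero, det_one] at this
      exact zero_ne_one this
    refine ⟨GeneralLinearGroup.mkOfDetNeZero _ hne, ⟨mem_GU.mpr fun u v => ?_, mem_specialLinear.mpr ?_⟩, rfl⟩
    · show Cfsg.hermForm 5 F 2 (matF ω A *ᵥ u) (matF ω A *ᵥ v) = _
      exact conjMatT_iso D (by rw [hstar]; exact h1) u v
    · show (matF ω A).det = 1
      have h3 : (matF ω A).det ^ 3 = 1 := by
        have := FiniteField.pow_card_sub_one_eq_one _ hne
        rwa [hq] at this
      have hd := Nat.dvd_gcd (orderOf_dvd_of_pow_eq_one hdetk) (orderOf_dvd_of_pow_eq_one h3)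
      rw [hk.gcd_eq_one, Nat.dvd_one, orderOf_eq_one_iff] at hd
      exact hd
  have hP : ∀ a : ℕ, matF ω (Four.P0 1) ^ a = matF ω (Four.P0 (Fin.ofNat 11 a)) := by
    intro a
    induction a with
    | zero => rw [pow_zero, ← matF_one (ω := ω)]; exact (matF_congr Four.P0_zero).symm
    | succ a ih =>
      rw [pow_succ, ih, ← matF_mul hω, matF_congr (Four.P0_succ _)]
      congr 2
      exact Fin.ext (by simp [Fin.val_add])
  obtain ⟨x0, hx0S, hx0⟩ := mkSU (Four.P0 1) 11 (by norm_num) Four.P0_unit (by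
    rw [hP 11]; exact (matF_congr (Four.P0_zero)).trans matF_one)
  obtain ⟨y0, hy0S, hy0⟩ := mkSU Four.Y0 5 (by norm_num) Four.Y0_unit (by
    rw [pow_succ, pow_succ, pow_succ, pow_succ, pow_one, mul_assoc (matF ω Four.Y0 * matF ω Four.Y0),
      ← matF_mul hω, ← matF_mul hω,
      ← matF_mul hω, matF_congr Four.Y0_five, matF_one])
  obtain ⟨t0, ht0S, ht0⟩ := mkSU Four.T0 2 (by norm_num) Four.T0_unit (by
    rw [pow_two, ← matF_mul hω, matF_congr Four.T0_sq, matF_one])
  have hD0det : (matF ω Four.D0).det = 1 := by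
    have : matF ω Four.D0 = Matrix.diagonal fun i => toF ω (![2, 3, 1, 1, 1] i) := by
      ext i j
      rcases eq_or_ne i j with rfl | h
      · simp [matF, Four.D0]
      · simp [matF, Four.D0, h, toF]
    rw [this, det_diagonal, Fin.prod_univ_five]
    simp [toF]
    grind
  obtain ⟨d0, hd0S, hd0⟩ : ∃ g ∈ specialUnitary 5 F 2, (g : Matrix (Fin 5) (Fin 5) F) = matF ω Four.D0 := by
    refine ⟨GeneralLinearGroup.mkOfDetNeZero (matF ω Four.D0) (by rw [hD0det]; exact one_ne_zero),
      ⟨mem_GU.mpr fun u v => ?_, mem_specialLinear.mpr hD0det⟩, rfl⟩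
    show Cfsg.hermForm 5 F 2 (matF ω Four.D0 *ᵥ u) (matF ω Four.D0 *ᵥ v) = _
    refine conjMatT_iso D ?_ u v
    rw [show conjMatT σ (matF ω Four.D0) = matF ω (Four.star Four.D0) by
      ext i j; simp [conjMatT, matF, Four.star, hσT], ← matF_mul hω, matF_congr Four.D0_unit, matF_one]
  have hx0pow : ∀ a : ℕ, ((x0 ^ a : GL (Fin 5) F) : Matrix (Fin 5) (Fin 5) F) = matF ω (Four.P0 (Fin.ofNat 11 a)) :=
    fun a => by rw [Units.val_pow_eq_pow_val, hx0, hP]
  have hx0o : orderOf x0 = 11 := by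
    refine orderOf_eq_prime (Units.ext ?_) fun h => ?_
    · rw [hx0pow, Units.val_one]; exact (matF_congr Four.P0_zero).trans matF_one
    · rw [h, Units.val_one] at hx0
      have := congrFun (congrFun hx0 0) 0
      have h2 : Four.P0 1 0 0 = 1 := toF_injective hω (this.symm.trans (by simp [toF]))
      revert h2; decide
  -- move `x` to `x0`
  have hHS : H ≤ specialUnitary 5 F 2 := hH.1.le
  have hxo : orderOf x = 11 := orderOf_eq_prime (pow_eleven D hK hadj (hHS hx) hxK) fun h => hxs (by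
    rw [h]; exact one_mem _)
  obtain ⟨g, hgS, hg⟩ := exists_conj_eleven hq (hHS hx) hx0S hxo hx0o
  obtain ⟨b, hb⟩ : ∃ b : ℕ, g⁻¹ * x0 * g = x ^ b := by
    have : g⁻¹ * x0 * g ∈ Subgroup.zpowers x := (hg _).mpr (by
      simp [mul_assoc, Subgroup.mem_zpowers x0])
    rw [← mem_powers_iff_mem_zpowers] at this
    obtain ⟨b, hb⟩ := this
    exact ⟨b, hb.symm⟩
  have hxpowK : ∀ m : ℕ, ((x ^ m : GL (Fin 5) F) : Matrix (Fin 5) (Fin 5) F) ∈ K := fun m => by
    rw [Units.val_pow_eq_pow_val]; exact pow_mem hxK m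
  have hconjx : ∀ h ∈ H, ∀ z ∈ Subgroup.zpowers x, h * z * h⁻¹ ∈ Subgroup.zpowers x := by
    intro h hh z hz
    have h1 : h * x * h⁻¹ ∈ Subgroup.zpowers x := by
      have hm : ((h * x * h⁻¹ : GL (Fin 5) F) : Matrix (Fin 5) (Fin 5) F) ∈ K := by
        rw [Units.val_mul, Units.val_mul]
        exact (mem_subalgebraNormalizer.mp (hle hh) _).mp hxK
      refine mem_zpowers_of_commute hq hxo (pow_eleven D hK hadj (hHS (H.mul_mem (H.mul_mem hh hx) (H.inv_mem hh))) hm)
        (Units.ext ?_)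
      rw [Units.val_mul, Units.val_mul]
      exact hK.comm _ hxK _ hm
    obtain ⟨m, rfl⟩ := Subgroup.mem_zpowers_iff.mp hz
    rw [← conj_zpow]
    exact (Subgroup.zpowers x).zpow_mem h1 m
  -- the overgroup
  obtain ⟨S, hS⟩ := exists_setStabilizer (orbitF ω)
  have hx0m : x0 ∈ S := (hS x0).mpr (by rw [hx0]; exact (preserves_iff hω _).mpr Four.P0_preserves)
  have hy0m : y0 ∈ S := (hS y0).mpr (by rw [hy0]; exact (preserves_iff hω _).mpr Four.Y0_preserves)
  have ht0m : t0 ∈ S := (hS t0).mpr (by rw [ht0]; exact (preserves_iff hω _).mpr Four.T0_preserves)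
  have hy0x : y0 * x0 * y0⁻¹ = x0 ^ 4 := by
    rw [mul_inv_eq_iff_eq_mul]
    refine Units.ext ?_
    rw [Units.val_mul, Units.val_mul, hx0pow, hy0, hx0, ← matF_mul hω, ← matF_mul hω, matF_congr Four.Y0_conj]
    rfl
  have hHM : ∀ h ∈ H, g * h * g⁻¹ ∈ S := by
    intro h hh
    set h' := g * h * g⁻¹ with hh'
    have h1 : h' * x0 * h'⁻¹ ∈ Subgroup.zpowers x0 := by
      have := (hg _).mp (hconjx h hh _ (hb ▸ (Subgroup.zpowers x).pow_mem (Subgroup.mem_zpowers x) b :
        g⁻¹ * x0 * g ∈ Subgroup.zpowers x))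
      simpa [hh', mul_assoc] using this
    rw [← mem_powers_iff_mem_zpowers] at h1
    obtain ⟨a, ha⟩ := h1
    change x0 ^ a = h' * x0 * h'⁻¹ at ha
    have htr : (matF ω (Four.P0 (Fin.ofNat 11 a))).trace = (matF ω (Four.P0 1)).trace := by
      rw [← hx0pow, ha, Units.val_mul, Units.val_mul, trace_mul_cycle, ← Units.val_mul, inv_mul_cancel,
        Units.val_one, one_mul, hx0]
    have hQR := Four.P0_trace (Fin.ofNat 11 a) (toF_injective hω (by
      simpa [Matrix.trace, Fin.sum_univ_five, matF, toF_add hω] using htr))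
    -- a power of `y0` with the same action
    have hy : ∀ m : ℕ, y0 ^ m * x0 * (y0 ^ m)⁻¹ = x0 ^ 4 ^ m := by
      intro m
      induction m with
      | zero => simp
      | succ m ih =>
        rw [pow_succ', _root_.mul_inv_rev, show y0 * y0 ^ m * x0 * ((y0 ^ m)⁻¹ * y0⁻¹) =
          y0 * (y0 ^ m * x0 * (y0 ^ m)⁻¹) * y0⁻¹ by group, ih, ← conj_pow, hy0x, ← pow_mul, ← pow_succ']
    obtain ⟨m, hm⟩ : ∃ m : ℕ, (4 ^ m) % 11 = a % 11 := by
      have e : ∀ k : Fin 11, Fin.ofNat 11 a = k → a % 11 = (k : ℕ) := fun k hk => by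
        rw [← hk]; rfl
      rcases hQR with h | h | h | h | h
      exacts [⟨0, by rw [e _ h]; rfl⟩, ⟨1, by rw [e _ h]; rfl⟩, ⟨2, by rw [e _ h]; rfl⟩,
        ⟨3, by rw [e _ h]; rfl⟩, ⟨4, by rw [e _ h]; rfl⟩]
    set w := (y0 ^ m)⁻¹ * h' with hw
    have hwc : w * x0 * w⁻¹ = x0 := by
      rw [hw, show (y0 ^ m)⁻¹ * h' * x0 * ((y0 ^ m)⁻¹ * h')⁻¹ = (y0 ^ m)⁻¹ * (h' * x0 * h'⁻¹) * y0 ^ m by group,
        ← ha, ← pow_mod_orderOf x0 a, hx0o, ← hm, ← hx0o, pow_mod_orderOf, ← hy m]
      group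
    have hwS : w ∈ specialUnitary 5 F 2 := by
      refine mul_mem (inv_mem (pow_mem hy0S m)) ?_
      exact mul_mem (mul_mem hgS (hHS hh)) (inv_mem hgS)
    -- `w` is a polynomial in `x0`
    set W := (w : Matrix (Fin 5) (Fin 5) F)
    set X := (x0 : Matrix (Fin 5) (Fin 5) F)
    set B : Matrix (Fin 5) (Fin 5) F := matF ω fun r c => Four.P0 (c.castLE (by decide)) r 0 with hB
    have hBi : B * matF ω Four.Ci = 1 := by rw [hB, ← matF_mul hω, matF_congr Four.Ci_cyclic, matF_one]
    set e0 : Fin 5 → F := Pi.single 0 1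
    have hcol : ∀ c : Fin 5, (X ^ (c : ℕ)) *ᵥ e0 = fun r => B r c := by
      intro c
      funext r
      rw [show X ^ (c : ℕ) = matF ω (Four.P0 (Fin.ofNat 11 (c : ℕ))) by rw [← hx0pow, Units.val_pow_eq_pow_val]]
      have hc : Fin.ofNat 11 (c : ℕ) = c.castLE (by decide) := Fin.ext (by
        simp only [Fin.val_ofNat, Fin.val_castLE]; exact Nat.mod_eq_of_lt (by omega))
      rw [hc]
      simp [e0, hB, matF]
    set co := matF ω Four.Ci *ᵥ (W *ᵥ e0)
    have hWsum : W = ∑ c : Fin 5, co c • X ^ (c : ℕ) := by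
      have hcommW : W * X = X * W := by
        have := congrArg Units.val (mul_inv_eq_iff_eq_mul.mp hwc)
        simpa using this
      set R := ∑ c : Fin 5, co c • X ^ (c : ℕ) with hR
      have hRX : R * X = X * R := by
        simp only [hR, Finset.sum_mul, Finset.mul_sum, smul_mul_assoc, mul_smul_comm, ← pow_succ, ← pow_succ']
      have he : R *ᵥ e0 = W *ᵥ e0 := by
        have h2 : B *ᵥ co = W *ᵥ e0 := by rw [mulVec_mulVec, hBi, one_mulVec]
        rw [← h2, hR, sum_mulVec]
        funext r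
        simp [smul_mulVec, hcol, Matrix.mulVec, dotProduct, mul_comm, Finset.sum_apply]
      have hall : ∀ c : Fin 5, R *ᵥ (fun r => B r c) = W *ᵥ (fun r => B r c) := fun c => by
        rw [← hcol, mulVec_mulVec, mulVec_mulVec, (Commute.pow_right (hRX : Commute R X) _).eq,
          (Commute.pow_right (hcommW : Commute W X) _).eq, ← mulVec_mulVec, ← mulVec_mulVec, he]
      have hRB : R * B = W * B := by
        ext r c
        exact congrFun (hall c) r
      calc W = W * B * matF ω Four.Ci := by rw [mul_assoc, hBi, mul_one]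
        _ = R := by rw [← hRB, mul_assoc, hBi, mul_one]
    set gi := ((g⁻¹ : GL (Fin 5) F) : Matrix (Fin 5) (Fin 5) F)
    have hwK : ((g⁻¹ * w * g : GL (Fin 5) F) : Matrix (Fin 5) (Fin 5) F) ∈ K := by
      rw [Units.val_mul, Units.val_mul, show (w : Matrix (Fin 5) (Fin 5) F) = _ from hWsum, Finset.mul_sum,
        Finset.sum_mul]
      refine K.sum_mem fun c _ => ?_
      rw [mul_smul_comm, smul_mul_assoc]
      refine K.smul_mem ?_ _
      have : ((g⁻¹ * x0 ^ (c : ℕ) * g : GL (Fin 5) F) : Matrix (Fin 5) (Fin 5) F) ∈ K := by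
        have e := conj_pow (a := g⁻¹) (b := x0) (i := (c : ℕ))
        rw [inv_inv] at e
        rw [← e, hb, ← pow_mul]
        exact hxpowK _
      simpa [Units.val_mul, X] using this
    have hw11 : w ∈ Subgroup.zpowers x0 := by
      have hz : g⁻¹ * w * g ∈ Subgroup.zpowers x := by
        refine mem_zpowers_of_commute hq hxo
          (pow_eleven D hK hadj (mul_mem (mul_mem (inv_mem hgS) hwS) hgS) hwK) (Units.ext ?_)
        rw [Units.val_mul, Units.val_mul (g⁻¹ * w * g) x]
        exact hK.comm _ hxK _ hwK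
      simpa [mul_assoc] using (hg _).mp hz
    have : h' = y0 ^ m * w := by rw [hw, mul_inv_cancel_left]
    rw [this]
    exact S.mul_mem (S.pow_mem hy0m m) (Subgroup.zpowers_le.mpr hx0m hw11)
  set M := S.comap (MulAut.conj g).toMonoidHom ⊓ specialUnitary 5 F 2 with hM
  have hmemM : ∀ z, z ∈ M ↔ g * z * g⁻¹ ∈ S ∧ z ∈ specialUnitary 5 F 2 := fun z => Iff.rfl
  rcases hH.2 M (fun h hh => (hmemM h).mpr ⟨hHM h hh, hHS hh⟩) inf_le_right with hMe | hMe
  · -- the involution does not normalise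
    have htM : g⁻¹ * t0 * g ∈ H := hMe ▸ (hmemM _).mpr
      ⟨by simpa [mul_assoc] using ht0m, mul_mem (mul_mem (inv_mem hgS) ht0S) hgS⟩
    have h1 := (hg _).mp (hconjx _ htM (g⁻¹ * x0 * g) (hb ▸ (Subgroup.zpowers x).pow_mem (Subgroup.mem_zpowers x) b))
    have h2 : t0 * x0 * t0⁻¹ ∈ Subgroup.zpowers x0 := by simpa [mul_assoc] using h1
    rw [← mem_powers_iff_mem_zpowers] at h2
    obtain ⟨a, ha⟩ := h2
    change x0 ^ a = t0 * x0 * t0⁻¹ at ha
    have h3 := congrArg Units.val (eq_mul_inv_iff_mul_eq.mp ha)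
    rw [Units.val_mul, Units.val_mul, hx0pow, ht0, hx0, ← matF_mul hω, ← matF_mul hω] at h3
    obtain ⟨i, j, hij⟩ := Four.T0_not_normalising (Fin.ofNat 11 a)
    exact hij (toF_injective hω (congrFun (congrFun h3 i) j)).symm
  · have hdM : g⁻¹ * d0 * g ∈ M := hMe ▸ mul_mem (mul_mem (inv_mem hgS) hd0S) hgS
    have hd : d0 ∈ S := by simpa [mul_assoc] using ((hmemM _).mp hdM).1
    have := (preserves_iff hω Four.D0).mp (by rw [← hd0]; exact (hS d0).mp hd)
    rw [Four.D0_not_preserves] at this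
    exact Bool.false_ne_true this

end CfsgLib.GeoPrime
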